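import Mathlib
import Cfsg.Prelude.Def_Spor_Conway
import Cfsg.Agent.Lib.StdW.D2
import Cfsg.Agent.Lib.L4B.S

/-! 2-components of type `McL`, `Ly`: the 2-local frames. See `blueprint/MCLY.md`. -/

set_option autoImplicit false

namespace H60.ML

open Subgroup H69 H36.SW
open scoped commutatorElement

/-- more facts about `J = McL`, `X = McL:2` -/
structure Fy (X : Type) [Group X] extends Fx X where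
  φ : X
  e : X
  iso : Nonempty (J ≃* Cfsg.Spor.McL)
  φJ : φ ∉ J
  φ2 : φ * φ = 1
  φz : φ * z = z * φ
  φr : φ * r = r * φ
  φU : ∀ u, u ∈ V ↔ φ * u * φ ∈ U
  φT : ∀ a ∈ T, φ * a * φ ∈ T
  VT : V ≤ T
  TU : T ≤ 𝐍(U)
  y2V : y2 ∈ V
  qV : q ∉ V
  hZ : ∀ c ∈ U, c ∈ V → c = 1 ∨ c = z ∨ c = r ∨ c = z * r
  gT : T ≤ U ⊔ V ⊔ zpowers y1
  eQ : ∀ P A : Subgroup X, IsPGroup 2 P → U ⊔ V ≤ P → A ≤ P → (∀ a ∈ A, a * a = 1) → 16 ≤ Nat.card A →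
    A = U ∨ A = V
  pr : ∀ u ∈ U, u ∉ V → ∀ v ∈ V, v ∉ U → ∃ n ∈ J, n ∈ 𝐍(U) ∧ n ∈ 𝐍(V) ∧
    (n * q * n⁻¹)⁻¹ * u ∈ U ⊓ V ∧ (n * y2 * n⁻¹)⁻¹ * v ∈ U ⊓ V
  eJ : e ∈ J
  eU : e ∈ 𝐍(U)
  eV : e ∈ 𝐍(V)
  e3 : ∀ u ∈ U, u * (e * u * e⁻¹) * (e * (e * u * e⁻¹) * e⁻¹) = 1
  eV' : ∀ v ∈ V, e * v * e⁻¹ * v⁻¹ ∈ U
  n1 : ∃ n ∈ J, n ∈ 𝐍(U) ∧ n * y2 * n⁻¹ * y1⁻¹ ∈ U
  n2 : ∃ n ∈ J, n ∈ 𝐍(U) ∧ n * y2 * n⁻¹ * (y1 * y2)⁻¹ ∈ U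
  ncl : J ⊓ 𝐍(U) ≤ closure {x | ∃ m ∈ J ⊓ 𝐍(U), ∃ v ∈ V, x = m * v * m⁻¹}
  pNU : J ⊓ 𝐍(U) ≤ ⁅J ⊓ 𝐍(U), J ⊓ 𝐍(U)⁆
  pNZ : J ⊓ 𝐍(U) ⊓ centralizer {z} ≤ ⁅J ⊓ 𝐍(U) ⊓ centralizer {z}, J ⊓ 𝐍(U) ⊓ centralizer {z}⁆
  gNZ : J ⊓ 𝐍(U) ⊓ centralizer {z} ≤ closure ({z, q, r, w, h, ρ, s} : Set X)
  czr : ∀ y ∈ J, y ∈ 𝐍(U) → y * z = z * y → y * r = r * y → y ^ 3 ∈ U ⊔ V
  o2 : ∀ x ∈ T, x ∉ U → ∃ n ∈ J, n ∈ 𝐍(U) ∧ n * z = z * n ∧ ¬ P2 (x * (n * x * n⁻¹))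
  bs : ∃ (Tm : H13.PS.ZM 0 → H13.PS.ZM 0 → H13.PS.ZM 0 → X) (b σ : X) (h : H13.LB.BS Tm b σ),
    h.S = T ∧ H13.LB.ez Tm = z

variable {X : Type} [Group X] {G : Type*} [Group G]

namespace Fy

variable (F : Fy X)

/-- conjugation by `φ`; exchanges `U` and `V` -/
def sw (x : X) : X := F.φ * x * F.φ
abbrev UV : Subgroup X := F.U ⊔ F.V
abbrev Z0 : Subgroup X := F.U ⊓ F.V
abbrev NU : Subgroup X := F.J ⊓ 𝐍(F.U)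

end Fy

/-- the image of `Y` under a map which is multiplicative on `Y` -/
def im (f : X → G) (Y : Subgroup X) : Subgroup G := closure (f '' Y)

/-- `N ≤ C(t)` acts on `J` through `α`; `K` covers `J` -/
structure Fr (F : Fy X) (t : G) (N K : Subgroup G) (α : G → X) : Prop where
  t2 : t * t = 1
  t1 : t ≠ 1
  NC : ∀ g ∈ N, g * t = t * g
  tN : t ∈ N
  KN : K ≤ N
  nK : N ≤ 𝐍(K)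
  tK : t ∉ K
  mul : ∀ g ∈ N, ∀ k ∈ N, α (g * k) = α g * α k
  mem : ∀ k ∈ K, α k ∈ F.J
  onto : ∀ j ∈ F.J, ∃ k ∈ K, α k = j
  at1 : α t = 1
  ker : ∀ g ∈ N, α g = 1 → P2 g → g = 1 ∨ g = t
  oddK : ∀ g ∈ N, Odd (orderOf g) → g ∈ K
  nconj : ∀ g, g * t * g⁻¹ ∉ K
  syl : ∀ P : Subgroup G, IsPGroup 2 P → (∀ p ∈ P, p * t = t * p) → ∃ c, c * t = t * c ∧ P ^ᶜ c ≤ N
  ctl : ∀ A E : Subgroup G, A ≤ E → E ≤ K → (∀ a ∈ A, a * a = 1) → Nat.card A = 16 →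
    ∀ g ∈ 𝐍(E), g * t = t * g → g ∈ N
  fus : ∃ g, ∃ a ∈ K, a * a = 1 ∧ a ≠ 1 ∧ g * t * g⁻¹ = t * a

/-- a lift of `U V` into `K` -/
structure Lf (F : Fy X) (t : G) (N K : Subgroup G) (α : G → X) (η : X → G) : Prop where
  fr : Fr F t N K α
  mul : ∀ x ∈ F.UV, ∀ y ∈ F.UV, η (x * y) = η x * η y
  mem : ∀ x ∈ F.UV, η x ∈ K
  inv : ∀ x ∈ F.UV, α (η x) = x

/-- a 2-group which induces the translations on `t Û` -/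
structure Rx (F : Fy X) (t : G) (N K : Subgroup G) (α : G → X) (η : X → G) (R : Subgroup G) : Prop where
  lf : Lf F t N K α η
  p2 : IsPGroup 2 R
  tR : t ∈ R
  ηR : ∀ u ∈ F.U, η u ∈ R
  cU : ∀ g ∈ R, ∀ u ∈ F.U, g * η u = η u * g
  tr : ∀ g ∈ R, ∃ u ∈ F.U, g * t * g⁻¹ = t * η u
  on : ∀ u ∈ F.U, ∃ g ∈ R, g * t * g⁻¹ = t * η u
  cov : ∀ n ∈ F.NU, ∃ γ ∈ K, γ ∈ 𝐍(R) ∧ α γ = n
  qn : ∀ x ∈ F.UV, η x ∈ 𝐍(R)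

/-- `U₁ × U₂` -/
def WW (F : Fy X) (t : G) (E : X → G) : Subgroup G := im E F.U ⊔ im E F.U ^ᶜ t

/-- `Û` is the diagonal of `U₁ × U₂`, `U₁ = E U`, `U₂ = t U₁ t` -/
structure Cl (F : Fy X) (t : G) (N K : Subgroup G) (α : G → X) (η E : X → G) : Prop where
  lf : Lf F t N K α η
  mul : ∀ u ∈ F.U, ∀ v ∈ F.U, E (u * v) = E u * E v
  hat : ∀ u ∈ F.U, E u * (t * E u * t) = η u
  cm : ∀ u ∈ F.U, ∀ v ∈ F.U, E u * (t * E v * t) = t * E v * t * E u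
  eqv : ∀ γ ∈ K, γ ∈ 𝐍(WW F t E) → ∀ u ∈ F.U, γ * E u * γ⁻¹ = E (α γ * u * (α γ)⁻¹)
  cov : ∀ n ∈ F.NU, ∃ γ ∈ K, γ ∈ 𝐍(WW F t E) ∧ α γ = n
  qn : ∀ x ∈ F.UV, η x ∈ 𝐍(WW F t E)

/-- matching pictures for `U` and for `V` -/
structure Mt (F : Fy X) (t : G) (N K : Subgroup G) (α : G → X) (η E E' : X → G) : Prop where
  c : Cl F t N K α η E
  c' : Cl F t N K (fun g => F.sw (α g)) (fun x => η (F.sw x)) E'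
  zW : ∀ c ∈ F.Z0, E' c ∈ WW F t E
  n1 : WW F t E' ≤ 𝐍(WW F t E)
  n2 : WW F t E ≤ 𝐍(WW F t E')
  nq : ∀ n ∈ F.NU, n ∈ 𝐍(F.V) → ∃ γ ∈ K, γ ∈ 𝐍(WW F t E) ∧ γ ∈ 𝐍(WW F t E') ∧ α γ = n

/-- the lift of `U V` is the diagonal of `Q₁ × Q₂`, `Q₁ = ε (U V)`, `Q₂ = t Q₁ t` -/
structure Dq (F : Fy X) (t : G) (N K : Subgroup G) (α : G → X) (η ε : X → G) : Prop where
  c : Cl F t N K α η ε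
  c' : Cl F t N K (fun g => F.sw (α g)) (fun x => η (F.sw x)) fun x => ε (F.sw x)
  mul : ∀ x ∈ F.UV, ∀ y ∈ F.UV, ε (x * y) = ε x * ε y
  cm : ∀ x ∈ F.UV, ∀ y ∈ F.UV, ε x * (t * ε y * t) = t * ε y * t * ε x
  nq : ∀ n ∈ F.NU, n ∈ 𝐍(F.V) →
    ∃ γ ∈ K, γ ∈ 𝐍(WW F t ε) ∧ γ ∈ 𝐍(WW F t fun x => ε (F.sw x)) ∧ α γ = n

/-- `C(Q₂)` -/
def YY (F : Fy X) (t : G) (ε : X → G) : Subgroup G := 𝐂(im ε F.UV ^ᶜ t)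
/-- `Z(Q₂)` -/
def Z2 (F : Fy X) (t : G) (ε : X → G) : Subgroup G := im ε F.Z0 ^ᶜ t
/-- the normaliser of `Q₁ Z₂` in `C(Q₂)` -/
def LL1 (F : Fy X) (t : G) (ε : X → G) : Subgroup G := YY F t ε ⊓ 𝐍(im ε F.UV ⊔ Z2 F t ε)

/-- the action of `LL1` on `Q₁` lifts to `X` -/
structure Ps (F : Fy X) (t : G) (ε : X → G) (ψ : G → X) : Prop where
  mul : ∀ a ∈ LL1 F t ε, ∀ b ∈ LL1 F t ε, ψ (a * b) = ψ a * ψ b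
  inv : ∀ x ∈ F.UV, ψ (ε x) = x
  z2 : ∀ a ∈ Z2 F t ε, ψ a = 1
  nrm : ∀ a ∈ LL1 F t ε, ψ a ∈ 𝐍(F.UV)
  act : ∀ a ∈ LL1 F t ε, ∀ x ∈ F.UV, a * ε x * a⁻¹ = ε (ψ a * x * (ψ a)⁻¹)

/-- a group with the Sylow 2-subgroup `P ≥ T` in which `N_J(U)` and `N_J(V)` are induced -/
structure Rc (F : Fy X) (P : Subgroup X) (ι : X → G) : Prop where
  p2 : IsPGroup 2 P
  TP : F.T ≤ P
  mul : ∀ x ∈ P, ∀ y ∈ P, ι (x * y) = ι x * ι y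
  inj : ∀ x ∈ P, ι x = 1 → x = 1
  syl : IsSylowIn 2 (im ι P) ⊤
  cU : ∀ n ∈ F.NU, ∃ y, ∀ u ∈ F.U, y * ι u * y⁻¹ = ι (n * u * n⁻¹)
  cV : ∀ n ∈ F.NU, ∃ y, ∀ u ∈ F.U, y * ι (F.sw u) * y⁻¹ = ι (F.sw (n * u * n⁻¹))

theorem eqns_DefB : True := by
  have := @Fy.sw.eq_1
  have := @im.eq_1.{0}
  have := @WW.eq_1.{0}
  have := @YY.eq_1.{0}
  have := @Z2.eq_1.{0}
  have := @LL1.eq_1.{0}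
  trivial

end H60.ML
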