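import Mathlib
import Cfsg.Agent.Lib.McLy.DefB

/-! The calculus of `Fy`, `im`, `Fr`, `Lf`. -/

set_option autoImplicit false
set_option linter.unusedSectionVars false
set_option linter.unusedVariables false

namespace H60.ML

open Subgroup H69 H36.SW
open scoped commutatorElement

variable {X : Type} [Group X] {G : Type*} [Group G]

namespace Fy

variable (F : Fy X)

theorem φi : F.φ⁻¹ = F.φ := inv_eq_of_mul_eq_one_left F.φ2
theorem sw_eq (x : X) : F.sw x = F.φ * x * F.φ⁻¹ := by rw [F.φi]; rfl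
theorem sw_mul (x y : X) : F.sw (x * y) = F.sw x * F.sw y := by simp only [sw_eq]; group
theorem sw_sw (x : X) : F.sw (F.sw x) = x := by
  show F.φ * (F.φ * x * F.φ) * F.φ = x
  rw [← mul_assoc, ← mul_assoc, F.φ2, one_mul, mul_assoc, F.φ2, mul_one]
theorem sw_one : F.sw 1 = 1 := by simp [sw_eq]
theorem sw_inv (x : X) : F.sw x⁻¹ = (F.sw x)⁻¹ := by simp only [sw_eq]; group
theorem sw_cj (n x : X) : F.sw (n * x * n⁻¹) = F.sw n * F.sw x * (F.sw n)⁻¹ := by simp only [sw_eq]; group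
theorem sw_inj {x y : X} (h : F.sw x = F.sw y) : x = y := by rw [← F.sw_sw x, h, F.sw_sw]
theorem sw_J {x : X} (h : x ∈ F.J) : F.sw x ∈ F.J := F.sw_eq x ▸ F.cjJ h _
theorem sw_U {x : X} (h : x ∈ F.U) : F.sw x ∈ F.V := (F.φU _).2 (by have := F.sw_sw x; unfold sw at this; unfold sw; rwa [this])
theorem sw_V {x : X} (h : x ∈ F.V) : F.sw x ∈ F.U := (F.φU x).1 h
theorem sw_UV {x : X} (h : x ∈ F.UV) : F.sw x ∈ F.UV := by
  have : F.UV ≤ F.UV.comap (MulAut.conj F.φ).toMonoidHom :=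
    sup_le (fun u hu => mem_sup_right (show F.φ * u * F.φ⁻¹ ∈ _ from F.sw_eq u ▸ F.sw_U hu))
      fun v hv => mem_sup_left (show F.φ * v * F.φ⁻¹ ∈ _ from F.sw_eq v ▸ F.sw_V hv)
  rw [sw_eq]; exact this h
theorem sw_T {x : X} (h : x ∈ F.T) : F.sw x ∈ F.T := F.φT x h
theorem sw_Z0 {c : X} (h : c ∈ F.Z0) : F.sw c = c := by
  have k : ∀ {a}, F.φ * a = a * F.φ → F.sw a = a := fun e => by rw [sw_eq, e, mul_inv_cancel_right]
  rcases F.hZ c h.1 h.2 with rfl | rfl | rfl | rfl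
  exacts [F.sw_one, k F.φz, k F.φr, by rw [sw_mul, k F.φz, k F.φr]]
theorem sw_NU {n : X} (h : n ∈ 𝐍(F.U)) : F.sw n ∈ 𝐍(F.V) := mem_normalizer_iff.2 fun v => by
  have k : ∀ {x}, x ∈ F.V ↔ F.sw x ∈ F.U := F.φU _
  rw [k, k, sw_cj, sw_sw]; exact mem_normalizer_iff.1 h _
theorem sw_NV {n : X} (h : n ∈ 𝐍(F.V)) : F.sw n ∈ 𝐍(F.U) := mem_normalizer_iff.2 fun v => by
  have k : ∀ {x}, x ∈ F.U ↔ F.sw x ∈ F.V := fun {x} => ⟨F.sw_U, fun h => F.sw_sw x ▸ F.sw_V h⟩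
  rw [k, k, sw_cj, sw_sw]; exact mem_normalizer_iff.1 h _
theorem zZ : F.z ∈ F.Z0 := ⟨F.zU, (F.φU _).2 (by rw [F.φz, mul_assoc, F.φ2, mul_one]; exact F.zU)⟩
theorem rZ : F.r ∈ F.Z0 := ⟨F.rU, (F.φU _).2 (by rw [F.φr, mul_assoc, F.φ2, mul_one]; exact F.rU)⟩
theorem memZ {c : X} : c ∈ F.Z0 ↔ c = 1 ∨ c = F.z ∨ c = F.r ∨ c = F.z * F.r :=   ⟨fun h => F.hZ c h.1 h.2, by
    rintro (rfl | rfl | rfl | rfl)
    exacts [one_mem _, F.zZ, F.rZ, mul_mem F.zZ F.rZ]⟩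
theorem V2 {v : X} (h : v ∈ F.V) : v * v = 1 := F.sw_inj (by rw [sw_mul, F.U2 _ (F.sw_V h), sw_one])
theorem Vc {a b : X} (ha : a ∈ F.V) (hb : b ∈ F.V) : a * b = b * a := comm_of_sq (fun _ => F.V2) ha hb
theorem TV : F.T ≤ 𝐍(F.V) := fun a ha => F.sw_sw a ▸ F.sw_NU (F.TU (F.sw_T ha))
theorem UVT : F.UV ≤ F.T := sup_le F.UT F.VT
theorem UVJ : F.UV ≤ F.J := F.UVT.trans F.TJ
theorem TNU : F.T ≤ F.NU := le_inf F.TJ F.TU
theorem UV2 : IsPGroup 2 F.UV := F.syl.isP.to_le F.UVT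
theorem mU {u : X} (h : u ∈ F.U) : u ∈ F.UV := mem_sup_left h
theorem mV {v : X} (h : v ∈ F.V) : v ∈ F.UV := mem_sup_right h
theorem mem_UV {x : X} : x ∈ F.UV ↔ ∃ u ∈ F.U, ∃ v ∈ F.V, x = u * v := mem_sup_of_le_normalizer_left (F.VT.trans F.TU)
theorem nUV {n : X} (h : n ∈ 𝐍(F.U)) (h' : n ∈ 𝐍(F.V)) : n ∈ 𝐍(F.UV) := le_normalizer_sup (zpowers_le.2 h) (zpowers_le.2 h') (mem_zpowers n)
theorem nZ0 {n : X} (h : n ∈ 𝐍(F.U)) (h' : n ∈ 𝐍(F.V)) : n ∈ 𝐍(F.Z0) := le_normalizer_inf (zpowers_le.2 h) (zpowers_le.2 h') (mem_zpowers n)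
theorem cenU {g : X} (h : ∀ u ∈ F.U, g * u = u * g) : g ∈ F.U := F.cpqr g (h _ F.zU) (h _ F.qU) (h _ F.rU)
theorem cenV {g : X} (h : ∀ v ∈ F.V, g * v = v * g) : g ∈ F.V := F.sw_sw g ▸ F.sw_U (F.cenU fun u hu => by
  rw [← F.sw_sw u, ← sw_mul, h _ (F.sw_U hu), sw_mul])
theorem cenUV {g : X} (h : ∀ x ∈ F.UV, g * x = x * g) : g ∈ F.Z0 := ⟨F.cenU fun _ hu => h _ (F.mU hu), F.cenV fun _ hv => h _ (F.mV hv)⟩
theorem commZ {u v : X} (hu : u ∈ F.U) (hv : v ∈ F.V) : u * v * u⁻¹ * v⁻¹ ∈ F.Z0 :=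
  mem_inf.2 ⟨by
    simpa only [mul_assoc] using mul_mem hu (conj_mem_of_mem_normalizer (F.TU (F.VT hv)) (F.U.inv_mem hu)),
    mul_mem (conj_mem_of_mem_normalizer (F.TV (F.UT hu)) hv) (inv_mem hv)⟩
theorem Zc {c x : X} (hc : c ∈ F.Z0) (hx : x ∈ F.UV) : c * x = x * c := by
  obtain ⟨u, hu, v, hv, rfl⟩ := F.mem_UV.1 hx
  exact (Commute.mul_right (F.Uc hc.1 hu) (F.Vc hc.2 hv) :)
theorem y2U : F.y2 ∉ F.U := fun h => F.z1 (by
  have := F.qy2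
  rw [F.Uc h F.qU, mul_assoc, F.y22] at this
  exact (mul_left_cancel this).symm)
theorem cy1 {c : X} (hc : c ∈ F.Z0) (h : F.y1 * c = c * F.y1) : c = 1 ∨ c = F.z := by
  have k : F.y1 * F.r ≠ F.r * F.y1 := fun e => F.z1 (by
    have := F.ry1
    rw [e, mul_assoc, F.y11] at this
    exact (mul_left_cancel this).symm)
  rcases F.memZ.1 hc with rfl | rfl | rfl | rfl
  exacts [.inl rfl, .inr rfl, absurd h k, absurd (mul_left_cancel (a := F.z) (by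
    rw [← mul_assoc, ← F.cT _ F.y1T, mul_assoc, h, mul_assoc])) k]
theorem y1Z {c : X} (hc : c ∈ F.Z0) : F.y1 * c * F.y1⁻¹ = c ∨ F.y1 * c * F.y1⁻¹ = c * F.z := by
  have i : F.y1⁻¹ = F.y1 := inv_eq_of_mul_eq_one_left F.y11
  have z : F.y1 * F.z * F.y1⁻¹ = F.z := by rw [F.cT _ F.y1T, mul_inv_cancel_right]
  rcases F.memZ.1 hc with rfl | rfl | rfl | rfl
  exacts [.inl (by simp), .inl z, .inr (by rw [i, F.ry1]), .inr (by rw [← conj_mul, z, i, F.ry1, mul_assoc])]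
theorem eNU : F.e ∈ F.NU := ⟨F.eJ, F.eU⟩
theorem efix {u : X} (hu : u ∈ F.U) (h : F.e * u * F.e⁻¹ = u) : u = 1 := by
  have := F.e3 u hu
  rwa [h, h, F.U2 u hu, one_mul] at this
theorem Ztr {c : X} (hc : c ∈ F.Z0) (h : c ≠ 1) :
    c = F.z ∨ c = F.e * F.z * F.e⁻¹ ∨ c = F.e * (F.e * F.z * F.e⁻¹) * F.e⁻¹ := by
  have m := conj_mem_of_mem_normalizer (F.nZ0 F.eU F.eV) F.zZ
  have h3 := F.e3 _ F.zU
  have e1 : F.e * F.z * F.e⁻¹ ≠ F.z := fun e => F.z1 (F.efix F.zU e)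
  have e0 : F.e * F.z * F.e⁻¹ ≠ 1 := cjne F.z1 _
  have h4 : F.e * (F.e * F.z * F.e⁻¹) * F.e⁻¹ = F.z * (F.e * F.z * F.e⁻¹) := by
    rw [eq_inv_of_mul_eq_one_right h3, inv_eq_of_mul_eq_one_left (F.U2 _ (mul_mem F.zU m.1))]
  rw [h4]
  rcases F.memZ.1 m with e | e | e | e
  · exact absurd e e0
  · exact absurd e e1
  · rw [e]; exact (F.memZ.1 hc).resolve_left h
  · rw [e, ← mul_assoc, F.z2, one_mul]; exact ((F.memZ.1 hc).resolve_left h).imp_right Or.symm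
theorem Z0_le : F.Z0 ≤ ⁅F.U, F.V⁆ := fun c hc => by
  have z : F.z ∈ ⁅F.U, F.V⁆ := by
    have := commutator_mem_commutator F.qU F.y2V
    rwa [commutatorElement_def, inv_eq_of_mul_eq_one_left F.q2, inv_eq_of_mul_eq_one_left F.y22, mul_assoc,
      mul_assoc, ← mul_assoc F.y2, F.qy2, ← mul_assoc, F.q2, one_mul] at this
  have n : F.e ∈ 𝐍(⁅F.U, F.V⁆) :=
    le_normalizer_commutator (zpowers_le.2 F.eU) (zpowers_le.2 F.eV) (mem_zpowers _)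
  by_cases h : c = 1
  · exact h ▸ one_mem _
  rcases F.Ztr hc h with rfl | rfl | rfl
  exacts [z, conj_mem_of_mem_normalizer n z, conj_mem_of_mem_normalizer n (conj_mem_of_mem_normalizer n z)]

variable [Finite X]

theorem trzr {a b : X} (ha : a ∈ F.U) (hb : b ∈ F.U) (a1 : a ≠ 1) (b1 : b ≠ 1) (ab : b ≠ a) :
    ∃ n ∈ F.NU, n * F.z * n⁻¹ = a ∧ n * F.r * n⁻¹ = b := by
  obtain ⟨n, h1, h2, e1, e2⟩ := F.trp ha hb a1 b1 ab
  obtain ⟨m, h3, h4, e3, e4⟩ := F.trp F.zU F.rU F.z1 F.r1 F.rz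
  refine ⟨n * m⁻¹, mem_inf.2 ⟨mul_mem h1 (inv_mem h3), mul_mem h2 (inv_mem h4)⟩, ?_, ?_⟩
  · rw [← e1]; conv_lhs => rw [← e3]
    group
  · rw [← e2, ← e4]; group
theorem NUJ : 𝐍(F.U) ≤ F.J := fun x hx => by_contra fun hJ => by
  have hj : x * F.φ ∈ F.J := F.sq _ hJ _ F.φJ
  have n1 : F.T ^ᶜ (x * F.φ) ≤ F.NU := by
    rintro _ ⟨a, ha, rfl⟩
    refine mem_inf.2 ⟨F.cjJ (F.TJ ha) _, ?_⟩
    show x * F.φ * a * (x * F.φ)⁻¹ ∈ _
    rw [show x * F.φ * a * (x * F.φ)⁻¹ = x * (F.φ * a * F.φ⁻¹) * x⁻¹ by group, ← sw_eq]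
    exact mul_mem (mul_mem hx (F.TU (F.sw_T ha))) (inv_mem hx)
  obtain ⟨n, hn, e⟩ := ((F.syl.cj_of_mem hj).mono n1 inf_le_left).conj (F.syl.mono F.TNU inf_le_left)
  rw [cj_cj, cj_eq_self_iff] at e
  have hJ' := mul_mem hn.1 hj
  have e1 : F.V ^ᶜ (n * (x * F.φ)) ≤ F.U := by
    rintro _ ⟨v, hv, rfl⟩
    show n * (x * F.φ) * v * (n * (x * F.φ))⁻¹ ∈ _
    rw [show n * (x * F.φ) * v * (n * (x * F.φ))⁻¹ = n * (x * (F.φ * v * F.φ⁻¹) * x⁻¹) * n⁻¹ by group, ← sw_eq]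
    exact conj_mem_of_mem_normalizer hn.2 (conj_mem_of_mem_normalizer hx (F.sw_V hv))
  generalize n * (x * F.φ) = j at e hJ' e1
  have e2 : F.V ^ᶜ j = F.U := eq_of_le_of_card_ge e1 (by rw [card_cj, F.cU, F.cV])
  have ne : F.U ≠ F.V := fun e => F.qV (e ▸ F.qU)
  have e3 : F.U ^ᶜ j = F.V := (F.eQ F.T _ F.syl.isP F.UVT (cj_le_of_mem_normalizer F.UT e)
    (fun _ ⟨a, ha, h⟩ => h ▸ cjsq (F.U2 a ha) j) (by rw [card_cj, F.cU])).resolve_left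
      fun h => ne (cj_inj.1 (h.trans e2.symm))
  obtain ⟨m, ⟨i, rfl⟩, m2⟩ := exists_odd_P2 j
  have mT := F.syl.le_of_le_normalizer' m2.zpowers (zpowers_le.2 (pow_mem hJ' _))
    (zpowers_le.2 (pow_mem e _)) (mem_zpowers _)
  have j2 : j ^ 2 ∈ 𝐍(F.U) := by rw [← cj_eq_self_iff, pow_two, ← cj_cj, e3, e2]
  have jU := F.TU mT
  rw [pow_succ, pow_mul] at jU
  exact ne ((cj_eq_self_iff.2 ((mul_mem_cancel_left (pow_mem j2 i)).1 jU)).symm.trans e3)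
/-- no transvections -/
theorem notr {n c : X} (hc : c ∈ F.U) (h : ∀ u ∈ F.U, n * u * n⁻¹ = u ∨ n * u * n⁻¹ = u * c) : n ∈ F.U := by
  have fx : ∀ {u v}, u ∈ F.U → v ∈ F.U → n * u * n⁻¹ ≠ u → n * v * n⁻¹ ≠ v → n * (u * v) * n⁻¹ = u * v :=
    fun {u v} hu hv h1 h2 => by
      rw [← conj_mul, (h u hu).resolve_left h1, (h v hv).resolve_left h2, mul_assoc, ← mul_assoc c,
        F.Uc hc hv, mul_assoc, F.U2 c hc, mul_one]
  have key : ∀ {a b d}, a ∈ F.U → b ∈ F.U → d ∈ F.U → a ≠ 1 → b ≠ 1 → b ≠ a → d ≠ 1 → d ≠ a → d ≠ b →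
      d ≠ a * b → n * a * n⁻¹ = a → n * b * n⁻¹ = b → n * d * n⁻¹ = d → n ∈ F.U :=
    fun ha hb hd a1 b1 ab d1 da db dab f1 f2 f3 => by
      obtain ⟨m, -, mU, rfl, rfl, rfl⟩ := F.trt ha hb hd a1 b1 ab d1 da db dab
      have k : ∀ {y}, n * (m * y * m⁻¹) * n⁻¹ = m * y * m⁻¹ → m⁻¹ * n * m * y = y * (m⁻¹ * n * m) :=
        fun {y} e => by
          calc _ = m⁻¹ * (n * (m * y * m⁻¹) * n⁻¹) * n * m := by group
            _ = _ := by rw [e]; group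
      simpa [mul_assoc] using conj_mem_of_mem_normalizer mU (F.cpqr _ (k f1) (k f2) (k f3))
  let H : Subgroup X := F.U ⊓ centralizer {n}
  have mH : ∀ {u}, u ∈ H ↔ u ∈ F.U ∧ n * u * n⁻¹ = u := fun {u} => by
    rw [mem_inf, mem_centralizer_singleton_iff, mul_inv_eq_iff_eq_mul, eq_comm]
  have c8 : 8 ≤ Nat.card H := by
    by_cases e : F.U ≤ H
    · have := card_le_of_le e; rw [F.cU] at this; omega
    obtain ⟨u, hu, uH⟩ := SetLike.not_le_iff_exists.1 e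
    have : Nat.card F.U ≤ Nat.card (H × Bool) := by
      classical
      refine Nat.card_le_card_of_surjective
        (fun p : H × Bool => (⟨cond p.2 (u * p.1) p.1, by
          cases p.2
          exacts [p.1.2.1, mul_mem hu p.1.2.1]⟩ : F.U)) fun v => ?_
      by_cases hv : v.1 ∈ H
      · exact ⟨(⟨v, hv⟩, false), rfl⟩
      · refine ⟨(⟨u * v, mH.2 ⟨mul_mem hu v.2, fx hu v.2 (fun e => uH (mH.2 ⟨hu, e⟩))
          fun e => hv (mH.2 ⟨v.2, e⟩)⟩⟩, true), Subtype.ext ?_⟩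
        show u * (u * v) = v
        rw [← mul_assoc, F.U2 u hu, one_mul]
    rw [F.cU, Nat.card_prod, Nat.card_eq_fintype_card (α := Bool), Fintype.card_bool] at this
    omega
  have ex : ∀ s : Finset X, s.card < 8 → ∃ a ∈ H, a ∉ s := fun s hs => by
    by_contra hn
    push Not at hn
    have := Nat.card_le_card_of_injective (fun a : H => (⟨a, hn a a.2⟩ : s))
      fun a b e => Subtype.ext (congrArg Subtype.val e :)
    rw [Nat.card_eq_fintype_card (α := s), Fintype.card_coe] at this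
    omega
  classical
  obtain ⟨a, ha, a1⟩ := ex {1} (by simp)
  obtain ⟨b, hb, b1⟩ := ex {1, a} (Finset.card_le_two.trans_lt (by norm_num))
  obtain ⟨d, hd, d1⟩ := ex {1, a, b, a * b} (Finset.card_le_four.trans_lt (by norm_num))
  simp only [Finset.mem_insert, Finset.mem_singleton, not_or] at a1 b1 d1
  exact key ha.1 hb.1 hd.1 a1 b1.1 b1.2 d1.1 d1.2.1 d1.2.2.1 d1.2.2.2 (mH.1 ha).2 (mH.1 hb).2 (mH.1 hd).2
theorem sylX {P : Subgroup X} (h : IsPGroup 2 P) (hT : F.T < P) : IsSylowIn 2 P ⊤ := by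
  refine ⟨le_top, h, fun R h1 _ hR => le_antisymm (fun x hx => ?_) h1⟩
  have k : R ⊓ F.J = F.T := F.syl.max _ (le_inf (hT.le.trans h1) F.TJ) inf_le_right (hR.to_le inf_le_left)
  have k' : ∀ {y}, y ∈ R → y ∈ F.J → y ∈ P := fun h1 h2 => hT.le (k ▸ ⟨h1, h2⟩)
  obtain ⟨y, hy, yT⟩ := SetLike.exists_of_lt hT
  by_cases hJ : x ∈ F.J
  · exact k' hx hJ
  · exact (mul_mem_cancel_right hy).1
      (k' (mul_mem hx (h1 hy)) (F.sq _ hJ _ fun e => yT (k ▸ ⟨h1 hy, e⟩)))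
/-- the elementary abelian subgroups of order 16 of a 2-group over `U V` -/
theorem nrm2 {n : X} (h : n ∈ 𝐍(F.UV)) :
    (n ∈ 𝐍(F.U) ∧ n ∈ 𝐍(F.V)) ∨ (F.U ^ᶜ n = F.V ∧ F.V ^ᶜ n = F.U) := by
  have ne : F.U ≠ F.V := fun e => F.qV (e ▸ F.qU)
  have h1 := F.eQ _ _ F.UV2 le_rfl (cj_le_of_mem_normalizer le_sup_left h)
    (fun _ ⟨a, ha, e⟩ => e ▸ cjsq (F.U2 a ha) n) (by rw [card_cj, F.cU])
  have h2 := F.eQ _ _ F.UV2 le_rfl (cj_le_of_mem_normalizer le_sup_right h)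
    (fun _ ⟨a, ha, e⟩ => e ▸ cjsq (F.V2 ha) n) (by rw [card_cj, F.cV])
  rcases h1 with h1 | h1 <;> rcases h2 with h2 | h2
  exacts [absurd (cj_inj.1 (h1.trans h2.symm)) ne, .inl ⟨cj_eq_self_iff.1 h1, cj_eq_self_iff.1 h2⟩,
    .inr ⟨h1, h2⟩, absurd (cj_inj.1 (h1.trans h2.symm)) ne]

end Fy

section im

variable {f g : X → G} {Y Y' : Subgroup X}

/-- a multiplicative map as a homomorphism -/
def hom (h : ∀ x ∈ Y, ∀ y ∈ Y, f (x * y) = f x * f y) : Y →* G :=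
  MonoidHom.mk' (fun y => f y) fun x y => h x x.2 y y.2

theorem mem_im_self (f : X → G) {y : X} (h : y ∈ Y) : f y ∈ im f Y := subset_closure ⟨y, h, rfl⟩
theorem im_le {B : Subgroup G} : im f Y ≤ B ↔ ∀ y ∈ Y, f y ∈ B :=   ⟨fun h _ hy => h (mem_im_self f hy), fun h => (closure_le _).2 fun _ ⟨y, hy, e⟩ => e ▸ h y hy⟩
theorem im_mono (f : X → G) (h : Y ≤ Y') : im f Y ≤ im f Y' := im_le.2 fun _ hy => mem_im_self f (h hy)
theorem im_congr (h : ∀ y ∈ Y, f y = g y) : im f Y = im g Y :=   le_antisymm (im_le.2 fun y hy => h y hy ▸ mem_im_self g hy) (im_le.2 fun y hy => h y hy ▸ mem_im_self f hy)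
theorem im_eq (h : ∀ x ∈ Y, ∀ y ∈ Y, f (x * y) = f x * f y) : im f Y = (hom h).range :=
  le_antisymm (im_le.2 fun y hy => ⟨⟨y, hy⟩, rfl⟩) fun _ ⟨y, e⟩ => e ▸ mem_im_self f y.2
theorem mem_im (h : ∀ x ∈ Y, ∀ y ∈ Y, f (x * y) = f x * f y) {a : G} : a ∈ im f Y ↔ ∃ y ∈ Y, f y = a := by
  rw [im_eq h]; exact ⟨fun ⟨y, e⟩ => ⟨y, y.2, e⟩, fun ⟨y, hy, e⟩ => ⟨⟨y, hy⟩, e⟩⟩
theorem im_one (h : ∀ x ∈ Y, ∀ y ∈ Y, f (x * y) = f x * f y) : f 1 = 1 := (hom h).map_one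
theorem im_inv (h : ∀ x ∈ Y, ∀ y ∈ Y, f (x * y) = f x * f y) {y : X} (hy : y ∈ Y) : f y⁻¹ = (f y)⁻¹ := (hom h).map_inv ⟨y, hy⟩
theorem im_pow (h : ∀ x ∈ Y, ∀ y ∈ Y, f (x * y) = f x * f y) {y : X} (hy : y ∈ Y) (n : ℕ) :
    f (y ^ n) = f y ^ n := (hom h).map_pow ⟨y, hy⟩ n
theorem im_cj (h : ∀ x ∈ Y, ∀ y ∈ Y, f (x * y) = f x * f y) {x y : X} (hx : x ∈ Y) (hy : y ∈ Y) :
    f (x * y * x⁻¹) = f x * f y * (f x)⁻¹ := by
  rw [h _ (mul_mem hx hy) _ (inv_mem hx), h _ hx _ hy, im_inv h hx]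
theorem im_sup (h : ∀ x ∈ Y ⊔ Y', ∀ y ∈ Y ⊔ Y', f (x * y) = f x * f y) : im f (Y ⊔ Y') = im f Y ⊔ im f Y' := by
  refine le_antisymm (im_le.2 fun y hy => ?_) (sup_le (im_mono f le_sup_left) (im_mono f le_sup_right))
  have : Y ⊔ Y' ≤ ((im f Y ⊔ im f Y').comap (hom h)).map (Y ⊔ Y').subtype :=
    sup_le (fun y hy => ⟨⟨y, mem_sup_left hy⟩, mem_sup_left (mem_im_self f hy), rfl⟩)
      fun y hy => ⟨⟨y, mem_sup_right hy⟩, mem_sup_right (mem_im_self f hy), rfl⟩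
  obtain ⟨x, hx, rfl⟩ := this hy
  exact hx
theorem isP_im (h : ∀ x ∈ Y, ∀ y ∈ Y, f (x * y) = f x * f y) (hY : IsPGroup 2 Y) : IsPGroup 2 (im f Y) := by
  rw [im_eq h]; exact hY.of_surjective _ (hom h).rangeRestrict_surjective
theorem card_im (h : ∀ x ∈ Y, ∀ y ∈ Y, f (x * y) = f x * f y) (hi : ∀ y ∈ Y, f y = 1 → y = 1) :
    Nat.card (im f Y) = Nat.card Y := by
  rw [im_eq h]
  exact (Nat.card_congr (MonoidHom.ofInjective ((injective_iff_map_eq_one (hom h)).2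
    fun y e => Subtype.ext (hi y y.2 e))).toEquiv).symm
theorem nrm_im [Finite G] {a : G} (h : ∀ y ∈ Y, ∃ y' ∈ Y, a * f y * a⁻¹ = f y') : a ∈ 𝐍(im f Y) :=   mem_normalizer_of_cj_le (cj_le_iff.2 (im_le.2 fun y hy => by
    obtain ⟨y', h', e⟩ := h y hy
    rw [mem_cj, inv_inv, e]; exact mem_im_self f h'))
theorem cen_im {a : G} : a ∈ 𝐂(im f Y) ↔ ∀ y ∈ Y, a * f y = f y * a :=   ⟨fun h y hy => (h _ (mem_im_self f hy)).symm, fun h => le_centralizer_iff.1 (im_le.2 fun y hy => by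
    rw [centralizer_zpowers, mem_centralizer_singleton_iff, h y hy]) (mem_zpowers a)⟩

end im

theorem two_odd [Finite G] (g : G) : ∃ a ∈ zpowers g, ∃ o ∈ zpowers g, P2 a ∧ Odd (orderOf o) ∧ g = a * o := by
  obtain ⟨k, m, hm, e⟩ := Nat.exists_eq_two_pow_mul_odd (orderOf_pos g).ne'
  have c : Nat.Coprime (2 ^ k) m := Nat.Coprime.pow_left _ (Nat.coprime_two_left.2 hm)
  have b := Nat.gcd_eq_gcd_ab (2 ^ k) m
  rw [c] at b
  refine ⟨(g ^ m) ^ Nat.gcdB (2 ^ k) m, zpow_mem (pow_mem (mem_zpowers g) _) _,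
    (g ^ 2 ^ k) ^ Nat.gcdA (2 ^ k) m, zpow_mem (pow_mem (mem_zpowers g) _) _, ⟨k, ?_⟩,
    hm.of_dvd_nat (orderOf_dvd_of_pow_eq_one ?_), ?_⟩
  · rw [← zpow_natCast, ← zpow_mul, mul_comm, zpow_mul, zpow_natCast, ← pow_mul, mul_comm, ← e,
      pow_orderOf_eq_one, one_zpow]
  · rw [← zpow_natCast, ← zpow_mul, mul_comm, zpow_mul, zpow_natCast, ← pow_mul, ← e,
      pow_orderOf_eq_one, one_zpow]
  · rw [← zpow_natCast, ← zpow_natCast, ← zpow_mul, ← zpow_mul, ← zpow_add, add_comm, ← b]; simp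

theorem odd_card [Finite G] {O : Subgroup G} (h : ∀ o ∈ O, Odd (orderOf o)) : ¬ 2 ∣ Nat.card O := fun e => by
  obtain ⟨x, hx⟩ := exists_prime_orderOf_dvd_card' 2 e
  have := h x x.2
  rw [orderOf_coe, hx] at this
  exact absurd this (by decide)

theorem syl_odd [Finite G] {P O : Subgroup G} (hP : IsPGroup 2 P) (hO : ∀ o ∈ O, Odd (orderOf o))
    (n : P ≤ 𝐍(O)) : IsSylowIn 2 P (P ⊔ O) := by
  refine ⟨le_sup_left, hP, fun R h1 h2 hR => le_antisymm (fun x hx => ?_) h1⟩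
  obtain ⟨p, hp, o, ho, rfl⟩ := (mem_sup_of_le_normalizer_right n).1 (h2 hx)
  rw [(P2.of_mem hR ((mul_mem_cancel_left (h1 hp)).1 hx)).eq_one (hO o ho), mul_one]; exact hp

/-- a group whose 2-elements are central -/
theorem cen_syl [Finite G] {H Z : Subgroup G} (hZ : Z ≤ H) (h2 : IsPGroup 2 Z) (c : H ≤ 𝐂(Z))
    (h : ∀ g ∈ H, P2 g → g ∈ Z) : ∃ O : Subgroup G, (∀ g, g ∈ O ↔ g ∈ H ∧ Odd (orderOf g)) ∧
      𝐍(H) ≤ 𝐍(O) ∧ ∀ g ∈ H, ∃ z ∈ Z, ∃ o ∈ O, g = z * o := by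
  obtain ⟨P, hP⟩ := (show IsSylowIn 2 Z H from ⟨hZ, h2, fun R h1 h3 hR =>
    le_antisymm (fun x hx => h x (h3 hx) (P2.of_mem hR hx)) h1⟩).exists_sylow_subgroupOf
  have hc : normalizer (P : Set H) ≤ centralizer (P : Set H) := fun g _ p hp =>
    Subtype.ext (c g.2 _ (show p ∈ Z.subgroupOf H from hP ▸ hp))
  have cp := MonoidHom.ker_transferSylow_isComplement' P hc
  have od := MonoidHom.not_dvd_card_ker_transferSylow P hc
  have mem : ∀ g, g ∈ (MonoidHom.transferSylow P hc).ker.map H.subtype ↔ g ∈ H ∧ Odd (orderOf g) := fun g => by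
    constructor
    · rintro ⟨g, hg, rfl⟩
      refine ⟨g.2, Nat.not_even_iff_odd.1 fun e => od (e.two_dvd.trans ?_)⟩
      rw [subtype_apply, orderOf_coe]; exact orderOf_dvd_natCard _ hg
    · rintro ⟨hg, o⟩
      refine ⟨⟨g, hg⟩, ?_, rfl⟩
      obtain ⟨k, hk⟩ := P.isPGroup' (MonoidHom.transferSylow P hc ⟨g, hg⟩)
      exact P2.eq_one ⟨k, hk⟩ (o.of_dvd_nat ((orderOf_map_dvd _ _).trans (by rw [orderOf_mk])))
  refine ⟨_, mem, fun g hg => mem_normalizer_of_cj_le fun _ ⟨x, hx, e⟩ => e ▸ (mem _).2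
    ⟨conj_mem_of_mem_normalizer hg ((mem x).1 hx).1, ?_⟩, fun g hg => ?_⟩
  · show Odd (orderOf (g * x * g⁻¹))
    rw [H9.orderOf_conj]; exact ((mem x).1 hx).2
  · obtain ⟨a, ha, o, ho, a2, oo, e⟩ := two_odd g
    exact ⟨a, h a (zpowers_le.2 hg ha) a2, o, (mem o).2 ⟨zpowers_le.2 hg ho, oo⟩, e⟩

/-- coprime action: centralisers cover -/
theorem cen_cov [Finite G] {P O : Subgroup G} (hP : IsPGroup 2 P) (hO : ∀ o ∈ O, Odd (orderOf o))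
    (n : P ≤ 𝐍(O)) {b : G} (hb : b ∈ 𝐍(O)) (h : ∀ p ∈ P, b * p * b⁻¹ * p⁻¹ ∈ O) :
    ∃ o ∈ O, o * b ∈ 𝐂(P) := by
  obtain ⟨g, hg, e⟩ := (syl_odd hP hO n).exists_cj_le (isPGroup_cj hP b) (by
    rintro _ ⟨p, hp, rfl⟩
    rw [sup_comm]
    simpa using mul_mem (mem_sup_left (h p hp)) (mem_sup_right hp))
  obtain ⟨p, hp, o, ho, rfl⟩ := (mem_sup_of_le_normalizer_right n).1 hg
  refine ⟨o, ho, fun x hx => ?_⟩
  have h1 : o * b * x * (o * b)⁻¹ ∈ P := by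
    simpa [mul_assoc] using mul_mem (mul_mem (inv_mem hp) (e (cj_mem _ (cj_mem b hx)))) hp
  have h2 : o * b * x * (o * b)⁻¹ * x⁻¹ ∈ O := by
    have := mul_mem (mul_mem ho (h x hx)) (conj_mem_of_mem_normalizer (n hx) (inv_mem ho))
    rwa [show o * (b * x * b⁻¹ * x⁻¹) * (x * o⁻¹ * x⁻¹) = o * b * x * (o * b)⁻¹ * x⁻¹ by group] at this
  have := (P2.of_mem hP (mul_mem h1 (inv_mem hx))).eq_one (hO _ h2)
  rw [mul_inv_eq_one, mul_inv_eq_iff_eq_mul] at this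
  exact this.symm

namespace Fr

variable {F : Fy X} {t : G} {N K : Subgroup G} {α : G → X} (f : Fr F t N K α)
include f

theorem ti : t⁻¹ = t := inv_eq_of_mul_eq_one_left f.t2
theorem one : α 1 = 1 := (MonoidHom.mk' (fun g : N => α g) fun x y => f.mul x x.2 y y.2).map_one
theorem inv {g : G} (hg : g ∈ N) : α g⁻¹ = (α g)⁻¹ := (MonoidHom.mk' (fun g : N => α g) fun x y => f.mul x x.2 y y.2).map_inv ⟨g, hg⟩
theorem pow {g : G} (hg : g ∈ N) (n : ℕ) : α (g ^ n) = α g ^ n := (MonoidHom.mk' (fun g : N => α g) fun x y => f.mul x x.2 y y.2).map_pow ⟨g, hg⟩ n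
theorem conj {g a : G} (hg : g ∈ N) (ha : a ∈ N) : α (g * a * g⁻¹) = α g * α a * (α g)⁻¹ := by
  rw [f.mul _ (mul_mem hg ha) _ (inv_mem hg), f.mul _ hg _ ha, f.inv hg]
theorem comm {g k : G} (hg : g ∈ N) (hk : k ∈ N) (e : g * k = k * g) : α g * α k = α k * α g := by rw [← f.mul _ hg _ hk, e, f.mul _ hk _ hg]
theorem p2 {g : G} (hg : g ∈ N) (e : P2 g) : P2 (α g) := let ⟨k, hk⟩ := e; ⟨k, by rw [← f.pow hg, hk, f.one]⟩
theorem mul_t {g : G} (hg : g ∈ N) : α (g * t) = α g := by rw [f.mul _ hg _ f.tN, f.at1, mul_one]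
theorem t_mul {g : G} (hg : g ∈ N) : α (t * g) = α g := by rw [f.mul _ f.tN _ hg, f.at1, one_mul]
theorem Kt {k : G} (hk : k ∈ K) : k * t = t * k := f.NC k (f.KN hk)
theorem cjt {g : G} (hg : g ∈ N) : g * t * g⁻¹ = t := by rw [f.NC g hg, mul_inv_cancel_right]
theorem cjK {g k : G} (hg : g ∈ N) (hk : k ∈ K) : g * k * g⁻¹ ∈ K := conj_mem_of_mem_normalizer (f.nK hg) hk
theorem eq_one {k : G} (hk : k ∈ K) (h2 : P2 k) (h : α k = 1) : k = 1 := (f.ker k (f.KN hk) h h2).resolve_right fun e => f.tK (e ▸ hk)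
theorem uniq {P : Subgroup G} (hP : IsPGroup 2 P) {a b : G} (ha : a ∈ K) (hb : b ∈ K) (aP : a ∈ P)
    (bP : b ∈ P) (e : α a = α b) : a = b :=   inv_mul_eq_one.1 (f.eq_one (mul_mem (inv_mem ha) hb) (P2.of_mem hP (mul_mem (inv_mem aP) bP)) (by
    rw [f.mul _ (inv_mem (f.KN ha)) _ (f.KN hb), f.inv (f.KN ha), e, inv_mul_cancel]))
theorem of_closure {s : Set X} {D : Subgroup G} (hD : D ≤ N) (h : ∀ x ∈ s, ∃ d ∈ D, α d = x) {x : X}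
    (hx : x ∈ closure s) : ∃ d ∈ D, α d = x := by
  induction hx using closure_induction with
  | mem x hx => exact h x hx
  | one => exact ⟨1, one_mem _, f.one⟩
  | mul x y _ _ h1 h2 =>
    obtain ⟨a, ha, rfl⟩ := h1
    obtain ⟨b, hb, rfl⟩ := h2
    exact ⟨_, mul_mem ha hb, f.mul _ (hD ha) _ (hD hb)⟩
  | inv x _ h1 =>
    obtain ⟨a, ha, rfl⟩ := h1
    exact ⟨_, inv_mem ha, f.inv (hD ha)⟩
theorem sw : Fr F t N K fun g => F.sw (α g) :=   { f with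
    mul := fun g hg k hk => by rw [f.mul g hg k hk, F.sw_mul]
    mem := fun k hk => F.sw_J (f.mem k hk)
    onto := fun j hj => let ⟨k, hk, e⟩ := f.onto _ (F.sw_J hj); ⟨k, hk, by rw [e, F.sw_sw]⟩
    at1 := by rw [f.at1, F.sw_one]
    ker := fun g hg e => f.ker g hg (F.sw_inj (e.trans F.sw_one.symm)) }

variable [Finite G]

theorem zp {g a : G} (hg : g ∈ N) (h : α g = 1) (ha : a ∈ zpowers g) : α a = 1 := by
  obtain ⟨n, rfl⟩ := mem_powers_iff_mem_zpowers.2 ha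
  show α (g ^ n) = 1
  rw [f.pow hg, h, one_pow]

theorem odd {k : G} (hk : k ∈ K) (h : α k = 1) : Odd (orderOf k) := by
  obtain ⟨a, ha, o, -, a2, oo, e⟩ := two_odd k
  rwa [e, f.eq_one (zpowers_le.2 hk ha) a2 (f.zp (f.KN hk) h ha), one_mul]
theorem dec {g : G} (hg : g ∈ N) (h : α g = 1) :
    ∃ o ∈ K, o ∈ zpowers g ∧ α o = 1 ∧ Odd (orderOf o) ∧ (g = o ∨ g = o * t) := by
  obtain ⟨a, ha, o, ho, a2, oo, e⟩ := two_odd g
  have oN := zpowers_le.2 hg ho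
  refine ⟨o, f.oddK o oN oo, ho, f.zp hg h ho, oo, (f.ker a (zpowers_le.2 hg ha) (f.zp hg h ha) a2).imp
    (fun e' => by rw [e, e', one_mul]) fun e' => by rw [e, e', f.NC o oN]⟩
theorem K_or {g : G} (hg : g ∈ N) (h : α g ∈ F.J) : g ∈ K ∨ g * t ∈ K := by
  obtain ⟨k, hk, e⟩ := f.onto _ h
  obtain ⟨o, ho, -, -, -, e'⟩ := f.dec (mul_mem (inv_mem (f.KN hk)) hg) (by
    rw [f.mul _ (inv_mem (f.KN hk)) _ hg, f.inv (f.KN hk), e, inv_mul_cancel])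
  refine e'.imp (fun e' => ?_) fun e' => ?_ <;> rw [eq_mul_of_inv_mul_eq e']
  · exact mul_mem hk ho
  · rw [mul_assoc, mul_assoc, f.t2, mul_one]; exact mul_mem hk ho
theorem liftp {D : Subgroup G} (hD : D ≤ N) {p : ℕ} (hp : p.Prime) {d : G} (hd : d ∈ D) {k : ℕ}
    (h : α d ^ p ^ k = 1) : ∃ a ∈ D, α a = α d ∧ ∃ m : ℕ, a ^ p ^ m = 1 := by
  obtain ⟨m, l, h1, h2⟩ := exists_ppart d hp k
  exact ⟨d ^ m, pow_mem hd m, by rw [f.pow (hD hd), pow_of_modEq h h1], l, h2⟩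
/-- the preimage in `K` -/
def pre (Y : Subgroup X) : Subgroup G where
  carrier := {k | k ∈ K ∧ α k ∈ Y}
  one_mem' := ⟨one_mem _, f.one ▸ one_mem _⟩
  mul_mem' := fun ha hb => ⟨mul_mem ha.1 hb.1, f.mul _ (f.KN ha.1) _ (f.KN hb.1) ▸ mul_mem ha.2 hb.2⟩
  inv_mem' := fun ha => ⟨inv_mem ha.1, f.inv (f.KN ha.1) ▸ inv_mem ha.2⟩

theorem mem_pre {Y : Subgroup X} {k : G} : k ∈ f.pre Y ↔ k ∈ K ∧ α k ∈ Y := Iff.rfl

theorem nO : N ≤ 𝐍(f.pre ⊥) := fun g hg => mem_normalizer_of_cj_le (by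
  rintro _ ⟨k, hk, rfl⟩
  exact ⟨f.cjK hg hk.1, mem_bot.2 ((f.conj hg (f.KN hk.1)).trans (by rw [mem_bot.1 hk.2]; simp))⟩)

/-- two lifts of a 2-subgroup are conjugate under the kernel -/
theorem cj_lift {A B : Subgroup G} (hA : A ≤ K) (hB : B ≤ K) (a2 : IsPGroup 2 A) (b2 : IsPGroup 2 B)
    (h : ∀ a ∈ A, ∃ b ∈ B, α a = α b) : ∃ o ∈ K, α o = 1 ∧ A ^ᶜ o ≤ B := by
  have n := (hB.trans f.KN).trans f.nO
  obtain ⟨g, hg, e⟩ := (syl_odd b2 (O := f.pre ⊥) (fun o ho => f.odd ho.1 (mem_bot.1 ho.2)) n).exists_cj_le a2 fun a ha => by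
    obtain ⟨b, hb, e⟩ := h a ha
    have : b⁻¹ * a ∈ f.pre ⊥ := ⟨mul_mem (inv_mem (hB hb)) (hA ha), mem_bot.2 (by
      rw [f.mul _ (inv_mem (f.KN (hB hb))) _ (f.KN (hA ha)), f.inv (f.KN (hB hb)), e, inv_mul_cancel])⟩
    simpa using mul_mem (mem_sup_left hb) (mem_sup_right this)
  obtain ⟨b, hb, o, ho, rfl⟩ := (mem_sup_of_le_normalizer_right n).1 hg
  rw [← cj_cj, cj_le_iff, cj_eq_of_mem (inv_mem hb)] at e
  exact ⟨o, ho.1, mem_bot.1 ho.2, e⟩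
/-- normalisers of 2-subgroups lift -/
theorem liftN {A : Subgroup G} (hA : A ≤ K) (h2 : IsPGroup 2 A) {n : X} (hn : n ∈ F.J)
    (h : ∀ a ∈ A, ∃ b ∈ A, n * α a * n⁻¹ = α b) : ∃ k ∈ K, k ∈ 𝐍(A) ∧ α k = n := by
  obtain ⟨k, hk, rfl⟩ := f.onto n hn
  obtain ⟨o, ho, e, h'⟩ := f.cj_lift (cj_le_of_mem hA hk) hA (isPGroup_cj h2 k) h2 (by
    rintro _ ⟨a, ha, rfl⟩
    obtain ⟨b, hb, e⟩ := h a ha
    exact ⟨b, hb, (f.conj (f.KN hk) (f.KN (hA ha))).trans e⟩)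
  rw [cj_cj] at h'
  exact ⟨o * k, mul_mem ho hk, mem_normalizer_of_cj_le h', by rw [f.mul _ (f.KN ho) _ (f.KN hk), e, one_mul]⟩
theorem exists_lift {Y : Subgroup X} (hY : Y ≤ F.J) (h2 : IsPGroup 2 Y) : ∃ η : X → G,
    (∀ x ∈ Y, ∀ y ∈ Y, η (x * y) = η x * η y) ∧ (∀ x ∈ Y, η x ∈ K) ∧ ∀ x ∈ Y, α (η x) = x := by
  obtain ⟨P, hP⟩ := exists_isSylowIn 2 (f.pre Y)
  have ex : ∀ x ∈ Y, ∃ p ∈ P, α p = x := fun x hx => by
    let a : f.pre Y →* Y := MonoidHom.mk' (fun k => ⟨α k, k.2.2⟩) fun k l =>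
      Subtype.ext (f.mul _ (f.KN k.2.1) _ (f.KN l.2.1))
    have h1 := hP.subgroupOf_top.map a
    rw [map_top_of_surjective _ fun y => let ⟨k, hk, e⟩ := f.onto _ (hY y.2);
      ⟨⟨k, hk, e ▸ y.2⟩, Subtype.ext e⟩] at h1
    obtain ⟨k, hk, e⟩ := (h1.max ⊤ le_top le_top (isPGroup_top_iff.2 h2)).le (mem_top (⟨x, hx⟩ : Y))
    exact ⟨k, hk, congrArg Subtype.val e⟩
  choose! η h1 h3 using ex
  have m : ∀ x ∈ Y, η x ∈ K := fun x hx => (hP.le (h1 x hx)).1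
  refine ⟨η, fun x hx y hy => f.uniq hP.isP (m _ (mul_mem hx hy)) (mul_mem (m x hx) (m y hy))
    (h1 _ (mul_mem hx hy)) (mul_mem (h1 x hx) (h1 y hy)) ?_, m, h3⟩
  rw [f.mul _ (f.KN (m x hx)) _ (f.KN (m y hy)), h3 x hx, h3 y hy, h3 _ (mul_mem hx hy)]
theorem exists_lf : ∃ η, Lf F t N K α η := let ⟨η, h1, h2, h3⟩ := f.exists_lift F.UVJ F.UV2; ⟨η, f, h1, h2, h3⟩

end Fr

namespace Lf

variable {F : Fy X} {t : G} {N K : Subgroup G} {α : G → X} {η : X → G} (l : Lf F t N K α η)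
include l

theorem mulY {Y : Subgroup X} (hY : Y ≤ F.UV) : ∀ x ∈ Y, ∀ y ∈ Y, η (x * y) = η x * η y :=
  fun x hx y hy => l.mul x (hY hx) y (hY hy)
theorem mulU : ∀ x ∈ F.U, ∀ y ∈ F.U, η (x * y) = η x * η y := l.mulY le_sup_left
theorem one : η 1 = 1 := im_one l.mul
theorem memN {x : X} (hx : x ∈ F.UV) : η x ∈ N := l.fr.KN (l.mem x hx)
theorem ct {x : X} (hx : x ∈ F.UV) : η x * t = t * η x := l.fr.Kt (l.mem x hx)
theorem inj {x y : X} (hx : x ∈ F.UV) (hy : y ∈ F.UV) (e : η x = η y) : x = y := by rw [← l.inv x hx, e, l.inv y hy]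
theorem sq {u : X} (hu : u ∈ F.U) : η u * η u = 1 := by rw [← l.mulU u hu u hu, F.U2 u hu, l.one]
theorem Uc {u v : X} (hu : u ∈ F.U) (hv : v ∈ F.U) : η u * η v = η v * η u := by rw [← l.mulU u hu v hv, F.Uc hu hv, l.mulU v hv u hu]
theorem mem_im {Y : Subgroup X} (hY : Y ≤ F.UV) {a : G} : a ∈ im η Y ↔ ∃ y ∈ Y, η y = a := ML.mem_im (l.mulY hY)
theorem imK {Y : Subgroup X} (hY : Y ≤ F.UV) : im η Y ≤ K := im_le.2 fun y hy => l.mem y (hY hy)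
theorem isP {Y : Subgroup X} (hY : Y ≤ F.UV) : IsPGroup 2 (im η Y) := isP_im (l.mulY hY) (F.UV2.to_le hY)
theorem card {Y : Subgroup X} (hY : Y ≤ F.UV) : Nat.card (im η Y) = Nat.card Y :=   card_im (l.mulY hY) fun y hy e => l.inj (hY hy) (one_mem _) (e.trans l.one.symm)
theorem cj {Y : Subgroup X} (hY : Y ≤ F.UV) {g : G} (hg : g ∈ N) (hn : g ∈ 𝐍(im η Y)) {y : X} (hy : y ∈ Y) :
    α g * y * (α g)⁻¹ ∈ Y ∧ g * η y * g⁻¹ = η (α g * y * (α g)⁻¹) := by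
  obtain ⟨x, hx, e⟩ := (l.mem_im hY).1 (conj_mem_of_mem_normalizer hn (mem_im_self η hy))
  have : α g * y * (α g)⁻¹ = x := by rw [← l.inv x (hY hx), e, l.fr.conj hg (l.memN (hY hy)), l.inv y (hY hy)]
  exact this ▸ ⟨hx, e.symm⟩
theorem ctl {Y : Subgroup X} (h1 : F.U ≤ Y) (hY : Y ≤ F.UV) {g : G} (hn : g ∈ 𝐍(im η Y))
    (c : g * t = t * g) : g ∈ N :=   l.fr.ctl _ _ (im_mono η h1) (l.imK hY) (fun _ ha => let ⟨_, hu, e⟩ := (l.mem_im le_sup_left).1 ha; e ▸ l.sq hu)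
    ((l.card le_sup_left).trans F.cU) g hn c
theorem sw : Lf F t N K (fun g => F.sw (α g)) fun x => η (F.sw x) :=   ⟨l.fr.sw, fun x hx y hy => by rw [F.sw_mul, l.mul _ (F.sw_UV hx) _ (F.sw_UV hy)],
    fun _ hx => l.mem _ (F.sw_UV hx), fun x hx => by rw [l.inv _ (F.sw_UV hx), F.sw_sw]⟩
theorem im_sw : im (fun x => η (F.sw x)) F.UV = im η F.UV :=   le_antisymm (im_le.2 fun _ hy => mem_im_self η (F.sw_UV hy)) (im_le.2 fun y hy => by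
    simpa only [F.sw_sw] using mem_im_self (fun x => η (F.sw x)) (F.sw_UV hy))

variable [Finite G]

theorem liftN {Y : Subgroup X} (hY : Y ≤ F.UV) {n : X} (hJ : n ∈ F.J) (hn : n ∈ 𝐍(Y)) :
    ∃ k ∈ K, k ∈ 𝐍(im η Y) ∧ α k = n :=   l.fr.liftN (l.imK hY) (l.isP hY) hJ fun _ ha => by
    obtain ⟨y, hy, rfl⟩ := (l.mem_im hY).1 ha
    have := conj_mem_of_mem_normalizer hn hy
    exact ⟨_, mem_im_self η this, by rw [l.inv y (hY hy), l.inv _ (hY this)]⟩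
/-- the centraliser of `Û ⟨t⟩` -/
theorem cenU {c : G} (ct : c * t = t * c) (h : ∀ u ∈ F.U, c * η u = η u * c) : c ∈ N ∧ ∃ u ∈ F.U, α c = u ∧
    ∃ o ∈ K, α o = 1 ∧ Odd (orderOf o) ∧ o ∈ zpowers ((η u)⁻¹ * c) ∧ (c = η u * o ∨ c = η u * o * t) := by
  have hN := l.ctl le_rfl le_sup_left (centralizer_le_normalizer _ (cen_im.2 h)) ct
  have hu : α c ∈ F.U := F.cenU fun u hu => by
    simpa only [l.inv u (F.mU hu)] using l.fr.comm hN (l.memN (F.mU hu)) (h u hu)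
  have m := l.memN (F.mU hu)
  obtain ⟨o, h1, h2, h3, h4, h5⟩ := l.fr.dec (mul_mem (inv_mem m) hN) (by
    rw [l.fr.mul _ (inv_mem m) _ hN, l.fr.inv m, l.inv _ (F.mU hu), inv_mul_cancel])
  exact ⟨hN, _, hu, rfl, o, h1, h3, h4, h2, h5.imp eq_mul_of_inv_mul_eq
    fun e => (eq_mul_of_inv_mul_eq e).trans (mul_assoc _ _ _).symm⟩
theorem cenU2 {c : G} (c2 : P2 c) (ct : c * t = t * c) (h : ∀ u ∈ F.U, c * η u = η u * c) :
    ∃ u ∈ F.U, c = η u ∨ c = η u * t := by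
  obtain ⟨hN, u, hu, e, -⟩ := l.cenU ct h
  have m := l.memN (F.mU hu)
  refine ⟨u, hu, (l.fr.ker _ (mul_mem (inv_mem m) hN) (by
    rw [l.fr.mul _ (inv_mem m) _ hN, l.fr.inv m, l.inv _ (F.mU hu), e, inv_mul_cancel])
    ((P2.of_sq (l.sq hu)).inv.mul c2 (Commute.inv_left (h u hu).symm))).imp
      (fun e => (inv_mul_eq_one.1 e).symm) eq_mul_of_inv_mul_eq⟩

end Lf

theorem eqns_Base1 : True := by
  have := @hom.eq_1.{0}
  have := @Fr.pre.eq_1.{0}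
  trivial

end H60.ML
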