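import Mathlib
import Cfsg.Agent.Lib.McLy.Base1

/-! The calculus of `Cl` and `Dq`. -/

set_option autoImplicit false
set_option linter.unusedSectionVars false

namespace H60.ML

open Subgroup H69 H36.SW
open scoped commutatorElement

variable {X : Type} [Group X] {G : Type*} [Group G]
variable {F : Fy X} {t : G} {N K : Subgroup G} {α : G → X} {η E ε : X → G}

theorem WW_congr {E' : X → G} (h : ∀ u ∈ F.U, E u = E' u) : WW F t E = WW F t E' := by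
  unfold WW
  rw [im_congr h]

theorem base2_tt (t2 : t * t = 1) (g : G) : t * (t * g * t) * t = g := by
  calc t * (t * g * t) * t = (t * t) * g * (t * t) := by group
    _ = g := by rw [t2]; group

theorem base2_tmul (t2 : t * t = 1) (g k : G) : t * (g * k) * t = t * g * t * (t * k * t) := by
  calc t * (g * k) * t = t * g * 1 * k * t := by group
    _ = _ := by rw [← t2]; group

theorem base2_mem (t2 : t * t = 1) {B : Subgroup G} (hn : t ∈ 𝐍(B)) {x : G} :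
    x ∈ B ⊔ zpowers t ↔ x ∈ B ∨ x * t ∈ B := by
  have ti : t⁻¹ = t := inv_eq_of_mul_eq_one_right t2
  constructor
  · intro hx
    obtain ⟨b, hb, _, ⟨n, rfl⟩, rfl⟩ := (mem_sup_of_le_normalizer_left (zpowers_le.2 hn)).1 hx
    rcases Int.even_or_odd' n with ⟨k, rfl | rfl⟩
    · left
      simpa only [zpow_mul, zpow_two, t2, one_zpow, mul_one] using hb
    · right
      simpa only [zpow_add, zpow_mul, zpow_two, t2, one_zpow, one_mul, zpow_one, mul_assoc,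
        mul_one] using hb
  · rintro (h | h)
    · exact mem_sup_left h
    · have := mul_mem (mem_sup_left h : x * t ∈ B ⊔ zpowers t) (mem_sup_right (mem_zpowers t))
      rwa [mul_assoc, t2, mul_one] at this

theorem base2_mem2 (t2 : t * t = 1) {Y : Subgroup X} (h : ∀ x ∈ Y, ∀ y ∈ Y, E (x * y) = E x * E y)
    {g : G} : g ∈ im E Y ^ᶜ t ↔ ∃ u ∈ Y, t * E u * t = g := by
  rw [mem_cj', inv_eq_of_mul_eq_one_right t2]
  constructor
  · rintro ⟨a, ha, rfl⟩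
    obtain ⟨u, hu, rfl⟩ := (mem_im h).1 ha
    exact ⟨u, hu, rfl⟩
  · rintro ⟨u, hu, rfl⟩
    exact ⟨_, mem_im_self E hu, rfl⟩

theorem base2_mem12 (t2 : t * t = 1) {Y Y' : Subgroup X} (h : ∀ x ∈ Y, ∀ y ∈ Y, E (x * y) = E x * E y)
    (h' : ∀ x ∈ Y', ∀ y ∈ Y', E (x * y) = E x * E y)
    (cm : ∀ x ∈ Y, ∀ y ∈ Y', E x * (t * E y * t) = t * E y * t * E x) {g : G} :
    g ∈ im E Y ⊔ im E Y' ^ᶜ t ↔ ∃ y ∈ Y, ∃ y' ∈ Y', g = E y * (t * E y' * t) := by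
  have hn : im E Y ≤ 𝐍(im E Y' ^ᶜ t) := by
    apply le_normalizer_of_le_centralizer
    rw [im_le]
    intro y hy
    rw [mem_centralizer_iff_commute]
    intro a ha
    obtain ⟨u, hu, rfl⟩ := (base2_mem2 t2 h').1 ha
    exact (cm y hy u hu).symm
  rw [mem_sup_of_le_normalizer_right hn]
  constructor
  · rintro ⟨a, ha, b, hb, rfl⟩
    obtain ⟨u, hu, rfl⟩ := (mem_im h).1 ha
    obtain ⟨v, hv, rfl⟩ := (base2_mem2 t2 h').1 hb
    exact ⟨u, hu, v, hv, rfl⟩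
  · rintro ⟨u, hu, v, hv, rfl⟩
    exact ⟨_, mem_im_self E hu, _, (base2_mem2 t2 h').2 ⟨v, hv, rfl⟩, rfl⟩

namespace Cl

variable (c : Cl F t N K α η E)
include c

theorem fr : Fr F t N K α := c.lf.fr
theorem one : E 1 = 1 := im_one c.mul
theorem sq {u : X} (hu : u ∈ F.U) : E u * E u = 1 := by rw [← c.mul u hu u hu, F.U2 u hu, c.one]
theorem Ei {u : X} (hu : u ∈ F.U) : (E u)⁻¹ = E u := inv_eq_of_mul_eq_one_right (c.sq hu)
theorem Ec {u v : X} (hu : u ∈ F.U) (hv : v ∈ F.U) : E u * E v = E v * E u := by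
  rw [← c.mul u hu v hv, ← c.mul v hv u hu, F.Uc hu hv]
theorem tr {u : X} (hu : u ∈ F.U) : E u * t * (E u)⁻¹ = t * η u := by
  rw [c.Ei hu, ← c.lf.ct (F.mU hu), ← c.hat u hu]
  calc E u * t * E u = E u * t * E u * 1 := by group
    _ = _ := by rw [← c.fr.t2]; group
theorem mem1 {g : G} : g ∈ im E F.U ↔ ∃ u ∈ F.U, E u = g := mem_im c.mul
theorem mem2 {g : G} : g ∈ im E F.U ^ᶜ t ↔ ∃ u ∈ F.U, t * E u * t = g := base2_mem2 c.fr.t2 c.mul
theorem memW {g : G} : g ∈ WW F t E ↔ ∃ u ∈ F.U, ∃ v ∈ F.U, g = E u * (t * E v * t) :=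
  base2_mem12 c.fr.t2 c.mul c.mul c.cm
theorem W_inj {u v u' v' : X} (hu : u ∈ F.U) (hv : v ∈ F.U) (hu' : u' ∈ F.U) (hv' : v' ∈ F.U)
    (e : E u * (t * E v * t) = E u' * (t * E v' * t)) : u = u' ∧ v = v' := by
  have t2 := c.fr.t2
  have ha := mul_mem (inv_mem hu') hu
  have hb := mul_mem hv' (inv_mem hv)
  have e1 : E (u'⁻¹ * u) = t * E (v' * v⁻¹) * t := by
    rw [c.mul _ (inv_mem hu') _ hu, c.mul _ hv' _ (inv_mem hv), im_inv c.mul hu', im_inv c.mul hv]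
    calc (E u')⁻¹ * E u = (E u')⁻¹ * (E u * (t * E v * t)) * (t * E v * t)⁻¹ := by group
      _ = t * (E v' * (E v)⁻¹) * t⁻¹ := by rw [e]; group
      _ = _ := by rw [c.fr.ti]
  have h1 := c.hat _ ha
  have h2 := c.hat _ hb
  rw [← e1] at h2
  rw [e1, base2_tt t2, ← e1] at h1
  have ab : u'⁻¹ * u = v' * v⁻¹ := c.lf.inj (F.mU ha) (F.mU hb) (by rw [← h1, ← h2, c.Ec ha hb])
  rw [← ab, c.sq ha, ← c.lf.one] at h1
  have a1 := c.lf.inj (one_mem _) (F.mU ha) h1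
  exact ⟨(inv_mul_eq_one.1 a1.symm).symm, (mul_inv_eq_one.1 (ab ▸ a1.symm)).symm⟩
theorem inj {u v : X} (hu : u ∈ F.U) (hv : v ∈ F.U) (e : E u = E v) : u = v :=
  (c.W_inj hu hu hv hu (by rw [e])).1
theorem EW {u : X} (hu : u ∈ F.U) : E u ∈ WW F t E := mem_sup_left (mem_im_self E hu)
theorem tEW {u : X} (hu : u ∈ F.U) : t * E u * t ∈ WW F t E := mem_sup_right (c.mem2.2 ⟨u, hu, rfl⟩)
theorem ηW {u : X} (hu : u ∈ F.U) : η u ∈ WW F t E := c.hat u hu ▸ mul_mem (c.EW hu) (c.tEW hu)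
theorem W2 {g : G} (hg : g ∈ WW F t E) : g * g = 1 := by
  obtain ⟨u, hu, v, hv, rfl⟩ := c.memW.1 hg
  calc E u * (t * E v * t) * (E u * (t * E v * t)) = E u * (t * E v * t * E u) * (t * E v * t) := by group
    _ = E u * E u * (t * E v * t * (t * E v * t)) := by rw [← c.cm u hu v hv]; group
    _ = 1 := by rw [← base2_tmul c.fr.t2, c.sq hu, c.sq hv, mul_one, one_mul, c.fr.t2]
theorem Wc {g k : G} (hg : g ∈ WW F t E) (hk : k ∈ WW F t E) : g * k = k * g :=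
  comm_of_sq (fun _ h => c.W2 h) hg hk
theorem isP : IsPGroup 2 (WW F t E) := isP_of_P2 fun _ h => P2.of_sq (c.W2 h)
theorem tW : t ∈ 𝐍(WW F t E) := by
  rw [← cj_eq_self_iff, WW, cj_sup, cj_cj, c.fr.t2, cj_one, sup_comm]
theorem tW' : t ∉ 𝐂(WW F t E) := by
  intro h
  have e := c.tr F.zU
  rw [mem_centralizer_iff_commute.1 h _ (c.EW F.zU), mul_inv_cancel_right] at e
  exact F.z1 (c.lf.inj (F.mU F.zU) (one_mem _) (by rw [c.lf.one]; exact (left_eq_mul.1 e)))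
theorem CWt {g : G} (hg : g ∈ WW F t E) (h : g * t = t * g) : ∃ u ∈ F.U, g = η u := by
  obtain ⟨u, hu, v, hv, rfl⟩ := c.memW.1 hg
  have e : E u * (t * E v * t) = E v * (t * E u * t) := by
    calc E u * (t * E v * t) = t * (E u * (t * E v * t) * t) := by
          rw [h, ← mul_assoc t t, c.fr.t2, one_mul]
      _ = _ := by rw [← mul_assoc, base2_tmul c.fr.t2, base2_tt c.fr.t2, c.cm v hv u hu]
  obtain ⟨rfl, -⟩ := c.W_inj hu hv hv hu e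
  exact ⟨u, hu, c.hat u hu⟩
theorem inv_t {g : G} (hg : g ∈ WW F t E) (h : g * t * (g * t) = 1) :
    ∃ u ∈ F.U, E u * (g * t) * (E u)⁻¹ = t := by
  have e : g * t = t * g := by
    calc g * t = g * t * (g * g) := by rw [c.W2 hg, mul_one]
      _ = g * t * (g * t) * t⁻¹ * g := by group
      _ = _ := by rw [h, c.fr.ti, one_mul]
  obtain ⟨u, hu, rfl⟩ := c.CWt hg e
  refine ⟨u, hu, ?_⟩
  calc E u * (η u * t) * (E u)⁻¹ = E u * η u * (E u)⁻¹ * (E u * t * (E u)⁻¹) := by group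
    _ = t := by
      rw [c.tr hu, c.Wc (c.EW hu) hg, mul_inv_cancel_right, ← mul_assoc, e, mul_assoc, c.lf.sq hu,
        mul_one]
theorem base2_hat {γ : G} (ct : γ * t = t * γ) (hn : γ ∈ 𝐍(WW F t E)) {u : X} (hu : u ∈ F.U) :
    ∃ v ∈ F.U, γ * η u * γ⁻¹ = η v := by
  apply c.CWt (conj_mem_of_mem_normalizer hn (c.ηW hu))
  exact (((Commute.mul_left ct (c.lf.ct (F.mU hu))).mul_left (Commute.inv_left ct)))
theorem nU {γ : G} (hγ : γ ∈ K) (hn : γ ∈ 𝐍(WW F t E)) : α γ ∈ F.NU := by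
  have key : ∀ δ ∈ K, δ ∈ 𝐍(WW F t E) → ∀ u ∈ F.U, α δ * u * (α δ)⁻¹ ∈ F.U := by
    intro δ hδ hn u hu
    obtain ⟨v, hv, e⟩ := c.base2_hat (c.fr.Kt hδ) hn hu
    have := congrArg α e
    rw [c.fr.conj (c.fr.KN hδ) (c.lf.memN (F.mU hu)), c.lf.inv _ (F.mU hu), c.lf.inv _ (F.mU hv)] at this
    rwa [this]
  refine ⟨c.fr.mem γ hγ, mem_normalizer_iff.2 fun u => ⟨key γ hγ hn u, fun h => ?_⟩⟩
  have := key _ (inv_mem hγ) (inv_mem hn) _ h
  rw [c.fr.inv (c.fr.KN hγ)] at this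
  convert this using 1
  group
theorem eqv' {γ : G} (hγ : γ ∈ K) (hn : γ ∈ 𝐍(WW F t E)) {u : X} (hu : u ∈ F.U) :
    γ * (t * E u * t) * γ⁻¹ = t * E (α γ * u * (α γ)⁻¹) * t := by
  rw [← c.eqv γ hγ hn u hu]
  calc γ * (t * E u * t) * γ⁻¹ = γ * t * γ⁻¹ * (γ * E u * γ⁻¹) * (γ * t * γ⁻¹) := by group
    _ = _ := by rw [c.fr.cjt (c.fr.KN hγ)]
theorem ηE {x u : X} (hx : x ∈ F.UV) (hu : u ∈ F.U) : η x * E u * (η x)⁻¹ = E (x * u * x⁻¹) := by
  rw [c.eqv _ (c.lf.mem x hx) (c.qn x hx) u hu, c.lf.inv x hx]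
theorem congr {E' : X → G} (h : ∀ u ∈ F.U, E u = E' u) : Cl F t N K α η E' := by
  have e := WW_congr (t := t) h
  refine ⟨c.lf, fun u hu v hv => ?_, fun u hu => ?_, fun u hu v hv => ?_, fun γ hγ hn u hu => ?_,
    e ▸ c.cov, e ▸ c.qn⟩
  · rw [← h u hu, ← h v hv, ← h _ (mul_mem hu hv), c.mul u hu v hv]
  · rw [← h u hu, c.hat u hu]
  · rw [← h u hu, ← h v hv, c.cm u hu v hv]
  · rw [← e] at hn
    rw [← h u hu, ← h _ (conj_mem_of_mem_normalizer (c.nU hγ hn).2 hu), c.eqv γ hγ hn u hu]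
theorem tw : Cl F t N K α η (fun u => t * E u * t) ∧ WW F t (fun u => t * E u * t) = WW F t E := by
  have t2 := c.fr.t2
  have m : ∀ u ∈ F.U, ∀ v ∈ F.U, t * E (u * v) * t = t * E u * t * (t * E v * t) := fun u hu v hv => by
    rw [c.mul u hu v hv, base2_tmul t2]
  have e1 : im (fun u => t * E u * t) F.U = im E F.U ^ᶜ t := by
    ext g
    rw [c.mem2, mem_im m]
  have e : WW F t (fun u => t * E u * t) = WW F t E := by
    rw [WW, WW, e1, cj_cj, t2, cj_one, sup_comm]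
  refine ⟨⟨c.lf, m, fun u hu => ?_, fun u hu v hv => ?_, fun γ hγ hn u hu => ?_,
    e ▸ c.cov, e ▸ c.qn⟩, e⟩
  · rw [base2_tt t2, ← c.cm u hu u hu, c.hat u hu]
  · rw [base2_tt t2, c.cm v hv u hu]
  · exact c.eqv' hγ (e ▸ hn) hu
theorem cj {k : G} (hk : k ∈ K) (hn : k ∈ 𝐍(im η F.UV)) (hU : α k ∈ 𝐍(F.U)) :
    Cl F t N K α η (fun u => k * E ((α k)⁻¹ * u * α k) * k⁻¹) ∧
      WW F t (fun u => k * E ((α k)⁻¹ * u * α k) * k⁻¹) = WW F t E ^ᶜ k := by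
  have kN := c.fr.KN hk
  have mu : ∀ {u}, u ∈ F.U → (α k)⁻¹ * u * α k ∈ F.U := fun hu => conj_mem_of_mem_normalizer' hU hu
  have kt : ∀ g, t * (k * g * k⁻¹) * t = k * (t * g * t) * k⁻¹ := by
    intro g
    conv_lhs => rw [← c.fr.cjt kN]
    group
  have m : ∀ u ∈ F.U, ∀ v ∈ F.U, k * E ((α k)⁻¹ * (u * v) * α k) * k⁻¹ =
      k * E ((α k)⁻¹ * u * α k) * k⁻¹ * (k * E ((α k)⁻¹ * v * α k) * k⁻¹) := by
    intro u hu v hv
    have : (α k)⁻¹ * (u * v) * α k = (α k)⁻¹ * u * α k * ((α k)⁻¹ * v * α k) := by group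
    rw [this, c.mul _ (mu hu) _ (mu hv)]
    group
  have e1 : im (fun u => k * E ((α k)⁻¹ * u * α k) * k⁻¹) F.U = im E F.U ^ᶜ k := by
    apply le_antisymm (im_le.2 fun u hu => cj_mem k (mem_im_self E (mu hu)))
    rw [cj_le_iff, im_le]
    intro u hu
    rw [mem_cj]
    have := mem_im_self (fun u => k * E ((α k)⁻¹ * u * α k) * k⁻¹) (conj_mem_of_mem_normalizer hU hu)
    have e : (α k)⁻¹ * (α k * u * (α k)⁻¹) * α k = u := by group
    simp only [e] at this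
    rwa [inv_inv]
  have e : WW F t (fun u => k * E ((α k)⁻¹ * u * α k) * k⁻¹) = WW F t E ^ᶜ k := by
    rw [WW, WW, e1, cj_sup, cj_cj, cj_cj, c.fr.Kt hk]
  have mn : ∀ {g}, g ∈ 𝐍(WW F t E ^ᶜ k) ↔ k⁻¹ * g * k ∈ 𝐍(WW F t E) := by
    intro g
    rw [← cj_normalizer, mem_cj]
  refine ⟨⟨c.lf, m, fun u hu => ?_, fun u hu v hv => ?_, fun γ hγ hγn u hu => ?_,
    fun n hn' => ?_, fun x hx => ?_⟩, e⟩
  · have := (c.lf.cj le_rfl kN hn (F.mU (mu hu))).2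
    rw [← c.hat _ (mu hu)] at this
    have e : α k * ((α k)⁻¹ * u * α k) * (α k)⁻¹ = u := by group
    rw [e] at this
    rw [kt, ← this]
    group
  · rw [kt]
    calc _ = k * (E ((α k)⁻¹ * u * α k) * (t * E ((α k)⁻¹ * v * α k) * t)) * k⁻¹ := by group
      _ = _ := by rw [c.cm _ (mu hu) _ (mu hv)]; group
  · rw [e, mn] at hγn
    have hγ' : k⁻¹ * γ * k ∈ K := mul_mem (mul_mem (inv_mem hk) hγ) hk
    have h1 := c.eqv _ hγ' hγn _ (mu hu)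
    rw [c.fr.mul _ (c.fr.KN (mul_mem (inv_mem hk) hγ)) _ kN, c.fr.mul _ (inv_mem kN) _ (c.fr.KN hγ),
      c.fr.inv kN] at h1
    have e2 : (α k)⁻¹ * α γ * α k * ((α k)⁻¹ * u * α k) * ((α k)⁻¹ * α γ * α k)⁻¹ =
        (α k)⁻¹ * (α γ * u * (α γ)⁻¹) * α k := by group
    rw [e2] at h1
    rw [← h1]
    group
  · have kU : α k ∈ F.NU := ⟨c.fr.mem k hk, hU⟩
    obtain ⟨γ, h1, h2, h3⟩ := c.cov _ (mul_mem (mul_mem (inv_mem kU) hn') kU)
    refine ⟨k * γ * k⁻¹, c.fr.cjK kN h1, ?_, ?_⟩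
    · rw [e, mn]
      convert h2 using 1
      group
    · rw [c.fr.conj kN (c.fr.KN h1), h3]
      group
  · rw [e, mn]
    obtain ⟨y, hy, e2⟩ := (c.lf.mem_im le_rfl).1 (conj_mem_of_mem_normalizer' hn (mem_im_self η hx))
    rw [← e2]
    exact c.qn y hy

variable [Finite G]

theorem base2_syl {A : Subgroup G} (h1 : im η F.U ≤ A) (h2 : A ≤ WW F t E) (ht : t ∈ 𝐍(A))
    (ht' : t ∉ 𝐂(A)) : WW F t E ≤ 𝐂(A) ∧ IsSylowIn 2 (WW F t E ⊔ zpowers t) (𝐂(A) ⊔ zpowers t) := by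
  have t2 := c.fr.t2
  have hW : WW F t E ≤ 𝐂(A) := fun g hg =>
    mem_centralizer_iff_commute.2 fun a ha => c.Wc (h2 ha) hg
  have tC : t ∈ 𝐍(𝐂(A)) := normalizer_le_normalizer_centralizer A ht
  have tP : t ∈ WW F t E ⊔ zpowers t := mem_sup_right (mem_zpowers t)
  refine ⟨hW, sup_le_sup_right hW _, isPGroup_sup_of_le_normalizer_left c.isP (P2.of_sq t2).zpowers
    (zpowers_le.2 c.tW), fun S s1 s2 s3 => ?_⟩
  by_contra hne
  have key : ∀ x ∈ S, x ∈ 𝐍(WW F t E ⊔ zpowers t) → x ∈ 𝐂(A) → x ∈ WW F t E ⊔ zpowers t := by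
    intro x hx xn xc
    rcases (base2_mem t2 c.tW).1 (conj_mem_of_mem_normalizer xn tP) with h | h
    · exfalso
      apply ht'
      have := mul_mem (mul_mem (inv_mem xc) (hW h)) xc
      convert this using 1
      group
    · have e : x * t * x⁻¹ * t * t = x * t * x⁻¹ := by rw [mul_assoc, t2, mul_one]
      obtain ⟨u, hu, e1⟩ := c.inv_t h (by rw [e]; exact cjsq t2 x)
      rw [e] at e1
      have m : E u ∈ WW F t E ⊔ zpowers t := mem_sup_left (c.EW hu)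
      obtain ⟨v, hv, e2⟩ := c.lf.cenU2 (c := E u * x) (P2.of_mem s3 (mul_mem (s1 m) hx))
        (mul_inv_eq_iff_eq_mul.1 (Eq.trans (by group) e1))
        (fun v hv => (mem_centralizer_iff_commute.1 (mul_mem (hW (c.EW hu)) xc) _
          (h1 (mem_im_self η hv))).symm)
      rw [← (WW F t E ⊔ zpowers t).mul_mem_cancel_left m]
      rcases e2 with e2 | e2 <;> rw [e2]
      · exact mem_sup_left (c.ηW hv)
      · exact mul_mem (mem_sup_left (c.ηW hv)) tP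
  obtain ⟨x, ⟨hx, xn⟩, xP⟩ := SetLike.exists_of_lt
    (lt_inf_normalizer_of_lt s3 (lt_of_le_of_ne s1 (Ne.symm hne)))
  rcases (base2_mem t2 tC).1 (s2 hx) with h | h
  · exact xP (key x hx xn h)
  · exact xP (((WW F t E ⊔ zpowers t).mul_mem_cancel_right tP).1
      (key _ (mul_mem hx (s1 tP)) (mul_mem xn (le_normalizer tP)) h))

theorem sylA {A : Subgroup G} (h1 : im η F.U ≤ A) (h2 : A ≤ WW F t E) (ht : t ∈ 𝐍(A)) (ht' : t ∉ 𝐂(A)) :
    IsSylowIn 2 (WW F t E) 𝐂(A) := by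
  obtain ⟨hW, hS⟩ := c.base2_syl h1 h2 ht ht'
  have := hS.inf_normal le_sup_left (sup_le le_normalizer
    (zpowers_le.2 (normalizer_le_normalizer_centralizer A ht)))
  convert this
  apply le_antisymm (le_inf le_sup_left hW)
  rintro x ⟨hx, xc⟩
  rcases (base2_mem c.fr.t2 c.tW).1 hx with h | h
  · exact h
  · exact absurd ((𝐂(A).mul_mem_cancel_left xc).1 (hW h)) ht'
theorem base2_imW : im η F.U ≤ WW F t E := im_le.2 fun _ hu => c.ηW hu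
theorem two {g : G} (hg : g ∈ 𝐂(WW F t E)) (h : P2 g) : g ∈ WW F t E :=
  (c.sylA c.base2_imW le_rfl c.tW c.tW').le_of_le_normalizer' h.zpowers (zpowers_le.2 hg)
    (le_normalizer_of_le_centralizer (zpowers_le.2 hg)) (mem_zpowers g)
theorem cw {A : Subgroup G} (h1 : im η F.U ≤ A) (h2 : A ≤ WW F t E) (ht : t ∈ 𝐍(A)) (ht' : t ∉ 𝐂(A)) {s : G}
    (s2 : s * s = 1) (h : s * t ∈ 𝐂(A)) : ∃ k ∈ 𝐂(A), k * s * k⁻¹ = t := by
  obtain ⟨hW, hS⟩ := c.base2_syl h1 h2 ht ht'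
  have t2 := c.fr.t2
  have tC : t ∈ 𝐍(𝐂(A)) := normalizer_le_normalizer_centralizer A ht
  have tP : t ∈ WW F t E ⊔ zpowers t := mem_sup_right (mem_zpowers t)
  obtain ⟨g, hg, g1⟩ := hS.exists_cj_le (P2.of_sq s2).zpowers
    (zpowers_le.2 ((base2_mem t2 tC).2 (Or.inr h)))
  replace g1 := g1 (cj_mem g (mem_zpowers s))
  obtain ⟨k, hk, k1⟩ : ∃ k ∈ 𝐂(A), k * s * k⁻¹ ∈ WW F t E ⊔ zpowers t := by
    rcases (base2_mem t2 tC).1 hg with h' | h'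
    · exact ⟨g, h', g1⟩
    · refine ⟨t * g, ?_, ?_⟩
      · convert conj_mem_of_mem_normalizer tC h' using 1
        group
      · convert mul_mem (mul_mem tP g1) (inv_mem tP) using 1
        group
  rcases (base2_mem t2 c.tW).1 k1 with h' | h'
  · exfalso
    apply ht'
    have hs : s ∈ 𝐂(A) := by
      convert mul_mem (mul_mem (inv_mem hk) (hW h')) hk using 1
      group
    exact (𝐂(A).mul_mem_cancel_left hs).1 h
  · have e : k * s * k⁻¹ * t * t = k * s * k⁻¹ := by rw [mul_assoc, t2, mul_one]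
    obtain ⟨u, hu, e1⟩ := c.inv_t h' (by rw [e]; exact cjsq s2 k)
    rw [e] at e1
    exact ⟨E u * k, mul_mem (hW (c.EW hu)) hk, by rw [← e1]; group⟩
/-- an element whose action on `W` commutes with that of `t` -/
theorem act [Finite X] {g : G} (hg : g ∈ 𝐍(WW F t E))
    (h : ∀ w ∈ WW F t E, g * (t * w * t) * g⁻¹ = t * (g * w * g⁻¹) * t) :
    ∃ n ∈ F.NU, ∀ u ∈ F.U, g * η u * g⁻¹ = η (n * u * n⁻¹) := by
  have t2 := c.fr.t2
  have hs : g * t * g⁻¹ * t ∈ 𝐂(WW F t E) := by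
    rw [mem_centralizer_iff_commute]
    intro w hw
    have hw' : t * w * t ∈ WW F t E := by
      simpa only [c.fr.ti] using conj_mem_of_mem_normalizer c.tW hw
    have e := h _ (conj_mem_of_mem_normalizer' hg hw')
    have e1 : g * (g⁻¹ * (t * w * t) * g) * g⁻¹ = t * w * t := by group
    rw [e1, base2_tt t2] at e
    calc w * (g * t * g⁻¹ * t) = g * (t * (g⁻¹ * (t * w * t) * g) * t) * g⁻¹ * (g * t * g⁻¹ * t) := by
          rw [e]
      _ = g * t * g⁻¹ * t * w * (t * g * (t * t) * g⁻¹ * t) := by group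
      _ = _ := by rw [t2, mul_one, mul_inv_cancel_right, t2, mul_one]
  obtain ⟨k, hk, e⟩ := c.cw c.base2_imW le_rfl c.tW c.tW' (cjsq t2 g) hs
  have ct : k * g * t = t * (k * g) := mul_inv_eq_iff_eq_mul.1 (Eq.trans (by group) e)
  have hn : k * g ∈ 𝐍(WW F t E) := mul_mem (centralizer_le_normalizer _ hk) hg
  have hn' : k * g ∈ 𝐍(im η F.U) := nrm_im fun u hu => c.base2_hat ct hn hu
  have hN := c.lf.ctl le_rfl le_sup_left hn' ct
  have nU : α (k * g) ∈ 𝐍(F.U) := by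
    apply mem_normalizer_of_cj_le
    intro x hx
    obtain ⟨u, hu, rfl⟩ := mem_cj'.1 hx
    exact (c.lf.cj le_sup_left hN hn' hu).1
  refine ⟨α (k * g), ⟨F.NUJ nU, nU⟩, fun u hu => ?_⟩
  rw [← (c.lf.cj le_sup_left hN hn' hu).2,
    ← conj_eq_of_mem_centralizer hk (conj_mem_of_mem_normalizer hg (c.ηW hu))]
  group

end Cl

theorem base2_im_sw (f : X → G) {Y Y' : Subgroup X} (h : ∀ y ∈ Y, F.sw y ∈ Y')
    (h' : ∀ y ∈ Y', F.sw y ∈ Y) : im (fun x => f (F.sw x)) Y = im f Y' := by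
  apply le_antisymm (im_le.2 fun y hy => mem_im_self f (h y hy)) (im_le.2 fun y hy => ?_)
  simpa only [F.sw_sw] using mem_im_self (fun x => f (F.sw x)) (h' y hy)

theorem im_sw_UV (f : X → G) : im (fun x => f (F.sw x)) F.UV = im f F.UV :=
  base2_im_sw f (fun _ => F.sw_UV) fun _ => F.sw_UV
theorem im_sw_U (f : X → G) : im (fun x => f (F.sw x)) F.U = im f F.V :=
  base2_im_sw f (fun _ => F.sw_U) fun _ => F.sw_V
theorem im_sw_V (f : X → G) : im (fun x => f (F.sw x)) F.V = im f F.U :=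
  base2_im_sw f (fun _ => F.sw_V) fun _ => F.sw_U
theorem im_sw_Z (f : X → G) : im (fun x => f (F.sw x)) F.Z0 = im f F.Z0 :=
  im_congr fun _ hy => by rw [F.sw_Z0 hy]
theorem YY_sw : YY F t (fun x => ε (F.sw x)) = YY F t ε := by rw [YY, YY, im_sw_UV]
theorem Z2_sw : Z2 F t (fun x => ε (F.sw x)) = Z2 F t ε := by rw [Z2, Z2, im_sw_Z]
theorem LL1_sw : LL1 F t (fun x => ε (F.sw x)) = LL1 F t ε := by
  rw [LL1, LL1, YY_sw, Z2_sw, im_sw_UV]

namespace Dq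

variable (d : Dq F t N K α η ε)
include d

theorem swap : Dq F t N K (fun g => F.sw (α g)) (fun x => η (F.sw x)) fun x => ε (F.sw x) := by
  refine ⟨d.c', by simpa only [F.sw_sw] using d.c, fun x hx y hy => ?_, fun x hx y hy => ?_,
    fun n hn hn' => ?_⟩
  · rw [F.sw_mul, d.mul _ (F.sw_UV hx) _ (F.sw_UV hy)]
  · exact d.cm _ (F.sw_UV hx) _ (F.sw_UV hy)
  · obtain ⟨γ, h1, h2, h3, h4⟩ := d.nq (F.sw n) ⟨F.sw_J hn.1, F.sw_NV hn'⟩ (F.sw_NU hn.2)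
    exact ⟨γ, h1, h3, by simpa only [F.sw_sw] using h2, by rw [h4, F.sw_sw]⟩
theorem hat {x : X} (hx : x ∈ F.UV) : ε x * (t * ε x * t) = η x := by
  obtain ⟨u, hu, v, hv, rfl⟩ := F.mem_UV.1 hx
  have h1 := d.c'.hat _ (F.sw_V hv)
  simp only [F.sw_sw] at h1
  rw [d.mul _ (F.mU hu) _ (F.mV hv), d.c.lf.mul _ (F.mU hu) _ (F.mV hv), ← h1, ← d.c.hat u hu,
    base2_tmul d.c.fr.t2]
  calc ε u * ε v * (t * ε u * t * (t * ε v * t)) = ε u * (ε v * (t * ε u * t)) * (t * ε v * t) := by group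
    _ = _ := by rw [d.cm _ (F.mV hv) _ (F.mU hu)]; group
theorem base2_inj {x y : X} (hx : x ∈ F.UV) (hy : y ∈ F.UV) (e : ε x = ε y) : x = y :=
  d.c.lf.inj hx hy (by rw [← d.hat hx, ← d.hat hy, e])
theorem base2_cen {a : X} (ha : a ∈ F.UV) (h : ∀ x ∈ F.UV, ε a * ε x = ε x * ε a) : a ∈ F.Z0 :=
  F.cenUV fun x hx => d.base2_inj (mul_mem ha hx) (mul_mem hx ha)
    (by rw [d.mul a ha x hx, d.mul x hx a ha, h x hx])
theorem inj {x y x' y' : X} (hx : x ∈ F.UV) (hy : y ∈ F.UV) (hx' : x' ∈ F.UV) (hy' : y' ∈ F.UV)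
    (e : ε x * (t * ε y * t) = ε x' * (t * ε y' * t)) : x = x' ∧ y = y' := by
  have t2 := d.c.fr.t2
  have ha := mul_mem (inv_mem hx') hx
  have hb := mul_mem hy' (inv_mem hy)
  have e1 : ε (x'⁻¹ * x) = t * ε (y' * y⁻¹) * t := by
    rw [d.mul _ (inv_mem hx') _ hx, d.mul _ hy' _ (inv_mem hy), im_inv d.mul hx', im_inv d.mul hy]
    calc (ε x')⁻¹ * ε x = (ε x')⁻¹ * (ε x * (t * ε y * t)) * (t * ε y * t)⁻¹ := by group
      _ = t * (ε y' * (ε y)⁻¹) * t⁻¹ := by rw [e]; group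
      _ = _ := by rw [d.c.fr.ti]
  have cm : ∀ w ∈ F.UV, ε (x'⁻¹ * x) * ε w = ε w * ε (x'⁻¹ * x) := fun w hw => by
    rw [e1, d.cm w hw _ hb]
  have h1 := d.hat ha
  have h2 := d.hat hb
  rw [← e1] at h2
  rw [e1, base2_tt t2, ← e1] at h1
  have ab : x'⁻¹ * x = y' * y⁻¹ := d.c.lf.inj ha hb (by rw [← h1, ← h2, cm _ hb])
  rw [← ab, d.c.sq (d.base2_cen ha cm).1, ← d.c.lf.one] at h1
  have a1 := d.c.lf.inj (one_mem _) ha h1
  exact ⟨(inv_mul_eq_one.1 a1.symm).symm, (mul_inv_eq_one.1 (ab ▸ a1.symm)).symm⟩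
theorem base2_mul {Y : Subgroup X} (hY : Y ≤ F.UV) : ∀ x ∈ Y, ∀ y ∈ Y, ε (x * y) = ε x * ε y :=
  fun x hx y hy => d.mul x (hY hx) y (hY hy)
theorem mem1 {Y : Subgroup X} (hY : Y ≤ F.UV) {g : G} : g ∈ im ε Y ↔ ∃ y ∈ Y, ε y = g :=
  mem_im (d.base2_mul hY)
theorem mem2 {Y : Subgroup X} (hY : Y ≤ F.UV) {g : G} : g ∈ im ε Y ^ᶜ t ↔ ∃ y ∈ Y, t * ε y * t = g :=
  base2_mem2 d.c.fr.t2 (d.base2_mul hY)
theorem mem12 {Y Y' : Subgroup X} (hY : Y ≤ F.UV) (hY' : Y' ≤ F.UV) {g : G} :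
    g ∈ im ε Y ⊔ im ε Y' ^ᶜ t ↔ ∃ y ∈ Y, ∃ y' ∈ Y', g = ε y * (t * ε y' * t) :=
  base2_mem12 d.c.fr.t2 (d.base2_mul hY) (d.base2_mul hY') fun x hx y hy => d.cm x (hY hx) y (hY' hy)
theorem memY {g : G} : g ∈ YY F t ε ↔ ∀ x ∈ F.UV, g * (t * ε x * t) = t * ε x * t * g := by
  rw [YY, mem_centralizer_iff_commute]
  constructor
  · exact fun h x hx => (h _ ((d.mem2 le_rfl).2 ⟨x, hx, rfl⟩)).symm
  · intro h a ha
    obtain ⟨x, hx, rfl⟩ := (d.mem2 le_rfl).1 ha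
    exact (h x hx).symm
theorem εY {x : X} (hx : x ∈ F.UV) : ε x ∈ YY F t ε := d.memY.2 (d.cm x hx)
theorem Z2Y : Z2 F t ε ≤ YY F t ε := by
  intro g hg
  obtain ⟨c, hc, rfl⟩ := (d.mem2 (inf_le_left.trans le_sup_left)).1 hg
  refine d.memY.2 fun x hx => ?_
  rw [← base2_tmul d.c.fr.t2, ← base2_tmul d.c.fr.t2, ← d.mul _ (F.mU hc.1) _ hx,
    ← d.mul _ hx _ (F.mU hc.1), F.Zc hc hx]
theorem YZ : YY F t ε ≤ 𝐂(Z2 F t ε) :=
  centralizer_anti (cj_mono t (im_mono ε (inf_le_left.trans le_sup_left)))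
theorem PL : im ε F.UV ⊔ Z2 F t ε ≤ LL1 F t ε :=
  le_inf (sup_le (im_le.2 fun _ hx => d.εY hx) d.Z2Y) le_normalizer
theorem isP {Y Y' : Subgroup X} (hY : Y ≤ F.UV) (hY' : Y' ≤ F.UV) : IsPGroup 2 (im ε Y ⊔ im ε Y' ^ᶜ t : Subgroup G) := by
  apply isP_of_P2
  intro g hg
  obtain ⟨y, hy, y', hy', rfl⟩ := (d.mem12 hY hY').1 hg
  have h := isP_im d.mul F.UV2
  refine (P2.of_mem h (mem_im_self ε (hY hy))).mul ?_ (d.cm _ (hY hy) _ (hY' hy'))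
  simpa only [d.c.fr.ti] using (P2.of_mem h (mem_im_self ε (hY' hy'))).conj t
theorem eqv {γ : G} (hγ : γ ∈ K) (h1 : γ ∈ 𝐍(WW F t ε)) (h2 : γ ∈ 𝐍(WW F t fun x => ε (F.sw x))) {x : X}
    (hx : x ∈ F.UV) : α γ * x * (α γ)⁻¹ ∈ F.UV ∧ γ * ε x * γ⁻¹ = ε (α γ * x * (α γ)⁻¹) := by
  have n1 : α γ ∈ 𝐍(F.U) := (d.c.nU hγ h1).2
  have n2 : α γ ∈ 𝐍(F.V) := by simpa only [F.sw_sw] using F.sw_NU (d.c'.nU hγ h2).2
  refine ⟨conj_mem_of_mem_normalizer (F.nUV n1 n2) hx, ?_⟩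
  obtain ⟨u, hu, v, hv, rfl⟩ := F.mem_UV.1 hx
  have e1 := d.c'.eqv γ hγ h2 _ (F.sw_V hv)
  simp only [← F.sw_cj, F.sw_sw] at e1
  have e : α γ * (u * v) * (α γ)⁻¹ = α γ * u * (α γ)⁻¹ * (α γ * v * (α γ)⁻¹) := by group
  rw [e, d.mul _ (F.mU hu) _ (F.mV hv), d.mul _ (F.mU (conj_mem_of_mem_normalizer n1 hu)) _
    (F.mV (conj_mem_of_mem_normalizer n2 hv)), ← e1, ← d.c.eqv γ hγ h1 u hu]
  group
/-- the 2-elements of `C(U₁) ∩ C(Q₂)` -/
theorem twoU [Finite G] {g : G} (hg : g ∈ YY F t ε) (h : g ∈ 𝐂(im ε F.U)) (g2 : P2 g) :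
    g ∈ im ε F.U ⊔ Z2 F t ε := by
  have hW : g ∈ 𝐂(WW F t ε) := by
    rw [WW, H69.centralizer_sup]
    exact ⟨h, centralizer_anti (cj_mono t (im_mono ε le_sup_left)) hg⟩
  obtain ⟨u, hu, v, hv, rfl⟩ := d.c.memW.1 (d.c.two hW g2)
  refine mul_mem (mem_sup_left (mem_im_self ε hu)) (mem_sup_right
    ((d.mem2 (inf_le_left.trans le_sup_left)).2 ⟨v, d.base2_cen (F.mU hv) fun x hx => ?_, rfl⟩))
  have e := d.memY.1 (((YY F t ε).mul_mem_cancel_left (d.εY (F.mU hu))).1 hg) x hx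
  rw [← base2_tmul d.c.fr.t2, ← base2_tmul d.c.fr.t2] at e
  exact mul_left_cancel (mul_right_cancel e)
/-- the 2-elements of `C(Q₁ Q₂)` -/
theorem twoQ [Finite G] {g : G} (hg : g ∈ YY F t ε) (h : g ∈ 𝐂(im ε F.UV)) (g2 : P2 g) :
    g ∈ im ε F.Z0 ⊔ Z2 F t ε := by
  have zl : F.Z0 ≤ F.UV := inf_le_left.trans le_sup_left
  obtain ⟨u, hu, v, hv, rfl⟩ := (d.mem12 le_sup_left zl).1
    (d.twoU hg (centralizer_anti (im_mono ε le_sup_left) h) g2)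
  have m : t * ε v * t ∈ 𝐂(im ε F.UV) := cen_im.2 fun y hy => (d.cm y hy v (zl hv)).symm
  exact (d.mem12 zl zl).2 ⟨u, d.base2_cen (F.mU hu)
    (cen_im.1 ((𝐂(im ε F.UV).mul_mem_cancel_right m).1 h)), v, hv, rfl⟩

end Dq

end H60.ML
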