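import Mathlib
import Cfsg.Agent.Lib.McLy.Base1

/-! The normaliser of `⟨t⟩ × Û` contains the translations. -/

set_option autoImplicit false
set_option linter.unusedSectionVars false

namespace H60.ML

open Subgroup H69 H36.SW
open scoped commutatorElement

universe u
variable {X : Type} [Group X] [Finite X] {G : Type u} [Group G] [Finite G]
variable {F : Fy X} {t : G} {N K : Subgroup G} {α : G → X} {η E E' ε : X → G} {R : Subgroup G}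

/-- the image of a subgroup of `N` -/
theorem Fr.c1_im (f : Fr F t N K α) {D : Subgroup G} (hD : D ≤ N) (h2 : ∀ e ∈ D, e * e = 1) :
    ∃ B : Subgroup X, (∀ x, x ∈ B ↔ ∃ e ∈ D, α e = x) ∧ Nat.card D ≤ Nat.card B * 2 := by
  let φ : D →* X := MonoidHom.mk' (fun e => α e) fun a b => f.mul _ (hD a.2) _ (hD b.2)
  refine ⟨φ.range, fun x => ⟨fun ⟨e, h⟩ => ⟨e, e.2, h⟩, fun ⟨e, he, h⟩ => ⟨⟨e, he⟩, h⟩⟩, ?_⟩
  have h1 : Nat.card (φ.ker.map D.subtype) ≤ 2 :=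
    card_zp f.t2 f.t1 ▸ card_le_of_le (by
      rintro _ ⟨e, he, rfl⟩
      exact (mem_zp f.t2).2 (f.ker _ (hD e.2) he (P2.of_sq (h2 _ e.2))))
  rw [card_map_of_injective D.subtype_injective] at h1
  rw [← index_ker, ← φ.ker.card_mul_index, mul_comm]
  exact Nat.mul_le_mul_left _ h1

namespace Lf

variable (l : Lf F t N K α η)
include l

theorem c1_memP {p : G} : p ∈ im η F.U ↔ ∃ u ∈ F.U, η u = p := l.mem_im le_sup_left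
theorem c1_PK : im η F.U ≤ K := l.imK le_sup_left
theorem c1_PN : im η F.U ≤ N := l.c1_PK.trans l.fr.KN
theorem c1_a {u : X} (hu : u ∈ F.U) : α (η u) = u := l.inv u (F.mU hu)
theorem c1_PU {p : G} (hp : p ∈ im η F.U) : α p ∈ F.U := by
  obtain ⟨u, hu, rfl⟩ := l.c1_memP.1 hp
  rwa [l.c1_a hu]
theorem c1_Psq {p : G} (hp : p ∈ im η F.U) : p * p = 1 := by
  obtain ⟨u, hu, rfl⟩ := l.c1_memP.1 hp
  exact l.sq hu
theorem c1_Pt {p : G} (hp : p ∈ im η F.U) : p * t = t * p := l.fr.Kt (l.c1_PK hp)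
theorem c1_Pinj {p p' : G} (hp : p ∈ im η F.U) (hp' : p' ∈ im η F.U) (e : α p = α p') : p = p' :=
  l.fr.uniq (l.isP le_sup_left) (l.c1_PK hp) (l.c1_PK hp') hp hp' e
theorem c1_Pne {p : G} (hp : p ∈ im η F.U) (h : p ≠ 1) : α p ≠ 1 := fun e =>
  h (l.c1_Pinj hp (one_mem _) (e.trans l.fr.one.symm))
theorem c1_ne {u : X} (hu : u ∈ F.U) (h : u ≠ 1) : η u ≠ 1 := fun e =>
  h (by rw [← l.c1_a hu, e, l.fr.one])

theorem c1_memE {e : G} : e ∈ im η F.U ⊔ zpowers t ↔ ∃ p ∈ im η F.U, e = p ∨ e = t * p := by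
  rw [mem_sup_comm fun p hp b hb =>
    ((mem_zp l.fr.t2).1 hb).elim (fun e => by simp [e]) fun e => e ▸ l.c1_Pt hp]
  constructor
  · rintro ⟨p, hp, b, hb, rfl⟩
    exact ⟨p, hp, ((mem_zp l.fr.t2).1 hb).imp (fun e => by simp [e]) fun e => by rw [e, l.c1_Pt hp]⟩
  · rintro ⟨p, hp, rfl | rfl⟩
    · exact ⟨_, hp, 1, one_mem _, by simp⟩
    · exact ⟨p, hp, t, mem_zpowers t, (l.c1_Pt hp).symm⟩

theorem c1_Esq {e : G} (he : e ∈ im η F.U ⊔ zpowers t) : e * e = 1 := by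
  obtain ⟨p, hp, rfl | rfl⟩ := l.c1_memE.1 he
  · exact l.c1_Psq hp
  · rw [mul_assoc, ← mul_assoc p, l.c1_Pt hp, mul_assoc, l.c1_Psq hp, mul_one, l.fr.t2]

theorem c1_cE : Nat.card (im η F.U ⊔ zpowers t : Subgroup G) = 32 := by
  rw [card_sup_comm (fun p hp b hb =>
      ((mem_zp l.fr.t2).1 hb).elim (fun e => by simp [e]) fun e => e ▸ l.c1_Pt hp)
    fun p hp hb => ((mem_zp l.fr.t2).1 hb).elim id fun e => absurd (e ▸ l.c1_PK hp) l.fr.tK,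
    l.card le_sup_left, F.cU, card_zp l.fr.t2 l.fr.t1]

theorem c1_cjt {k : G} (hk : k ∈ K) : k * t * k⁻¹ = t := l.fr.cjt (l.fr.KN hk)

theorem c1_NE {k : G} (hk : k ∈ K) (hn : k ∈ 𝐍(im η F.U)) : k ∈ 𝐍(im η F.U ⊔ zpowers t) :=
  mem_normalizer_of_cj_le (by rw [cj_sup, cj_zpowers, l.c1_cjt hk, cj_eq_of_mem_normalizer hn])

theorem c1_conj_eq {k p p' : G} (hk : k ∈ K) (hn : k ∈ 𝐍(im η F.U)) (hp : p ∈ im η F.U)
    (hp' : p' ∈ im η F.U) (e : α k * α p * (α k)⁻¹ = α p') : k * p * k⁻¹ = p' :=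
  l.c1_Pinj (conj_mem_of_mem_normalizer hn hp) hp' (by rw [l.fr.conj (l.fr.KN hk) (l.c1_PN hp), e])

/-- `N_K(Û)` is transitive on `Û#` -/
theorem c1_trP {v : G} (hv : v ∈ im η F.U) (h1 : v ≠ 1) :
    ∃ k ∈ K, k ∈ 𝐍(im η F.U) ∧ k * η F.z * k⁻¹ = v := by
  obtain ⟨n, hn, nU, e⟩ := F.tr1 _ (l.c1_PU hv) (l.c1_Pne hv h1)
  obtain ⟨k, hk, kN, rfl⟩ := l.liftN le_sup_left hn nU
  exact ⟨k, hk, kN, l.c1_conj_eq hk kN (mem_im_self η F.zU) hv (by rw [l.c1_a F.zU, e])⟩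

theorem c1_fus : ∃ g, g * t * g⁻¹ = t * η F.z := by
  obtain ⟨g, a, ha, a2, a1, e⟩ := l.fr.fus
  have f := l.fr
  obtain ⟨j, hj, ej⟩ := F.inv (f.mem a ha) (by rw [← f.mul _ (f.KN ha) _ (f.KN ha), a2, f.one])
    fun h => a1 (f.eq_one ha (P2.of_sq a2) h)
  obtain ⟨k, hk, rfl⟩ := f.onto j hj
  have hb : k⁻¹ * a * k⁻¹⁻¹ ∈ K := f.cjK (f.KN (inv_mem hk)) ha
  have b2 := cjsq a2 k⁻¹
  have eb : α (k⁻¹ * a * k⁻¹⁻¹) = F.z := by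
    rw [f.conj (f.KN (inv_mem hk)) (f.KN ha), f.inv (f.KN hk), ← ej]; group
  obtain ⟨o, ho, -, h⟩ := f.cj_lift (zpowers_le.2 hb) (zpowers_le.2 (l.c1_PK (mem_im_self η F.zU)))
    (P2.of_sq b2).zpowers (P2.of_sq (l.sq F.zU)).zpowers fun x hx =>
      ((mem_zp b2).1 hx).elim (fun e => ⟨1, one_mem _, by rw [e]⟩)
        fun e => ⟨_, mem_zpowers _, by rw [e, eb, l.c1_a F.zU]⟩
  rcases (mem_zp (l.sq F.zU)).1 (h (cj_mem o (mem_zpowers _))) with h | h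
  · exact absurd h (cjne (cjne a1 _) _)
  · refine ⟨o * k⁻¹ * g, ?_⟩
    calc _ = o * k⁻¹ * (g * t * g⁻¹) * k * o⁻¹ := by group
      _ = o * (k⁻¹ * t * k⁻¹⁻¹) * o⁻¹ * (o * (k⁻¹ * a * k⁻¹⁻¹) * o⁻¹) := by rw [e]; group
      _ = _ := by rw [h, l.c1_cjt (inv_mem hk), l.c1_cjt ho]

theorem c1_move : ∃ γ ∈ 𝐍(im η F.U ⊔ zpowers t), γ * t * γ⁻¹ ≠ t := by
  have f := l.fr
  obtain ⟨g, hg⟩ := l.c1_fus
  have tE : t ∈ im η F.U ⊔ zpowers t := mem_sup_right (mem_zpowers t)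
  have ta : t * η F.z ∈ im η F.U ⊔ zpowers t := l.c1_memE.2 ⟨_, mem_im_self η F.zU, Or.inr rfl⟩
  have key : ∀ k : G, k * (t * η F.z) * k⁻¹ = t → (∀ e ∈ (im η F.U ⊔ zpowers t) ^ᶜ k, e * t = t * e) ∧
      (∀ e ∈ (im η F.U ⊔ zpowers t) ^ᶜ k, e * e = 1) ∧ t ∈ (im η F.U ⊔ zpowers t) ^ᶜ k := fun k hk => by
    have h2 : ∀ e ∈ (im η F.U ⊔ zpowers t) ^ᶜ k, e * e = 1 := fun _ ⟨e, he, h⟩ => h ▸ cjsq (l.c1_Esq he) k
    have h3 : t ∈ (im η F.U ⊔ zpowers t) ^ᶜ k := by have := cj_mem k ta; rwa [hk] at this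
    exact ⟨fun e he => comm_of_sq h2 he h3, h2, h3⟩
  have ne : ∀ k : G, k * (t * η F.z) * k⁻¹ = t → k * t * k⁻¹ ≠ t := fun k hk h =>
    l.c1_ne F.zU F.z1 (by simpa using h.trans hk.symm)
  have stp : ∀ k c : G, k * (t * η F.z) * k⁻¹ = t → c * t * c⁻¹ = t →
      c * k * (t * η F.z) * (c * k)⁻¹ = t := fun k c hk hc => by
    calc _ = c * (k * (t * η F.z) * k⁻¹) * c⁻¹ := by group
      _ = t := by rw [hk, hc]
  have g0 : g⁻¹ * (t * η F.z) * g⁻¹⁻¹ = t := by rw [← hg]; group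
  obtain ⟨h1, h2, -⟩ := key g⁻¹ g0
  obtain ⟨c, ct, hN⟩ := f.syl _ (isP_of_P2 fun e he => P2.of_sq (h2 e he)) h1
  rw [cj_cj] at hN
  have g1 := stp _ c g0 (by rw [ct, mul_inv_cancel_right])
  generalize c * g⁻¹ = k0 at hN g1
  obtain ⟨-, h2, -⟩ := key k0 g1
  obtain ⟨B, hB, hc⟩ := f.c1_im hN h2
  rw [card_cj, l.c1_cE] at hc
  obtain ⟨j, hj, e⟩ := F.ea B
    (fun _ h => let ⟨e, he, h⟩ := (hB _).1 h; by rw [← h, ← f.mul _ (hN he) _ (hN he), h2 e he, f.one])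
    (by omega)
  obtain ⟨b, hb, rfl⟩ := f.onto j hj
  have hk := stp _ b g1 (l.c1_cjt hb)
  obtain ⟨k1, k2, k3⟩ := key _ hk
  have kN : (im η F.U ⊔ zpowers t) ^ᶜ (b * k0) ≤ N := by
    rw [← cj_cj]; exact cj_le_of_mem hN (f.KN hb)
  have i1 : ∀ e ∈ (im η F.U ⊔ zpowers t) ^ᶜ (b * k0), α e ∈ B ^ᶜ α b := by
    rw [← cj_cj]
    rintro _ ⟨e, he, rfl⟩
    exact f.conj (f.KN hb) (hN he) ▸ cj_mem _ ((hB _).2 ⟨e, he, rfl⟩)
  have i2 : ∀ y ∈ B ^ᶜ α b, ∃ e ∈ (im η F.U ⊔ zpowers t) ^ᶜ (b * k0), α e = y := by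
    rintro _ ⟨y, hy, rfl⟩
    obtain ⟨e, he, rfl⟩ := (hB _).1 hy
    exact ⟨_, cj_cj _ k0 b ▸ cj_mem b he, f.conj (f.KN hb) (hN he)⟩
  have BJ : B ^ᶜ α b ≤ F.J := e.elim (fun e => e ▸ F.UJ) fun e => e ▸ F.VJ
  generalize b * k0 = k at *
  generalize hD : (im η F.U ⊔ zpowers t) ^ᶜ k = D at *
  have dec : ∀ e ∈ D, ∃ a ∈ D ⊓ K, e = a ∨ e = a * t := fun e he =>
    (f.K_or (kN he) (BJ (i1 e he))).elim (fun h => ⟨e, ⟨he, h⟩, Or.inl rfl⟩)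
      fun h => ⟨e * t, ⟨mul_mem he k3, h⟩, Or.inr (by rw [mul_assoc, f.t2, mul_one])⟩
  have A2 : IsPGroup 2 (D ⊓ K : Subgroup G) := isP_of_P2 fun e he => P2.of_sq (k2 e he.1)
  have mv : ∀ o ∈ K, ∀ A : Subgroup G, t ∈ A → (D ⊓ K) ^ᶜ o ≤ A → D ^ᶜ o ≤ A := fun o ho A tA h => by
    rintro _ ⟨e, he, rfl⟩
    obtain ⟨a, ha, rfl | rfl⟩ := dec e he
    · exact h (cj_mem o ha)
    · have : o * (a * t) * o⁻¹ = o * a * o⁻¹ * (o * t * o⁻¹) := by group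
      show o * (a * t) * o⁻¹ ∈ A
      rw [this, l.c1_cjt ho]
      exact mul_mem (h (cj_mem o ha)) tA
  rcases e with e | e <;> rw [e] at i1 i2
  · obtain ⟨o, ho, -, h⟩ := f.cj_lift inf_le_right l.c1_PK A2 (l.isP le_sup_left) fun a ha =>
      ⟨_, mem_im_self η (i1 a ha.1), (l.c1_a (i1 a ha.1)).symm⟩
    refine ⟨o * k, mem_normalizer_of_cj_le ?_, ne _ (stp _ o hk (l.c1_cjt ho))⟩
    rw [← cj_cj, hD]
    exact mv o ho _ tE (h.trans le_sup_left)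
  · have m : k * t * k⁻¹ ∈ D := hD ▸ cj_mem k tE
    obtain ⟨n, hn, nV, nv⟩ := F.mvV _ (i1 _ m) fun h =>
      (f.ker _ (kN m) h (P2.of_sq (k2 _ m))).elim (cjne f.t1 k) (ne k hk)
    obtain ⟨b, hb, bA, rfl⟩ := f.liftN inf_le_right A2 hn fun a ha => by
      obtain ⟨e, he, h⟩ := i2 _ (conj_mem_of_mem_normalizer nV (i1 a ha.1))
      obtain ⟨a', ha', rfl | rfl⟩ := dec e he
      · exact ⟨_, ha', h.symm⟩
      · exact ⟨_, ha', by rw [← h, f.mul_t (f.KN ha'.2)]⟩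
    have bN : b ∈ 𝐍(D) := mem_normalizer_of_cj_le
      (mv b hb _ k3 ((cj_eq_of_mem_normalizer bA).le.trans inf_le_left))
    rw [← hD, ← cj_normalizer, mem_cj] at bN
    refine ⟨_, bN, fun h => nv (f.comm (f.KN hb) (kN m) ?_)⟩
    calc _ = k * (k⁻¹ * b * k * t * (k⁻¹ * b * k)⁻¹) * k⁻¹ * b := by group
      _ = _ := by rw [h]

theorem c1_cj_t {γ : G} (h : γ ∈ 𝐍(im η F.U ⊔ zpowers t)) : ∃ v ∈ im η F.U, γ * t * γ⁻¹ = t * v := by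
  obtain ⟨p, hp, e | e⟩ := l.c1_memE.1 (conj_mem_of_mem_normalizer h (mem_sup_right (mem_zpowers t)))
  · exact absurd (e ▸ l.c1_PK hp) (l.fr.nconj γ)
  · exact ⟨p, hp, e⟩

theorem c1_orb {v : G} (hv : v ∈ im η F.U) : ∃ δ ∈ 𝐍(im η F.U ⊔ zpowers t), δ * t * δ⁻¹ = t * v := by
  by_cases h1 : v = 1
  · exact ⟨1, one_mem _, by simp [h1]⟩
  obtain ⟨γ, hγ, ne⟩ := l.c1_move
  obtain ⟨u, hu, e⟩ := l.c1_cj_t hγ
  obtain ⟨k, hk, kU, rfl⟩ := l.c1_trP hu fun h => ne (by rw [e, h, mul_one])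
  obtain ⟨m, hm, mU, rfl⟩ := l.c1_trP hv h1
  refine ⟨m * k⁻¹ * γ, mul_mem (mul_mem (l.c1_NE hm mU) (inv_mem (l.c1_NE hk kU))) hγ, ?_⟩
  calc _ = m * k⁻¹ * (γ * t * γ⁻¹) * k * m⁻¹ := by group
    _ = m * (k⁻¹ * t * k⁻¹⁻¹) * m⁻¹ * (m * η F.z * m⁻¹) := by rw [e]; group
    _ = _ := by rw [l.c1_cjt (inv_mem hk), l.c1_cjt hm]

theorem c1_NP {γ p : G} (h : γ ∈ 𝐍(im η F.U ⊔ zpowers t)) (hp : p ∈ im η F.U) :
    γ * p * γ⁻¹ ∈ im η F.U := by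
  obtain ⟨v, hv, e | e⟩ := l.c1_memE.1 (conj_mem_of_mem_normalizer h (mem_sup_left hp))
  · exact e ▸ hv
  · obtain ⟨δ, -, e'⟩ := l.c1_orb hv
    refine absurd ?_ (l.fr.nconj (γ⁻¹ * δ))
    rw [show γ⁻¹ * δ * t * (γ⁻¹ * δ)⁻¹ = γ⁻¹ * (δ * t * δ⁻¹) * γ by group, e', ← e]
    simpa [mul_assoc] using l.c1_PK hp

/-- a translation -/
theorem c1_transl : ∃ g, ∃ v ∈ im η F.U, v ≠ 1 ∧ (∀ p ∈ im η F.U, g * p = p * g) ∧ g * t * g⁻¹ = t * v := by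
  have f := l.fr
  have ha := mem_im_self η F.zU
  have hq := mem_im_self η F.qU
  have hr := mem_im_self η F.rU
  have hw := mem_im_self η F.wU
  have ea := l.c1_a F.zU
  have eq := l.c1_a F.qU
  have er := l.c1_a F.rU
  have ew := l.c1_a F.wU
  generalize η F.z = a, η F.q = q, η F.r = r, η F.w = w at ha hq hr hw ea eq er ew
  have key : ∀ v : im η F.U, ∃ δ ∈ 𝐍(im η F.U ⊔ zpowers t), δ * t * δ⁻¹ = t * v ∧ δ * a * δ⁻¹ = a ∧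
      δ * q * δ⁻¹ = q ∧ δ * r * δ⁻¹ = r := fun v => by
    obtain ⟨δ, hδ, e⟩ := l.c1_orb v.2
    have m : ∀ {p}, p ∈ im η F.U → δ⁻¹ * p * δ⁻¹⁻¹ ∈ im η F.U := l.c1_NP (inv_mem hδ)
    have ne : ∀ {p p'}, p ∈ im η F.U → p' ∈ im η F.U → α p ≠ α p' →
        α (δ⁻¹ * p * δ⁻¹⁻¹) ≠ α (δ⁻¹ * p' * δ⁻¹⁻¹) :=
      fun hp hp' h e => h (congrArg α (by simpa using l.c1_Pinj (m hp) (m hp') e))
    have n1 : ∀ {p}, p ∈ im η F.U → α p ≠ 1 → α (δ⁻¹ * p * δ⁻¹⁻¹) ≠ 1 := fun hp h =>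
      l.c1_Pne (m hp) (cjne (fun e => h (by rw [e, f.one])) _)
    obtain ⟨n, hn, nU, e1, e2, e3⟩ := F.trt (l.c1_PU (m ha)) (l.c1_PU (m hq)) (l.c1_PU (m hr))
      (n1 ha (ea ▸ F.z1)) (n1 hq (eq ▸ F.q1)) (ne hq ha (by rw [eq, ea]; exact F.qz))
      (n1 hr (er ▸ F.r1)) (ne hr ha (by rw [er, ea]; exact F.rz)) (ne hr hq (by rw [er, eq]; exact F.rq))
      (by
        rw [← f.mul _ (l.c1_PN (m ha)) _ (l.c1_PN (m hq)), conj_mul]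
        exact ne hr (mul_mem ha hq) (by rw [f.mul _ (l.c1_PN ha) _ (l.c1_PN hq), er, eq, ea]; exact F.rzq))
    obtain ⟨k, hk, kN, rfl⟩ := l.liftN le_sup_left hn nU
    have h : ∀ {p}, p ∈ im η F.U → α k * α p * (α k)⁻¹ = α (δ⁻¹ * p * δ⁻¹⁻¹) → δ * k * p * (δ * k)⁻¹ = p :=
      fun {p} hp h => by
        have := l.c1_conj_eq hk kN hp (m hp) h
        calc _ = δ * (k * p * k⁻¹) * δ⁻¹ := by group
          _ = p := by rw [this]; group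
    refine ⟨δ * k, mul_mem hδ (l.c1_NE hk kN), ?_, h ha (ea ▸ e1), h hq (eq ▸ e2), h hr (er ▸ e3)⟩
    rw [← e]; conv_rhs => rw [← l.c1_cjt hk]
    group
  choose δ hδ e0 e1 e2 e3 using key
  have w1 : w ≠ 1 := fun e => F.q1 (by
    have := F.wy1
    rw [← ew, e, f.one, mul_one, F.y11, one_mul] at this
    exact this.symm)
  obtain ⟨v, v', e, ne⟩ := Function.not_injective_iff.1 fun h : Function.Injective
      fun v : im η F.U => (⟨_, l.c1_NP (hδ v) hw⟩ : im η F.U) =>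
    let ⟨v, hv⟩ := Finite.injective_iff_surjective.1 h 1; cjne w1 _ (congrArg Subtype.val hv)
  have e4 : δ v * w * (δ v)⁻¹ = δ v' * w * (δ v')⁻¹ := congrArg Subtype.val e
  have c : ∀ {p}, δ v * p * (δ v)⁻¹ = δ v' * p * (δ v')⁻¹ → p ∈ centralizer {(δ v)⁻¹ * δ v'} := fun {p} h => by
    rw [mem_centralizer_singleton_iff]
    calc _ = (δ v)⁻¹ * (δ v * p * (δ v)⁻¹) * δ v' := by group
      _ = _ := by rw [h]; group
  obtain ⟨u, hu, e5⟩ := l.c1_cj_t (mul_mem (inv_mem (hδ v)) (hδ v'))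
  refine ⟨_, u, hu, fun h => ne (Subtype.ext (mul_left_cancel (a := t) ?_)), fun p hp => ?_, e5⟩
  · rw [← e0, ← e0]
    rw [h, mul_one] at e5
    conv_lhs => rw [← e5]
    group
  · obtain ⟨d, hd, ed⟩ := f.of_closure (D := im η F.U ⊓ centralizer {(δ v)⁻¹ * δ v'})
      (inf_le_left.trans l.c1_PN) (by
        rintro _ (rfl | rfl | rfl | rfl)
        exacts [⟨a, ⟨ha, c ((e1 v).trans (e1 v').symm)⟩, ea⟩, ⟨q, ⟨hq, c ((e2 v).trans (e2 v').symm)⟩, eq⟩,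
          ⟨r, ⟨hr, c ((e3 v).trans (e3 v').symm)⟩, er⟩, ⟨w, ⟨hw, c e4⟩, ew⟩]) (F.hU ▸ l.c1_PU hp)
    rw [← l.c1_Pinj hd.1 hp ed]
    exact (mem_centralizer_singleton_iff.1 hd.2).symm

end Lf

theorem Lf.transl (l : Lf F t N K α η) {u : X} (hu : u ∈ F.U) :
    ∃ g, (∀ v ∈ F.U, g * η v = η v * g) ∧ g * t * g⁻¹ = t * η u := by
  by_cases h1 : u = 1
  · exact ⟨1, fun v _ => by simp, by simp [h1, l.one]⟩
  obtain ⟨g, v, hv, v1, gc, e⟩ := l.c1_transl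
  obtain ⟨k, hk, kU, rfl⟩ := l.c1_trP hv v1
  obtain ⟨m, hm, mU, em⟩ := l.c1_trP (mem_im_self η hu) (l.c1_ne hu h1)
  have hn : m * k⁻¹ ∈ 𝐍(im η F.U) := mul_mem mU (inv_mem kU)
  have ht : (m * k⁻¹)⁻¹ * t * (m * k⁻¹)⁻¹⁻¹ = t := l.c1_cjt (inv_mem (mul_mem hm (inv_mem hk)))
  refine ⟨m * k⁻¹ * g * (m * k⁻¹)⁻¹, fun v hv => ?_, ?_⟩
  · have := gc _ (conj_mem_of_mem_normalizer' hn (mem_im_self η hv))
    calc _ = m * k⁻¹ * (g * ((m * k⁻¹)⁻¹ * η v * (m * k⁻¹))) * (m * k⁻¹)⁻¹ := by group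
      _ = _ := by rw [this]; group
  · calc _ = m * k⁻¹ * (g * ((m * k⁻¹)⁻¹ * t * (m * k⁻¹)⁻¹⁻¹) * g⁻¹) * (m * k⁻¹)⁻¹ := by group
      _ = m * k⁻¹ * t * (m * k⁻¹)⁻¹ * (m * η F.z * m⁻¹) := by rw [ht, e]; group
      _ = _ := by rw [l.c1_cjt (mul_mem hm (inv_mem hk)), em]

end H60.ML
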