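import Mathlib
import Cfsg.Agent.Lib.McLy.Base1

set_option autoImplicit false
set_option linter.unusedSectionVars false

namespace H60.ML

open Subgroup H69 H36.SW
open scoped commutatorElement

universe u
variable {X : Type} [Group X] [Finite X] {G : Type u} [Group G] [Finite G]
variable {F : Fy X} {t : G} {N K : Subgroup G} {α : G → X} {η E E' ε : X → G} {R : Subgroup G}

theorem c2_mul (l : Lf F t N K α η) {g k : G} {a b : X} (ha : a ∈ F.U) (hb : b ∈ F.U)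
    (hg : ∀ v ∈ F.U, g * η v = η v * g) (h1 : g * t * g⁻¹ = t * η a) (h2 : k * t * k⁻¹ = t * η b) :
    g * k * t * (g * k)⁻¹ = t * η (a * b) := by
  calc g * k * t * (g * k)⁻¹ = g * (k * t * k⁻¹) * g⁻¹ := by group
    _ = g * t * g⁻¹ * (g * η b * g⁻¹) := by rw [h2]; group
    _ = t * η (a * b) := by rw [h1, hg b hb, mul_inv_cancel_right, l.mulU a ha b hb, mul_assoc]

theorem c2_inv (l : Lf F t N K α η) {g : G} {a : X} (ha : a ∈ F.U)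
    (hg : ∀ v ∈ F.U, g * η v = η v * g) (h1 : g * t * g⁻¹ = t * η a) :
    g⁻¹ * t * g⁻¹⁻¹ = t * η a := by
  calc g⁻¹ * t * g⁻¹⁻¹ = g⁻¹ * (t * (η a * η a)) * g := by rw [l.sq ha]; group
    _ = g⁻¹ * (t * η a) * (η a * g) := by group
    _ = g⁻¹ * (g * t * g⁻¹) * (g * η a) := by rw [← hg a ha, h1]
    _ = t * η a := by group

theorem c2_pow (l : Lf F t N K α η) {g : G} {a : X} (ha : a ∈ F.U)
    (hg : ∀ v ∈ F.U, g * η v = η v * g) (h1 : g * t * g⁻¹ = t * η a) (n : ℕ) :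
    g ^ n * t * (g ^ n)⁻¹ = t * η (a ^ n) := by
  induction n with
  | zero => simp [l.one]
  | succ n ih =>
    rw [pow_succ', pow_succ']
    exact c2_mul l ha (pow_mem ha n) hg h1 ih

theorem c2_exists (l : Lf F t N K α η) : ∃ M : Subgroup G, ∀ g, g ∈ M ↔
    (∀ v ∈ F.U, g * η v = η v * g) ∧ ∃ u ∈ F.U, g * t * g⁻¹ = t * η u :=
  ⟨{ carrier := {g | (∀ v ∈ F.U, g * η v = η v * g) ∧ ∃ u ∈ F.U, g * t * g⁻¹ = t * η u}
     one_mem' := ⟨fun v _ => by simp, 1, one_mem _, by simp [l.one]⟩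
     mul_mem' := fun {g k} ⟨hg, a, ha, h1⟩ ⟨hk, b, hb, h2⟩ =>
      ⟨fun v hv => by rw [mul_assoc, hk v hv, ← mul_assoc, hg v hv, mul_assoc],
        a * b, mul_mem ha hb, c2_mul l ha hb hg h1 h2⟩
     inv_mem' := fun {g} ⟨hg, a, ha, h1⟩ =>
      ⟨fun v hv => (Commute.inv_left (hg v hv) :), a, ha, c2_inv l ha hg h1⟩ }, fun _ => Iff.rfl⟩

theorem c2_norm (l : Lf F t N K α η) {M : Subgroup G} (hM : ∀ g, g ∈ M ↔
    (∀ v ∈ F.U, g * η v = η v * g) ∧ ∃ u ∈ F.U, g * t * g⁻¹ = t * η u) {k : G} (hk : k ∈ N)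
    (hn : k ∈ 𝐍(im η F.U)) : k ∈ 𝐍(M) := by
  refine mem_normalizer_of_cj_le fun x hx => ?_
  obtain ⟨g, hg, rfl⟩ := mem_cj'.1 hx
  obtain ⟨hg, a, ha, h1⟩ := (hM g).1 hg
  refine (hM _).2 ⟨fun v hv => ?_, α k * a * (α k)⁻¹, (l.cj le_sup_left hk hn ha).1, ?_⟩
  · obtain ⟨h2, h3⟩ := l.cj le_sup_left (inv_mem hk) (inv_mem hn) hv
    have := hg _ h2
    rw [← h3] at this
    calc k * g * k⁻¹ * η v = k * (g * (k⁻¹ * η v * k⁻¹⁻¹)) * k⁻¹ := by group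
      _ = η v * (k * g * k⁻¹) := by rw [this]; group
  · rw [← (l.cj le_sup_left hk hn ha).2]
    calc k * g * k⁻¹ * t * (k * g * k⁻¹)⁻¹ = k * (g * (k⁻¹ * t * k⁻¹⁻¹) * g⁻¹) * k⁻¹ := by group
      _ = k * t * k⁻¹ * (k * η a * k⁻¹) := by rw [l.fr.cjt (inv_mem hk), h1]; group
      _ = t * (k * η a * k⁻¹) := by rw [l.fr.cjt hk]

theorem c2_ηN (l : Lf F t N K α η) {x : X} (hx : x ∈ F.UV) : η x ∈ 𝐍(im η F.U) :=
  nrm_im fun u hu => ⟨x * u * x⁻¹, conj_mem_of_mem_normalizer (F.TU (F.UVT hx)) hu,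
    (im_cj l.mul hx (F.mU hu)).symm⟩

theorem Lf.exists_rx (l : Lf F t N K α η)
    (h : ∀ u ∈ F.U, ∃ g, (∀ v ∈ F.U, g * η v = η v * g) ∧ g * t * g⁻¹ = t * η u) :
    ∃ R, Rx F t N K α η R := by
  haveI : Fact (Nat.Prime 2) := ⟨Nat.prime_two⟩
  obtain ⟨M, hM⟩ := c2_exists l
  have tM : t ∈ M := (hM t).2 ⟨fun v hv => (l.ct (F.mU hv)).symm, 1, one_mem _, by simp [l.one]⟩
  have ηM : ∀ u ∈ F.U, η u ∈ M := fun u hu => (hM _).2 ⟨fun v hv => l.Uc hu hv, 1, one_mem _, by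
    rw [l.ct (F.mU hu), l.one, mul_inv_cancel_right, mul_one]⟩
  have nM : ∀ x ∈ F.UV, η x ∈ 𝐍(M) := fun x hx => c2_norm l hM (l.memN hx) (c2_ηN l hx)
  have hP : IsPGroup 2 (im η F.UV ⊔ zpowers t : Subgroup G) :=
    isPGroup_sup_of_le_normalizer_left (l.isP le_rfl) (P2.of_sq l.fr.t2).zpowers
      (le_normalizer_of_le_centralizer (zpowers_le_of_mem (cen_im.2 fun y hy => (l.ct hy).symm)))
  obtain ⟨S, hS, hPS⟩ := exists_isSylowIn_le hP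
    (sup_le le_sup_right ((zpowers_le_of_mem tM).trans le_sup_left) :
      im η F.UV ⊔ zpowers t ≤ M ⊔ im η F.UV)
  have hR : IsSylowIn 2 (S ⊓ M) M :=
    hS.inf_normal le_sup_left (sup_le le_normalizer (im_le.2 nM))
  have ηS : ∀ x ∈ F.UV, η x ∈ S := fun x hx => hPS (mem_sup_left (mem_im_self η hx))
  have tR : t ∈ S ⊓ M := ⟨hPS (mem_sup_right (mem_zpowers t)), tM⟩
  have ηR : ∀ u ∈ F.U, η u ∈ S ⊓ M := fun u hu => ⟨ηS u (F.mU hu), ηM u hu⟩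
  have on : ∀ u ∈ F.U, ∃ g ∈ S ⊓ M, g * t * g⁻¹ = t * η u := by
    intro u hu
    obtain ⟨g, h1, h2⟩ := h u hu
    obtain ⟨m, hm, g2⟩ := exists_odd_P2 g
    have h3 := c2_pow l hu h1 h2 m
    rw [pow_odd_of_sq (F.U2 u hu) hm] at h3
    have gM : g ^ m ∈ M := pow_mem ((hM g).2 ⟨h1, u, hu, h2⟩) m
    generalize g ^ m = g' at g2 h3 gM
    obtain ⟨c, hc, hle⟩ := hR.exists_cj_le g2.zpowers (zpowers_le_of_mem gM)
    refine ⟨c * g' * c⁻¹, hle (cj_mem c (mem_zpowers g')), ?_⟩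
    obtain ⟨c1, a, ha, c2⟩ := (hM c).1 hc
    have e1 := c2_mul l ha hu c1 c2 h3
    have e2 := c2_mul l (mul_mem ha hu) ha ((hM _).1 (mul_mem hc gM)).1 e1 (c2_inv l ha c1 c2)
    rwa [F.Uc ha hu, mul_assoc u, F.U2 a ha, mul_one] at e2
  refine ⟨S ⊓ M, l, hR.isP, tR, ηR, fun g hg => ((hM g).1 hg.2).1, fun g hg => ((hM g).1 hg.2).2, on,
    fun n hn => ?_, fun x hx => ?_⟩
  · obtain ⟨k, kK, kn, rfl⟩ := l.liftN (Y := F.U) le_sup_left hn.1 hn.2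
    have kN := l.fr.KN kK
    obtain ⟨m, hm, a, ha, e⟩ := hR.frattini (c2_norm l hM kN kn)
    obtain ⟨m1, u0, hu0, m2⟩ := (hM m).1 hm
    obtain ⟨ρ, hρ, ρ2⟩ := on u0 hu0
    have e1 := c2_mul l hu0 hu0 ((hM ρ).1 hρ.2).1 ρ2 (c2_inv l hu0 m1 m2)
    rw [F.U2 u0 hu0, l.one, mul_one] at e1
    obtain ⟨cN, u, hu, cu, -⟩ := l.cenU (mul_inv_eq_iff_eq_mul.1 e1)
      ((hM _).1 (mul_mem hρ.2 (inv_mem hm))).1
    have uN := l.memN (F.mU hu)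
    have γN : (η u)⁻¹ * (ρ * m⁻¹) * k ∈ N := mul_mem (mul_mem (inv_mem uN) cN) kN
    have γR : (η u)⁻¹ * (ρ * m⁻¹) * k ∈ 𝐍(S ⊓ M) := by
      rw [e, show (η u)⁻¹ * (ρ * m⁻¹) * (m * a) = (η u)⁻¹ * ρ * a by group]
      exact mul_mem (le_normalizer (mul_mem (inv_mem (ηR u hu)) hρ)) ha
    have γα : α ((η u)⁻¹ * (ρ * m⁻¹) * k) = α k := by
      rw [l.fr.mul _ (mul_mem (inv_mem uN) cN) _ kN, l.fr.mul _ (inv_mem uN) _ cN, l.fr.inv uN,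
        l.inv u (F.mU hu), cu, inv_mul_cancel, one_mul]
    rcases l.fr.K_or γN (γα ▸ hn.1) with h1 | h1
    · exact ⟨_, h1, γR, γα⟩
    · exact ⟨_, h1, mul_mem γR (le_normalizer tR), (l.fr.mul_t γN).trans γα⟩
  · exact le_normalizer_inf (L := zpowers (η x)) (zpowers_le_of_mem (le_normalizer (ηS x hx)))
      (zpowers_le_of_mem (nM x hx)) (mem_zpowers _)

end H60.ML
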