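import Mathlib
import Cfsg.Agent.Lib.McLy.Base1

set_option autoImplicit false
set_option linter.unusedSectionVars false

namespace H60.ML

open Subgroup H69 H36.SW
open scoped commutatorElement

universe u
variable {X : Type} [Group X] [Finite X] {G : Type u} [Group G] [Finite G]
variable {F : Fy X} {t : G} {N K : Subgroup G} {α : G → X} {η E E' ε : X → G} {R : Subgroup G}

theorem Rx.c3_memE (x : Rx F t N K α η R) {g : G} (hg : g ∈ R) (c : g * t = t * g) :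
    ∃ u ∈ F.U, g = η u ∨ g = η u * t :=
  x.lf.cenU2 (P2.of_mem x.p2 hg) c (x.cU g hg)

theorem Rx.cj (x : Rx F t N K α η R) {γ : G} (hγ : γ ∈ K) (hn : γ ∈ 𝐍(R)) {u : X} (hu : u ∈ F.U) :
    α γ * u * (α γ)⁻¹ ∈ F.U ∧ γ * η u * γ⁻¹ = η (α γ * u * (α γ)⁻¹) := by
  have f := x.lf.fr
  have hK : γ * η u * γ⁻¹ ∈ K := f.cjK (f.KN hγ) (x.lf.mem u (F.mU hu))
  obtain ⟨v, hv, e | e⟩ := x.c3_memE (conj_mem_of_mem_normalizer hn (x.ηR u hu)) (f.Kt hK)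
  · have : α γ * u * (α γ)⁻¹ = v := by
      rw [← x.lf.inv v (F.mU hv), ← e, f.conj (f.KN hγ) (x.lf.memN (F.mU hu)), x.lf.inv u (F.mU hu)]
    exact ⟨this ▸ hv, this ▸ e⟩
  · exact absurd ((K.mul_mem_cancel_left (x.lf.mem v (F.mU hv))).1 (e ▸ hK)) f.tK

theorem Rx.c3_Esq (x : Rx F t N K α η R) {g : G} (hg : g ∈ R) (c : g * t = t * g) : g * g = 1 := by
  obtain ⟨v, hv, rfl | rfl⟩ := x.c3_memE hg c
  · exact x.lf.sq hv
  · calc _ = η v * (t * η v) * t := by group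
      _ = η v * η v * (t * t) := by rw [← x.lf.ct (F.mU hv)]; group
      _ = 1 := by rw [x.lf.sq hv, x.lf.fr.t2, mul_one]

theorem Rx.ker (x : Rx F t N K α η R) {γ g : G} (hγ : γ ∈ K) (hn : γ ∈ 𝐍(R)) (h : α γ = 1) (hg : g ∈ R) :
    γ * g = g * γ := by
  have f := x.lf.fr
  have cη : ∀ v ∈ F.U, γ * η v * γ⁻¹ = η v := fun v hv => by
    rw [(x.cj hγ hn hv).2, h, one_mul, inv_one, mul_one]
  have ct : γ * t * γ⁻¹ = t := f.cjt (f.KN hγ)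
  have ct' : γ⁻¹ * t * γ⁻¹⁻¹ = t := f.cjt (inv_mem (f.KN hγ))
  obtain ⟨u, hu, eu⟩ := x.tr g hg
  have m : g⁻¹ * (γ * g * γ⁻¹) ∈ R := mul_mem (inv_mem hg) (conj_mem_of_mem_normalizer hn hg)
  have c : g⁻¹ * (γ * g * γ⁻¹) * t = t * (g⁻¹ * (γ * g * γ⁻¹)) := mul_inv_eq_iff_eq_mul.1 (by
    calc _ = g⁻¹ * (γ * (g * (γ⁻¹ * t * γ⁻¹⁻¹) * g⁻¹) * γ⁻¹) * g := by group
      _ = g⁻¹ * (γ * t * γ⁻¹ * (γ * η u * γ⁻¹)) * g := by rw [ct', eu]; group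
      _ = t := by rw [ct, cη u hu, ← eu]; group)
  have sq := x.c3_Esq m c
  have fx : γ * (g⁻¹ * (γ * g * γ⁻¹)) * γ⁻¹ = g⁻¹ * (γ * g * γ⁻¹) := by
    obtain ⟨v, hv, e | e⟩ := x.c3_memE m c <;> rw [e]
    · exact cη v hv
    · rw [← conj_mul, cη v hv, ct]
  have c2 : Commute (γ ^ 2) g := mul_inv_eq_iff_eq_mul.1 (by
    calc _ = γ * g * γ⁻¹ * (γ * (g⁻¹ * (γ * g * γ⁻¹)) * γ⁻¹) := by rw [pow_two]; group
      _ = g * (g⁻¹ * (γ * g * γ⁻¹) * (g⁻¹ * (γ * g * γ⁻¹))) := by rw [fx]; group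
      _ = g := by rw [sq, mul_one])
  obtain ⟨k, hk⟩ := f.odd hγ h
  have e : γ = ((γ ^ 2) ^ k)⁻¹ := by
    rw [eq_inv_iff_mul_eq_one, ← pow_mul, ← pow_succ', ← hk, pow_orderOf_eq_one]
  rw [e]
  exact (c2.pow_left k).inv_left

namespace Rx

variable (x : Rx F t N K α η R)
include x

theorem c3_le : K ⊓ 𝐍(R) ≤ N := inf_le_left.trans x.lf.fr.KN

theorem c3_fix_of {u : G} (hu : u ∈ R) {s : Set X}
    (h : ∀ y ∈ s, ∃ l ∈ K ⊓ 𝐍(R), α l = y ∧ u * l = l * u) {l : G} (hl : l ∈ K ⊓ 𝐍(R))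
    (hs : α l ∈ closure s) : u * l = l * u := by
  have f := x.lf.fr
  obtain ⟨d, hd, e⟩ := f.of_closure (D := K ⊓ 𝐍(R) ⊓ centralizer {u}) (inf_le_left.trans x.c3_le)
    (fun y hy => let ⟨l, h1, h2, h3⟩ := h y hy; ⟨l, ⟨h1, mem_centralizer_singleton_iff.2 h3.symm⟩, h2⟩) hs
  have m : d⁻¹ * l ∈ K ⊓ 𝐍(R) := mul_mem (inv_mem hd.1) hl
  have := (x.ker m.1 m.2 (by
    rw [f.mul _ (inv_mem (x.c3_le hd.1)) _ (x.c3_le hl), f.inv (x.c3_le hd.1), e, inv_mul_cancel]) hu).symm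
  have := Commute.mul_right (mem_centralizer_singleton_iff.1 hd.2).symm this
  rwa [mul_inv_cancel_left] at this

theorem c3_la {l : G} (hl : l ∈ K ⊓ 𝐍(R)) (c : α l * F.z = F.z * α l) : l * η F.z = η F.z * l :=
  mul_inv_eq_iff_eq_mul.1 (by rw [(x.cj hl.1 hl.2 F.zU).2, c, mul_inv_cancel_right])

theorem c3_odd_fix {u l : G} (hu : u ∈ R) (hl : l ∈ K ⊓ 𝐍(R)) (h3 : α l ^ 3 = 1)
    (la : l * η F.z = η F.z * l) (h : l * u * l⁻¹ = u ∨ l * u * l⁻¹ = u * η F.z) : u * l = l * u := by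
  rcases h with h | h
  · exact (mul_inv_eq_iff_eq_mul.1 h).symm
  have m := pow_mem hl 3
  have c := (x.ker m.1 m.2 (by rw [x.lf.fr.pow (x.c3_le hl), h3]) hu).symm
  have e : l * (l * u * l⁻¹) * l⁻¹ = u := by
    calc _ = l * u * l⁻¹ * (l * η F.z * l⁻¹) := by conv_lhs => rw [h]
                                                   group
      _ = u := by rw [h, la, mul_inv_cancel_right, mul_assoc, x.lf.sq F.zU, mul_one]
  calc u * l = l * (l * (l * u * l⁻¹) * l⁻¹) * l⁻¹ * l := by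
        rw [show l * (l * (l * u * l⁻¹) * l⁻¹) * l⁻¹ = l ^ 3 * u * (l ^ 3)⁻¹ by
          simp only [pow_succ, pow_zero]; group, ← c, mul_inv_cancel_right]
    _ = l * u := by rw [e]; group

theorem c3_a1 : η F.z ≠ 1 := fun e =>
  F.z1 (by rw [← x.lf.inv _ (F.mU F.zU), e, x.lf.fr.one])

theorem c3_sq {g : G} (hg : g ∈ R) (h : g * t * g⁻¹ = t * η F.z) : g * g * t = t * (g * g) :=
  mul_inv_eq_iff_eq_mul.1 (by
    calc _ = g * (g * t * g⁻¹) * g⁻¹ := by group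
      _ = g * (t * η F.z) * g⁻¹ := by rw [h]
      _ = g * t * g⁻¹ * (g * η F.z * g⁻¹) := by group
      _ = t := by rw [h, x.cU g hg _ F.zU, mul_inv_cancel_right, mul_assoc, x.lf.sq F.zU, mul_one])

theorem c3_mul {g e : G} (h : g * t * g⁻¹ = t * η F.z) (he : e * t = t * e) :
    g * e * t * (g * e)⁻¹ = t * η F.z := by
  rw [mul_assoc g, he, ← h]; group

theorem c3_div {g k : G} (h : g * t * g⁻¹ = t * η F.z) (h' : k * t * k⁻¹ = t * η F.z) :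
    g⁻¹ * k * t = t * (g⁻¹ * k) := mul_inv_eq_iff_eq_mul.1 (by
  calc _ = g⁻¹ * (k * t * k⁻¹) * g := by group
    _ = t := by rw [h', ← h]; group)

theorem c3_cj {g l : G} (h : g * t * g⁻¹ = t * η F.z) (hl : l ∈ K ⊓ 𝐍(R)) (c : α l * F.z = F.z * α l) :
    l * g * l⁻¹ * t * (l * g * l⁻¹)⁻¹ = t * η F.z := by
  have f := x.lf.fr
  calc _ = l * g * (l⁻¹ * t * l⁻¹⁻¹) * g⁻¹ * l⁻¹ := by group
    _ = l * (g * t * g⁻¹) * l⁻¹ := by rw [f.cjt (inv_mem (x.c3_le hl))]; group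
    _ = l * t * l⁻¹ * (l * η F.z * l⁻¹) := by rw [h]; group
    _ = _ := by rw [f.cjt (x.c3_le hl), x.c3_la hl c, mul_inv_cancel_right]

theorem c3_inv {u u' : G} (hu : u ∈ R) (hu' : u' ∈ R) (h : u * t * u⁻¹ = t * η F.z)
    (h' : u' * t * u'⁻¹ = t * η F.z) (u2 : u * u = 1) (u2' : u' * u' = 1) : ∃ p ∈ F.U, u' = u * η p := by
  obtain ⟨p, hp, e | e⟩ := x.c3_memE (mul_mem (inv_mem hu) hu') (x.c3_div h h')
  · exact ⟨p, hp, by rw [← e]; group⟩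
  · rw [x.lf.ct (F.mU hp)] at e
    have := not_sq u2 h (x.lf.sq hp) (x.cU u hu p hp) (x.lf.ct (F.mU hp))
      (by rw [← e, mul_inv_cancel_left, u2'])
    rw [mul_assoc, x.lf.ct (F.mU F.zU), ← mul_assoc, x.lf.fr.t2, one_mul] at this
    exact absurd this x.c3_a1

theorem c3_cen_h {p : X} (hp : p ∈ F.U) (c : p * F.h = F.h * p) : p = 1 ∨ p = F.z := by
  refine or_iff_not_imp_left.2 fun h => F.c7 _ F.h1 F.h7 _ _ c F.hz.symm ?_ ?_ h F.z1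
  · rw [show 4 = 2 * 2 from rfl, pow_mul, pow_two p, F.U2 _ hp, one_pow]
  · rw [show 4 = 2 * 2 from rfl, pow_mul, pow_two F.z, F.z2, one_pow]

theorem c3_comm {p : X} (hp : p ∈ F.U) {k : G} (hk : k ∈ K ⊓ 𝐍(R)) (c : η p * k = k * η p) :
    p * α k = α k * p := by
  have := x.lf.fr.comm (x.lf.memN (F.mU hp)) (x.c3_le hk) c
  rwa [x.lf.inv p (F.mU hp)] at this

theorem c3_lift {n : X} (hJ : n ∈ F.J) (hn : n ∈ 𝐍(F.U)) : ∃ l ∈ K ⊓ 𝐍(R), α l = n :=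
  let ⟨l, h1, h2, h3⟩ := x.cov n ⟨hJ, hn⟩; ⟨l, ⟨h1, h2⟩, h3⟩

theorem c3_exists_inv : ∃ u ∈ R, u * t * u⁻¹ = t * η F.z ∧ u * u = 1 ∧
    ∃ l ∈ K ⊓ 𝐍(R), α l = F.h ∧ u * l = l * u := by
  have : Fact (Nat.Prime 7) := ⟨by norm_num⟩
  have f := x.lf.fr
  obtain ⟨g, gR, hg⟩ := x.on _ F.zU
  obtain ⟨l0, hl0, el0⟩ := x.c3_lift F.hJ F.hN
  obtain ⟨l, hl, el, m, hm⟩ := f.liftp x.c3_le (by norm_num : Nat.Prime 7) (k := 1) hl0
    (by rw [el0, pow_one, F.h7])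
  rw [el0] at el
  obtain ⟨u, hu, e⟩ := exists_fix (S := {k | k ∈ R ∧ k * t * k⁻¹ = t * η F.z}) (p := 7) (by
      rw [Nat.card_congr (α := {k | k ∈ R ∧ k * t * k⁻¹ = t * η F.z})
        (β := (R ⊓ centralizer {t} : Subgroup G)) ⟨fun k => ⟨g⁻¹ * k.1, R.mul_mem (R.inv_mem gR) k.2.1,
          mem_centralizer_singleton_iff.2 (x.c3_div hg k.2.2)⟩,
        fun e => ⟨g * e.1, R.mul_mem gR e.2.1, x.c3_mul hg (mem_centralizer_singleton_iff.1 e.2.2)⟩,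
        fun k => by simp, fun k => by simp⟩]
      obtain ⟨n, hn⟩ := (x.p2.to_le (inf_le_left : R ⊓ centralizer {t} ≤ R)).exists_card_eq
      rw [hn]
      exact fun h => absurd ((by norm_num : Nat.Prime 7).dvd_of_dvd_pow h) (by norm_num)) hm
    fun k hk => ⟨conj_mem_of_mem_normalizer hl.2 hk.1, x.c3_cj hk.2 hl (el ▸ F.hz)⟩
  obtain ⟨uR, hu⟩ := hu
  have c : u * l = l * u := (mul_inv_eq_iff_eq_mul.1 e).symm
  obtain ⟨p, hp, e | e⟩ := x.c3_memE (mul_mem uR uR) (x.c3_sq uR hu)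
  · rcases x.c3_cen_h hp (el ▸ x.c3_comm hp hl (e ▸ (Commute.mul_left c c :))) with rfl | rfl
    · exact ⟨u, uR, hu, e.trans x.lf.one, l, hl, el, c⟩
    · refine ⟨_, mul_mem uR x.tR, x.c3_mul hu rfl, ?_, l, hl, el, (Commute.mul_left c (f.Kt hl.1).symm :)⟩
      calc _ = u * t * u⁻¹ * (u * u) * t := by group
        _ = 1 := by rw [hu, e, mul_assoc t, x.lf.sq F.zU, mul_one, f.t2]
  · rw [x.lf.ct (F.mU hp)] at e
    refine absurd (mul_left_cancel (a := t) (mul_right_cancel (b := η p) ?_)) x.c3_a1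
    calc t * η F.z * η p = u * t * u⁻¹ * (u * η p * u⁻¹) := by rw [hu, x.cU u uR p hp, mul_inv_cancel_right]
      _ = u * (t * η p) * u⁻¹ := by group
      _ = _ := by rw [← e, mul_one, ← e]; group

end Rx

theorem Rx.exists_e (x : Rx F t N K α η R) : ∃ e ∈ R, e * e = 1 ∧ e * t * e⁻¹ = t * η F.z ∧
    ∀ γ ∈ K, γ ∈ 𝐍(R) → α γ * F.z = F.z * α γ → γ * e = e * γ := by
  have f := x.lf.fr
  obtain ⟨u, uR, hu, u2, h, hh, eh, uh⟩ := x.c3_exists_inv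
  have n : ∀ {l}, l ∈ K ⊓ 𝐍(R) → l ∈ N := fun h => x.c3_le h
  have tr : ∀ {l k k'}, l ∈ K ⊓ 𝐍(R) → k ∈ K ⊓ 𝐍(R) → k' ∈ K ⊓ 𝐍(R) → u * k' = k' * u →
      α l * α k' * (α l)⁻¹ = α k → l * u * l⁻¹ * k = k * (l * u * l⁻¹) := fun {l k k'} hl hk hk' c e => by
    have := x.c3_fix_of uR (s := {α k'}) (by rintro _ rfl; exact ⟨k', hk', rfl, c⟩)
      (mul_mem (mul_mem (inv_mem hl) hk) (inv_mem (inv_mem hl))) (by
        rw [f.conj (n (inv_mem hl)) (n hk), f.inv (n hl), ← e]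
        exact subset_closure (by simp [mul_assoc]))
    calc _ = l * (u * (l⁻¹ * k * l⁻¹⁻¹)) * l⁻¹ := by group
      _ = _ := by rw [this]; group
  have cp : ∀ {p k}, p ∈ F.U → k ∈ K ⊓ 𝐍(R) → u * k = k * u → u * η p * k = k * (u * η p) →
      p * α k = α k * p := fun {p k} hp hk c c' => x.c3_comm hp hk
      (mul_left_cancel (a := u) (by rw [← mul_assoc, c', ← mul_assoc, ← mul_assoc, c]))
  have fin : ∀ {l p}, l * u * l⁻¹ = u * η p → p = 1 ∨ p = F.z →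
      l * u * l⁻¹ = u ∨ l * u * l⁻¹ = u * η F.z :=
    fun e h => h.imp (fun h => by rw [e, h, x.lf.one, mul_one]) fun h => by rw [e, h]
  obtain ⟨ρ, hρ, eρ⟩ := x.c3_lift F.ρJ F.ρN
  have uρ : u * ρ = ρ * u := by
    obtain ⟨p, hp, e⟩ := x.c3_inv uR (conj_mem_of_mem_normalizer hρ.2 uR) hu (x.c3_cj hu hρ (eρ ▸ F.ρz))
      u2 (cjsq u2 ρ)
    refine x.c3_odd_fix uR hρ (eρ ▸ F.ρ3) (x.c3_la hρ (eρ ▸ F.ρz)) (fin e (x.c3_cen_h hp ?_))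
    have := cp hp (pow_mem hh 2) (Commute.pow_right uh 2 :) (e ▸ tr hρ (pow_mem hh 2) hh uh (by
      rw [f.pow (n hh), eρ, eh, F.ρh]))
    have := (Commute.pow_right this 4).eq
    rwa [f.pow (n hh), eh, ← pow_mul, show 2 * 4 = 7 + 1 from rfl, pow_succ, F.h7, one_mul] at this
  obtain ⟨s, hs, es⟩ := x.c3_lift F.sJ F.sN
  have us : u * s = s * u := by
    obtain ⟨p, hp, e⟩ := x.c3_inv uR (conj_mem_of_mem_normalizer hs.2 uR) hu (x.c3_cj hu hs (es ▸ F.sz))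
      u2 (cjsq u2 s)
    have h1 := cp hp (inv_mem hρ) (Commute.inv_right uρ :) (e ▸ tr hs (inv_mem hρ) hρ uρ (by
      rw [f.inv (n hρ), es, eρ, F.sρ]))
    rw [f.inv (n hρ), eρ] at h1
    have h2 : η p * s = s * η p := by
      have m := mul_mem hs hs
      have k := x.ker m.1 m.2 (by rw [f.mul _ (n hs) _ (n hs), es, F.s2]) uR
      have : u * η p * (s * η p * s⁻¹) = u * η p * η p := by
        calc _ = s * (s * u * s⁻¹) * s⁻¹ := by conv_rhs => rw [e, ← conj_mul, e]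
          _ = s * s * u * (s * s)⁻¹ := by group
          _ = _ := by rw [k, mul_inv_cancel_right, mul_assoc u, x.lf.sq hp, mul_one]
      exact (mul_inv_eq_iff_eq_mul.1 (mul_left_cancel this)).symm
    have h3 := fin e (F.cρs _ hp (Commute.inv_right_iff.1 h1) (es ▸ x.c3_comm hp hs h2))
    obtain ⟨i, hi⟩ := F.sh
    have c : Commute u (h ^ i) := Commute.pow_right uh i
    have h4 := x.c3_odd_fix uR (mul_mem hs (pow_mem hh i))
      (by rw [f.mul _ (n hs) _ (n (pow_mem hh i)), f.pow (n hh), es, eh, hi])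
      (Commute.mul_left (x.c3_la hs (es ▸ F.sz)) (Commute.pow_left (x.c3_la hh (eh ▸ F.hz)) i) :)
      (by rwa [mul_assoc s, ← c.eq, mul_inv_rev, ← mul_assoc, ← mul_assoc, mul_inv_cancel_right])
    have := Commute.mul_right h4 c.inv_right
    rwa [mul_inv_cancel_right] at this
  have gP : ∀ y ∈ F.U, ∃ l ∈ K ⊓ 𝐍(R), α l = y ∧ u * l = l * u := fun y hy =>
    ⟨η y, ⟨x.lf.mem y (F.mU hy), x.qn y (F.mU hy)⟩, x.lf.inv y (F.mU hy), x.cU u uR y hy⟩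
  have g7 : ∀ y ∈ ({F.z, F.q, F.r, F.w, F.h, F.ρ, F.s} : Set X),
      ∃ l ∈ K ⊓ 𝐍(R), α l = y ∧ u * l = l * u := by
    rintro _ (rfl | rfl | rfl | rfl | rfl | rfl | rfl)
    exacts [gP _ F.zU, gP _ F.qU, gP _ F.rU, gP _ F.wU, ⟨h, hh, eh, uh⟩, ⟨ρ, hρ, eρ, uρ⟩, ⟨s, hs, es, us⟩]
  refine ⟨u, uR, u2, hu, fun γ hγ hn c => (x.c3_fix_of uR g7 ⟨hγ, hn⟩ (F.gNZ ⟨⟨f.mem γ hγ, ?_⟩,
    mem_centralizer_singleton_iff.2 c⟩)).symm⟩
  exact mem_normalizer_of_cj_le (by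
    rintro _ ⟨v, hv, rfl⟩
    exact (x.cj hγ hn hv).1)

end H60.ML
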