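import Mathlib
import Cfsg.Agent.Lib.McLy.Base1
import Cfsg.Agent.Lib.McLy.C3

set_option autoImplicit false
set_option linter.unusedSectionVars false

namespace H60.ML

open Subgroup H69 H36.SW
open scoped commutatorElement

universe u
variable {X : Type} [Group X] [Finite X] {G : Type u} [Group G] [Finite G]
variable {F : Fy X} {t : G} {N K : Subgroup G} {α : G → X} {η E E' ε : X → G} {R : Subgroup G}

theorem Rx.c4_E (x : Rx F t N K α η R) : ∃ E : X → G, E 1 = 1 ∧ (∀ u ∈ F.U, E u ∈ R) ∧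
    (∀ u ∈ F.U, E u * E u = 1) ∧ (∀ u ∈ F.U, E u * t * (E u)⁻¹ = t * η u) ∧
    ∀ γ ∈ K, γ ∈ 𝐍(R) → ∀ u ∈ F.U, γ * E u * γ⁻¹ = E (α γ * u * (α γ)⁻¹) := by
  classical
  obtain ⟨e, eR, e2, et, eC⟩ := x.exists_e
  have f := x.lf.fr
  let E : X → G := fun u =>
    if h : ∃ γ ∈ K, γ ∈ 𝐍(R) ∧ α γ * F.z * (α γ)⁻¹ = u then h.choose * e * h.choose⁻¹ else 1
  have Eq : ∀ γ ∈ K, γ ∈ 𝐍(R) → E (α γ * F.z * (α γ)⁻¹) = γ * e * γ⁻¹ := fun γ hγ hn => by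
    have h : ∃ k ∈ K, k ∈ 𝐍(R) ∧ α k * F.z * (α k)⁻¹ = α γ * F.z * (α γ)⁻¹ := ⟨γ, hγ, hn, rfl⟩
    simp only [E]
    rw [dif_pos h]
    obtain ⟨h1, h2, h3⟩ := h.choose_spec
    generalize h.choose = k at h1 h2 h3
    have := eC _ (mul_mem (inv_mem hγ) h1) (mul_mem (inv_mem hn) h2) (by
      rw [f.mul _ (f.KN (inv_mem hγ)) _ (f.KN h1), f.inv (f.KN hγ)]
      calc _ = (α γ)⁻¹ * (α k * F.z * (α k)⁻¹) * α k := by group
        _ = _ := by rw [h3]; group)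
    calc _ = γ * (γ⁻¹ * k * e) * k⁻¹ := by group
      _ = _ := by rw [this]; group
  have E1 : E 1 = 1 := by
    simp only [E]
    rw [dif_neg]
    rintro ⟨γ, -, -, h⟩
    exact cjne F.z1 _ h
  have ex : ∀ u ∈ F.U, u = 1 ∨ ∃ γ ∈ K, γ ∈ 𝐍(R) ∧ α γ * F.z * (α γ)⁻¹ = u := fun u hu => by
    by_cases h1 : u = 1
    · exact Or.inl h1
    obtain ⟨n, hJ, hn, e⟩ := F.tr1 u hu h1
    obtain ⟨γ, h2, h3, rfl⟩ := x.cov n ⟨hJ, hn⟩
    exact Or.inr ⟨γ, h2, h3, e⟩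
  refine ⟨E, E1, fun u hu => ?_, fun u hu => ?_, fun u hu => ?_, fun γ hγ hn u hu => ?_⟩ <;>
    rcases ex u hu with rfl | ⟨k, h1, h2, rfl⟩
  · rw [E1]; exact one_mem _
  · rw [Eq k h1 h2]; exact conj_mem_of_mem_normalizer h2 eR
  · rw [E1, mul_one]
  · rw [Eq k h1 h2, cjsq e2]
  · rw [E1, x.lf.one]; simp
  · rw [Eq k h1 h2, ← (x.cj h1 h2 F.zU).2]
    calc _ = k * (e * (k⁻¹ * t * k⁻¹⁻¹) * e⁻¹) * k⁻¹ := by group
      _ = _ := by rw [f.cjt (f.KN (inv_mem h1)), et, ← conj_mul, f.cjt (f.KN h1)]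
  · simp [E1]
  · rw [Eq k h1 h2, show α γ * (α k * F.z * (α k)⁻¹) * (α γ)⁻¹ = α γ * α k * F.z * (α γ * α k)⁻¹ by group,
      ← f.mul _ (f.KN hγ) _ (f.KN h1), Eq _ (mul_mem hγ h1) (mul_mem hn h2)]
    group

theorem Rx.c4_ct (x : Rx F t N K α η R) {g : G} (hg : g ∈ R) (h : g * t = t * g) :
    ∃ u ∈ F.U, g = η u ∨ g = η u * t :=
  x.lf.cenU2 (P2.of_mem x.p2 hg) h (x.cU g hg)

theorem Rx.c4_add (x : Rx F t N K α η R) (E1 : E 1 = 1) (ER : ∀ u ∈ F.U, E u ∈ R)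
    (E2 : ∀ u ∈ F.U, E u * E u = 1) (Et : ∀ u ∈ F.U, E u * t * (E u)⁻¹ = t * η u)
    (Ec : ∀ γ ∈ K, γ ∈ 𝐍(R) → ∀ u ∈ F.U, γ * E u * γ⁻¹ = E (α γ * u * (α γ)⁻¹)) :
    ∀ u ∈ F.U, ∀ v ∈ F.U, E (u * v) = E u * E v := by
  have l := x.lf
  have f := l.fr
  have Ei : ∀ u ∈ F.U, (E u)⁻¹ = E u := fun u hu => inv_eq_of_mul_eq_one_left (E2 u hu)
  have cE : ∀ u ∈ F.U, ∀ v ∈ F.U, E u * η v = η v * E u := fun u hu v hv => x.cU _ (ER u hu) v hv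
  have ct : ∀ u ∈ F.U, η u * t = t * η u := fun u hu => l.ct (F.mU hu)
  have zq := mul_mem F.zU F.qU
  have zq1 : F.z * F.q ≠ 1 := fun e => F.qz (by
    rw [eq_inv_of_mul_eq_one_right e, inv_eq_of_mul_eq_one_left F.z2])
  have zqz : F.z * F.q ≠ F.z := fun e => F.q1 (mul_eq_left.1 e)
  -- the shape
  obtain ⟨c, hc, s, hs, h0⟩ : ∃ c ∈ F.U, ∃ s, (s = 1 ∨ s = t) ∧ E F.z * E F.q = E (F.z * F.q) * (η c * s) := by
    have g := mul_mem (inv_mem (ER _ zq)) (mul_mem (ER _ F.zU) (ER _ F.qU))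
    obtain ⟨c, hc, h⟩ := x.c4_ct g (mul_inv_eq_iff_eq_mul.1 (by
      calc _ = (E (F.z * F.q))⁻¹ * (E F.z * (E F.q * t * (E F.q)⁻¹) * (E F.z)⁻¹) * (E (F.z * F.q))⁻¹⁻¹ := by group
        _ = t := by
          rw [Et _ F.qU, cjm _ t, Et _ F.zU, cE _ F.zU _ F.qU, mul_inv_cancel_right, mul_assoc t,
            ← l.mulU _ F.zU _ F.qU, Ei _ zq, cjm _ t, Et _ zq, cE _ zq _ zq, mul_inv_cancel_right, mul_assoc t,
            l.sq zq, mul_one]))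
    rcases h with h | h
    · exact ⟨c, hc, 1, Or.inl rfl, by rw [mul_one, ← h]; group⟩
    · exact ⟨c, hc, t, Or.inr rfl, by rw [← h]; group⟩
  have cs : ∀ γ ∈ K, γ * s * γ⁻¹ = s := fun γ hγ => by
    rcases hs with rfl | rfl
    · simp
    · exact f.cjt (f.KN hγ)
  have s2 : s * s = 1 := by
    rcases hs with rfl | rfl
    · simp
    · exact f.t2
  have sη : ∀ u ∈ F.U, η u * s = s * η u := fun u hu => by
    rcases hs with rfl | rfl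
    · simp
    · exact ct u hu
  have tp : ∀ n ∈ F.J, n ∈ 𝐍(F.U) → E (n * F.z * n⁻¹) * E (n * F.q * n⁻¹) =
      E (n * F.z * n⁻¹ * (n * F.q * n⁻¹)) * (η (n * c * n⁻¹) * s) := fun n hJ hn => by
    obtain ⟨γ, h1, h2, rfl⟩ := x.cov n ⟨hJ, hn⟩
    rw [conj_mul, ← Ec γ h1 h2 _ F.zU, ← Ec γ h1 h2 _ F.qU, ← Ec γ h1 h2 _ zq, ← (x.cj h1 h2 hc).2, conj_mul, h0,
      cjm, cjm, cs γ h1]
  have hc4 : c = 1 ∨ c = F.z ∨ c = F.q ∨ c = F.z * F.q := by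
    by_contra hh
    push Not at hh
    obtain ⟨c1, cz, cq, czq⟩ := hh
    obtain ⟨n, nJ, nU, e1, e2, e3⟩ := F.trt F.zU F.qU hc F.z1 F.q1 F.qz c1 cz cq czq
    obtain ⟨m, mJ, mU, d1, d2, d3⟩ := F.trt F.zU F.qU (mul_mem F.zU hc) F.z1 F.q1 F.qz
      (fun e => cz (by rw [eq_inv_of_mul_eq_one_right e, inv_eq_of_mul_eq_one_left F.z2]))
      (fun e => c1 (mul_eq_left.1 e)) (fun e => czq (by rw [← e, can F.z2])) (fun e => cq (mul_left_cancel e))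
    have := tp (m * n⁻¹) (mul_mem mJ (inv_mem nJ)) (mul_mem mU (inv_mem nU))
    have k : ∀ {a b c : X}, n * a * n⁻¹ = b → m * a * m⁻¹ = c → m * n⁻¹ * b * (m * n⁻¹)⁻¹ = c :=
      fun h1 h2 => by rw [← h1, ← h2]; group
    rw [k e1 d1, k e2 d2, k e3 d3, h0, mul_right_inj, mul_left_inj] at this
    exact F.z1 (mul_eq_right.1 (l.inj (F.mU hc) (F.mU (mul_mem F.zU hc)) this).symm)
  obtain ⟨φ, hφ, φU, H⟩ : ∃ φ : X → X → X, (φ = (fun _ _ => 1) ∨ φ = (fun a _ => a) ∨ φ = (fun _ b => b) ∨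
      φ = fun a b => a * b) ∧ (∀ a ∈ F.U, ∀ b ∈ F.U, φ a b ∈ F.U) ∧
      ∀ a ∈ F.U, ∀ b ∈ F.U, a ≠ 1 → b ≠ 1 → b ≠ a → E a * E b = E (a * b) * (η (φ a b) * s) := by
    rcases hc4 with rfl | rfl | rfl | rfl
    · refine ⟨_, Or.inl rfl, fun _ _ _ _ => one_mem _, fun a ha b hb a1 b1 ba => ?_⟩
      obtain ⟨n, nJ, nU, rfl, rfl⟩ := F.trp ha hb a1 b1 ba
      simpa using tp n nJ nU
    · refine ⟨_, Or.inr (Or.inl rfl), fun _ h _ _ => h, fun a ha b hb a1 b1 ba => ?_⟩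
      obtain ⟨n, nJ, nU, rfl, rfl⟩ := F.trp ha hb a1 b1 ba
      exact tp n nJ nU
    · refine ⟨_, Or.inr (Or.inr (Or.inl rfl)), fun _ _ _ h => h, fun a ha b hb a1 b1 ba => ?_⟩
      obtain ⟨n, nJ, nU, rfl, rfl⟩ := F.trp ha hb a1 b1 ba
      exact tp n nJ nU
    · refine ⟨_, Or.inr (Or.inr (Or.inr rfl)), fun _ h _ h' => mul_mem h h', fun a ha b hb a1 b1 ba => ?_⟩
      obtain ⟨n, nJ, nU, rfl, rfl⟩ := F.trp ha hb a1 b1 ba
      rw [tp n nJ nU, cjm n F.z F.q]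
  have mm : ∀ a ∈ F.U, ∀ b ∈ F.U, η a * s * (η b * s) = η (a * b) := fun a ha b hb => by
    rw [sη b hb, mul_assoc, can s2, l.mulU a ha b hb]
  have h1 := H _ F.zU _ F.qU F.z1 F.q1 F.qz
  -- first relation
  have R1 : φ F.z (F.z * F.q) * φ F.z F.q = 1 := by
    have h2 := H _ F.zU _ zq F.z1 zq1 zqz
    rw [can F.z2] at h2
    have : E F.q = E F.q * (η (φ F.z (F.z * F.q)) * s * (η (φ F.z F.q) * s)) := by
      rw [← mul_assoc, ← h2, mul_assoc, ← h1, can (E2 _ F.zU)]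
    rw [mm _ (φU _ F.zU _ zq) _ (φU _ F.zU _ F.qU), left_eq_mul, ← l.one] at this
    exact l.inj (F.mU (mul_mem (φU _ F.zU _ zq) (φU _ F.zU _ F.qU))) (one_mem _) this
  have hφ' : φ = (fun _ _ => 1) ∨ φ = (fun a _ => a) := by
    rcases hφ with h | h | rfl | rfl
    · exact Or.inl h
    · exact Or.inr h
    · rw [mul_assoc, F.q2, mul_one] at R1; exact absurd R1 F.z1
    · beta_reduce at R1
      rw [can F.z2, ← F.Uc F.qU F.zU, can F.q2] at R1; exact absurd R1 F.z1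
  have fin : ∀ a ∈ F.U, ∀ b ∈ F.U, a ≠ 1 → b ≠ 1 → b ≠ a → E a * E b = E (a * b) := by
    rcases hs with rfl | rfl
    · rcases hφ' with rfl | rfl
      · simpa [l.one] using H
      · exfalso
        have h2 := H _ F.qU _ F.zU F.q1 F.z1 F.qz.symm
        have h3 := congrArg (·⁻¹) h1
        simp only [mul_inv_rev, mul_one, Ei _ F.zU, Ei _ F.qU, Ei _ zq,
          inv_eq_of_mul_eq_one_left (l.sq F.zU)] at h3
        rw [h2, mul_one, F.Uc F.qU F.zU, ← cE _ zq _ F.zU, mul_right_inj] at h3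
        exact F.qz (l.inj (F.mU F.qU) (F.mU F.zU) h3)
    · exfalso
      have qr := mul_mem F.qU F.rU
      have qr1 : F.q * F.r ≠ 1 := fun e => F.rq (by
        rw [eq_inv_of_mul_eq_one_right e, inv_eq_of_mul_eq_one_left F.q2])
      have qrz : F.q * F.r ≠ F.z := fun e => F.rzq (by rw [← e, F.Uc F.qU F.rU, mul_assoc, F.q2, mul_one])
      have h2 := H _ zq _ F.rU zq1 F.r1 F.rzq
      have h3 := H _ F.qU _ F.rU F.q1 F.r1 F.rq
      have h4 := H _ F.zU _ qr F.z1 qr1 qrz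
      have h5 : s * E F.r = E F.r * (η F.r * s) := by
        rw [ct _ F.rU, ← Et _ F.rU, Ei _ F.rU, ← mul_assoc, ← mul_assoc, E2 _ F.rU, one_mul]
      have := mul_assoc (E F.z) (E F.q) (E F.r)
      rw [h1, h3, ← mul_assoc (E F.z), h4, mul_assoc (E _), mul_assoc (η _), h5, ← mul_assoc (η _),
        ← cE _ F.rU _ (φU _ F.zU _ F.qU), mul_assoc (E F.r), ← mul_assoc (E _), h2, ← mul_assoc (η _),
        ← l.mulU _ (φU _ F.zU _ F.qU) _ F.rU, mul_assoc (E _), mul_assoc (E _), mul_assoc F.z, mul_right_inj,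
        mm _ (φU _ zq _ F.rU) _ (mul_mem (φU _ F.zU _ F.qU) F.rU), mm _ (φU _ F.zU _ qr) _ (φU _ F.qU _ F.rU)] at this
      have := l.inj (F.mU (mul_mem (φU _ zq _ F.rU) (mul_mem (φU _ F.zU _ F.qU) F.rU)))
        (F.mU (mul_mem (φU _ F.zU _ qr) (φU _ F.qU _ F.rU))) this
      rcases hφ' with rfl | rfl
      · exact F.r1 (by simpa using this)
      · exact F.rz (by
          rw [mul_eq_left] at this
          rw [eq_inv_of_mul_eq_one_right this, inv_eq_of_mul_eq_one_left F.z2])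
  intro u hu v hv
  by_cases u1 : u = 1
  · simp [u1, E1]
  by_cases v1 : v = 1
  · simp [v1, E1]
  by_cases uv : v = u
  · rw [uv, F.U2 u hu, E2 u hu, E1]
  exact (fin u hu v hv u1 v1 uv).symm

theorem Rx.exists_cl (x : Rx F t N K α η R) : ∃ E, Cl F t N K α η E := by
  obtain ⟨E, E1, ER, E2, Et, Ec⟩ := x.c4_E
  have add := x.c4_add E1 ER E2 Et Ec
  have l := x.lf
  have f := l.fr
  have Ei : ∀ u ∈ F.U, (E u)⁻¹ = E u := fun u hu => inv_eq_of_mul_eq_one_left (E2 u hu)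
  have hat : ∀ u ∈ F.U, E u * (t * E u * t) = η u := fun u hu => by
    calc _ = E u * t * (E u)⁻¹ * t := by rw [Ei u hu]; group
      _ = _ := by rw [Et u hu, ← l.ct (F.mU hu), mul_assoc, f.t2, mul_one]
  have nW : ∀ γ ∈ K, γ ∈ 𝐍(R) → γ ∈ 𝐍(WW F t E) := fun γ hγ hn => by
    have h1 : im E F.U ^ᶜ γ = im E F.U := cj_eq_of_mem_normalizer
      (nrm_im fun y hy => ⟨_, (x.cj hγ hn hy).1, Ec γ hγ hn y hy⟩)
    rw [← cj_eq_self_iff, WW, cj_sup, cj_cj, f.Kt hγ, ← cj_cj, h1]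
  have EW : ∀ u ∈ F.U, E u ∈ WW F t E := fun u hu => mem_sup_left (mem_im_self E hu)
  have ηW : ∀ u ∈ F.U, η u ∈ WW F t E := fun u hu => by
    rw [← hat u hu]
    refine mul_mem (EW u hu) (mem_sup_right ?_)
    have := cj_mem t (mem_im_self E hu)
    rwa [f.ti] at this
  have hR : R = WW F t E ⊔ zpowers t := by
    refine le_antisymm (fun g hg => ?_) (sup_le (sup_le (im_le.2 ER) (cj_le_of_mem (im_le.2 ER) x.tR))
      (zpowers_le_of_mem x.tR))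
    obtain ⟨u, hu, e⟩ := x.tr g hg
    obtain ⟨v, hv, h⟩ := x.c4_ct (mul_mem (inv_mem (ER u hu)) hg) (mul_inv_eq_iff_eq_mul.1 (by
      calc _ = (E u)⁻¹ * (g * t * g⁻¹) * E u := by group
        _ = t := by rw [e, ← Et u hu]; group))
    have h2 : (E u)⁻¹ * g ∈ WW F t E ⊔ zpowers t := by
      rcases h with h | h <;> rw [h]
      · exact mem_sup_left (ηW v hv)
      · exact mul_mem (mem_sup_left (ηW v hv)) (mem_sup_right (mem_zpowers t))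
    simpa using mul_mem (mem_sup_left (EW u hu)) h2
  refine ⟨E, l, add, hat, fun u hu v hv => ?_, fun γ hγ hn u hu => Ec γ hγ ?_ u hu, fun n hn => ?_,
    fun y hy => nW _ (l.mem y hy) (x.qn y hy)⟩
  · have h1 : t * E v * t = E v * η v := by rw [← hat v hv, can (E2 v hv)]
    rw [h1, mul_assoc, ← x.cU _ (ER u hu) v hv, ← mul_assoc, ← mul_assoc, ← add u hu v hv, ← add v hv u hu,
      F.Uc hu hv]
  · rw [← cj_eq_self_iff, hR, cj_sup, cj_zpowers, f.cjt (f.KN hγ), cj_eq_of_mem_normalizer hn]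
  · obtain ⟨γ, h1, h2, h3⟩ := x.cov n hn
    exact ⟨γ, h1, nW γ h1 h2, h3⟩

end H60.ML
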