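import Mathlib
import Cfsg.Agent.Lib.McLy.Base2

set_option autoImplicit false
set_option linter.unusedSectionVars false

namespace H60.ML

open Subgroup H69 H36.SW
open scoped commutatorElement

universe u
variable {X : Type} [Group X] [Finite X] {G : Type u} [Group G] [Finite G]
variable {F : Fy X} {t : G} {N K : Subgroup G} {α : G → X} {η E E' ε : X → G} {R : Subgroup G}

/-- `Z₁ × Z₂` -/
def ZZ (F : Fy X) (t : G) (E : X → G) : Subgroup G := im E F.Z0 ⊔ im E F.Z0 ^ᶜ t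

/-- the elements of odd order which centralise `t` and the lift of `U V` -/
structure Od (F : Fy X) (t : G) (K : Subgroup G) (α : G → X) (η : X → G) (o : G) : Prop where
  mem : o ∈ K
  ker : α o = 1
  cen : ∀ x ∈ F.UV, o * η x = η x * o

theorem eqns_M1 : True := by
  have := @ZZ.eq_1.{0}
  trivial

/-- an elementary abelian group on which `t` acts freely, of rank at least four -/
structure M1Z (t : G) (Z : Subgroup G) : Prop where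
  t2 : t * t = 1
  el : ∀ g ∈ Z, g * g = 1
  tn : t ∈ 𝐍(Z)
  two : ∃ a ∈ Z, ∃ b ∈ Z, t * a * t * a ≠ 1 ∧ t * b * t * b ≠ 1 ∧ t * a * t * a ≠ t * b * t * b
  inv : ∀ w ∈ Z, w * t * (w * t) = 1 → ∃ k ∈ Z, k * (w * t) * k⁻¹ = t

namespace M1Z

variable {Z Z' : Subgroup G}

theorem ti (h : M1Z t Z) : t⁻¹ = t := inv_eq_of_mul_eq_one_left h.t2

theorem mem (h : M1Z t Z) {x : G} (hx : x ∈ Z ⊔ zpowers t) : x ∈ Z ∨ ∃ w ∈ Z, x = w * t := by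
  obtain ⟨a, ha, b, ⟨k, rfl⟩, rfl⟩ := (mem_sup_of_le_normalizer_left (zpowers_le_of_mem h.tn)).1 hx
  have e : ∀ m : ℤ, t ^ (2 * m) = 1 := fun m => by rw [zpow_mul, zpow_two, h.t2, one_zpow]
  rcases Int.even_or_odd' k with ⟨m, rfl | rfl⟩
  · exact Or.inl (by simpa only [e, mul_one] using ha)
  · exact Or.inr ⟨a, ha, by simp only [zpow_add, e, one_mul, zpow_one]⟩

theorem isP (h : M1Z t Z) : IsPGroup 2 (Z ⊔ zpowers t : Subgroup G) :=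
  isPGroup_sup_of_le_normalizer_left (isP_of_P2 fun x hx => P2.of_sq (h.el x hx)) (P2.of_sq h.t2).zpowers
    (zpowers_le_of_mem h.tn)

theorem notMem (h : M1Z t Z) : t ∉ Z := fun ht => by
  obtain ⟨a, ha, -, -, h1, -⟩ := h.two
  exact h1 (by rw [comm_of_sq h.el ht ha, mul_assoc a, h.t2, mul_one, h.el a ha])

theorem chr (h : M1Z t Z) (h' : M1Z t Z') {g : G} (e : (Z ⊔ zpowers t) ^ᶜ g = Z' ⊔ zpowers t) :
    Z ^ᶜ g ≤ Z' := by
  intro x' hx'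
  obtain ⟨x, hx, rfl⟩ := mem_cj'.1 hx'
  rcases h'.mem (e ▸ cj_mem g (mem_sup_left hx)) with h1 | ⟨w, hw, h1⟩
  · exact h1
  exfalso
  have key : ∀ a ∈ Z', t * a * t * a ≠ 1 → t * a * t * a = g * (x * (t * x⁻¹ * t⁻¹)) * g⁻¹ := fun a ha ne => by
    obtain ⟨y, hy, ey⟩ := mem_cj'.1 (show a ∈ (Z ⊔ zpowers t) ^ᶜ g from e ▸ mem_sup_left ha)
    have k1 : t * a * t * a = g * (x * y * x⁻¹ * y⁻¹) * g⁻¹ := by
      calc _ = w * (t * a * t⁻¹) * w⁻¹ * a⁻¹ := by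
            rw [comm_of_sq h'.el hw (conj_mem_of_mem_normalizer h'.tn ha), mul_inv_cancel_right, h.ti,
              inv_eq_of_mul_eq_one_left (h'.el a ha)]
        _ = g * x * g⁻¹ * a * (g * x * g⁻¹)⁻¹ * a⁻¹ := by rw [h1]; group
        _ = _ := by rw [ey]; group
    rcases h.mem hy with h2 | ⟨v, hv, rfl⟩
    · rw [comm_of_sq h.el hx h2] at k1
      exact absurd (k1.trans (by group)) ne
    · rw [k1, show x * (v * t) * x⁻¹ * (v * t)⁻¹ = x * (v * (t * x⁻¹ * t⁻¹)) * v⁻¹ by group,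
        comm_of_sq h.el hv (conj_mem_of_mem_normalizer h.tn (inv_mem hx))]
      group
  obtain ⟨a, ha, b, hb, h1, h2, h3⟩ := h'.two
  exact h3 ((key a ha h1).trans (key b hb h2).symm)

theorem chr' (h : M1Z t Z) (h' : M1Z t Z') {g : G} (e : (Z ⊔ zpowers t) ^ᶜ g = Z' ⊔ zpowers t) :
    Z ^ᶜ g = Z' :=
  le_antisymm (h.chr h' e) (le_cj_iff.2 (h'.chr h (cj_eq_iff.1 e).symm))

theorem adj (h : M1Z t Z) (h' : M1Z t Z') {g : G} (e : (Z ⊔ zpowers t) ^ᶜ g = Z' ⊔ zpowers t) :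
    ∃ m ∈ Z', m * g * t = t * (m * g) := by
  rcases h'.mem (e ▸ cj_mem g (mem_sup_right (mem_zpowers t))) with h1 | ⟨w, hw, h1⟩
  · rw [← h.chr' h' e, cj_mem_iff] at h1
    exact absurd h1 h.notMem
  · obtain ⟨m, hm, h2⟩ := h'.inv w hw (h1 ▸ cjsq h.t2 g)
    exact ⟨m, hm, mul_inv_eq_iff_eq_mul.1 (Eq.trans (by rw [← h1]; group) h2)⟩

theorem tr (h : M1Z t Z) (h' : M1Z t Z') (l : Lf F t N K α η)
    (s : IsSylowIn 2 (Z ⊔ zpowers t) 𝐂(im η F.UV)) (s' : IsSylowIn 2 (Z' ⊔ zpowers t) 𝐂(im η F.UV))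
    (hh : ∀ c ∈ F.Z0, η c ∈ Z') : ∃ o, Od F t K α η o ∧ Z ^ᶜ o = Z' := by
  obtain ⟨g, hg, e⟩ := s.conj s'
  obtain ⟨m, hm, ct⟩ := h.adj h' e
  have hk : m * g ∈ 𝐂(im η F.UV) := mul_mem (s'.le (mem_sup_left hm)) hg
  have e' : Z ^ᶜ (m * g) = Z' := by rw [← cj_cj, h.chr' h' e, cj_eq_of_mem hm]
  generalize m * g = k at ct hk e'
  obtain ⟨kN, u, hu, ku, o, oK, o1, -, oz, eo⟩ := l.cenU ct fun u hu => cen_im.1 hk u (F.mU hu)
  have uZ : u ∈ F.Z0 := F.cenUV fun x hx => by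
    rw [← ku, ← l.inv x hx]
    exact l.fr.comm kN (l.memN hx) (cen_im.1 hk x hx)
  have hη := hh u uZ
  refine ⟨o, ⟨oK, o1, cen_im.1 (zpowers_le_of_mem (mul_mem (inv_mem (s'.le (mem_sup_left hη))) hk) oz)⟩, ?_⟩
  rcases eo with rfl | rfl
  · rwa [← cj_cj, cj_eq_iff, cj_eq_of_mem (inv_mem hη)] at e'
  · rwa [← cj_cj, cj_eq_of_mem_normalizer h.tn, ← cj_cj, cj_eq_iff, cj_eq_of_mem (inv_mem hη)] at e'

end M1Z

theorem Cl.memZZ (c : Cl F t N K α η E) {g : G} :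
    g ∈ ZZ F t E ↔ ∃ a ∈ F.Z0, ∃ b ∈ F.Z0, g = E a * (t * E b * t) := by
  have m : ∀ x ∈ F.Z0, ∀ y ∈ F.Z0, E (x * y) = E x * E y := fun x hx y hy => c.mul x hx.1 y hy.1
  have h1 : im E F.Z0 ≤ WW F t E := (im_mono E inf_le_left).trans le_sup_left
  have h2 : im E F.Z0 ^ᶜ t ≤ WW F t E := (cj_mono t (im_mono E inf_le_left)).trans le_sup_right
  rw [ZZ, mem_sup_of_le_normalizer_right (le_normalizer_of_le_centralizer fun a ha =>
    mem_centralizer_iff_commute.2 fun b hb => c.Wc (h2 hb) (h1 ha))]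
  constructor
  · rintro ⟨_, ha, _, hb, rfl⟩
    obtain ⟨a, ha1, rfl⟩ := (mem_im m).1 ha
    obtain ⟨_, hb', rfl⟩ := mem_cj'.1 hb
    obtain ⟨b, hb1, rfl⟩ := (mem_im m).1 hb'
    exact ⟨a, ha1, b, hb1, by rw [c.fr.ti]⟩
  · rintro ⟨a, ha, b, hb, rfl⟩
    exact ⟨_, mem_im_self E ha, _, cj_mem t (mem_im_self E hb), by rw [c.fr.ti]⟩

theorem Cl.m1_le (_c : Cl F t N K α η E) : ZZ F t E ≤ WW F t E :=
  sup_le_sup (im_mono E inf_le_left) (cj_mono t (im_mono E inf_le_left))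

theorem Cl.m1_E (_c : Cl F t N K α η E) {a : X} (ha : a ∈ F.Z0) : E a ∈ ZZ F t E :=
  mem_sup_left (mem_im_self E ha)

theorem Cl.m1_η (c : Cl F t N K α η E) {a : X} (ha : a ∈ F.Z0) : η a ∈ ZZ F t E :=
  c.memZZ.2 ⟨a, ha, a, ha, (c.hat a ha.1).symm⟩

theorem Cl.ZZ_eq (c : Cl F t N K α η E) : ZZ F t E = WW F t E ⊓ 𝐂(im η F.UV) := by
  have key : ∀ x ∈ F.UV, ∀ u ∈ F.U, ∀ v ∈ F.U, η x * (E u * (t * E v * t)) * (η x)⁻¹ =
      E (x * u * x⁻¹) * (t * E (x * v * x⁻¹) * t) := fun x hx u hu v hv => by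
    rw [cjm, c.ηE hx hu, c.eqv' (c.lf.mem x hx) (c.qn x hx) hv, c.lf.inv x hx]
  refine le_antisymm (le_inf c.m1_le fun g hg => cen_im.2 fun x hx => ?_) fun g hg => ?_
  · obtain ⟨a, ha, b, hb, rfl⟩ := c.memZZ.1 hg
    have := key x hx a ha.1 b hb.1
    rw [← F.Zc ha hx, ← F.Zc hb hx, mul_inv_cancel_right, mul_inv_cancel_right] at this
    exact (mul_inv_eq_iff_eq_mul.1 this).symm
  · obtain ⟨u, hu, v, hv, rfl⟩ := c.memW.1 hg.1
    have h : ∀ x ∈ F.UV, x * u * x⁻¹ = u ∧ x * v * x⁻¹ = v := fun x hx => by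
      have n := F.TU (F.UVT hx)
      refine c.W_inj (conj_mem_of_mem_normalizer n hu) (conj_mem_of_mem_normalizer n hv) hu hv ?_
      rw [← key x hx u hu v hv, ← cen_im.1 hg.2 x hx, mul_inv_cancel_right]
    exact c.memZZ.2 ⟨u, F.cenUV fun x hx => (mul_inv_eq_iff_eq_mul.1 (h x hx).1).symm, v,
      F.cenUV fun x hx => (mul_inv_eq_iff_eq_mul.1 (h x hx).2).symm, rfl⟩

theorem Cl.m1Z (c : Cl F t N K α η E) : M1Z t (ZZ F t E) := by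
  have f := c.fr
  have k : ∀ u ∈ F.U, t * E u * t * E u = η u := fun u hu => by rw [← c.cm u hu u hu, c.hat u hu]
  have n1 : ∀ u ∈ F.U, u ≠ 1 → η u ≠ 1 := fun u hu h e =>
    h (c.lf.inj (F.mU hu) (one_mem _) (e.trans c.lf.one.symm))
  refine ⟨f.t2, fun g hg => c.W2 (c.m1_le hg), ?_, ⟨_, c.m1_E F.zZ, _, c.m1_E F.rZ, ?_⟩, fun w hw h => ?_⟩
  · rw [← cj_eq_self_iff, ZZ, cj_sup, cj_cj, f.t2, cj_one, sup_comm]
  · rw [k _ F.zU, k _ F.rU]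
    exact ⟨n1 _ F.zU F.z1, n1 _ F.rU F.r1, fun e => F.rz (c.lf.inj (F.mU F.zU) (F.mU F.rU) e).symm⟩
  · obtain ⟨u, hu, rfl⟩ := c.CWt (c.m1_le hw) (by
      have h1 := eq_inv_of_mul_eq_one_left h
      rwa [mul_inv_rev, f.ti, inv_eq_of_mul_eq_one_left (c.W2 (c.m1_le hw))] at h1)
    have uZ : u ∈ F.Z0 := F.cenUV fun x hx => by
      rw [c.ZZ_eq] at hw
      refine c.lf.inj (mul_mem (F.mU hu) hx) (mul_mem hx (F.mU hu)) ?_
      rw [c.lf.mul _ (F.mU hu) _ hx, c.lf.mul _ hx _ (F.mU hu), cen_im.1 hw.2 x hx]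
    refine ⟨_, c.m1_E uZ, ?_⟩
    rw [cjm, c.tr hu, c.Wc (c.EW hu) (c.ηW hu), mul_inv_cancel_right, ← c.lf.ct (F.mU hu), can (c.lf.sq hu)]

theorem Cl.sylZ (c : Cl F t N K α η E) : IsSylowIn 2 (ZZ F t E ⊔ zpowers t) 𝐂(im η F.UV) := by
  have h := c.m1Z
  have le : ZZ F t E ⊔ zpowers t ≤ 𝐂(im η F.UV) :=
    sup_le (c.ZZ_eq ▸ inf_le_right) (zpowers_le_of_mem (cen_im.2 fun x hx => (c.lf.ct hx).symm))
  refine isSylowIn_of_normalizer le ⟨le_inf le le_normalizer, h.isP, fun P h1 h2 h3 =>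
    le_antisymm (fun g hg => ?_) h1⟩
  obtain ⟨m, hm, ct⟩ := h.adj h (cj_eq_of_mem_normalizer (h2 hg).2)
  have hk : m * g ∈ 𝐂(im η F.UV) := mul_mem (le (mem_sup_left hm)) (h2 hg).1
  obtain ⟨u, hu, e⟩ := c.lf.cenU2 (P2.of_mem h3 (mul_mem (h1 (mem_sup_left hm)) hg)) ct
    fun u hu => cen_im.1 hk u (F.mU hu)
  have hη : η u ∈ ZZ F t E := by
    rw [c.ZZ_eq]
    refine ⟨c.ηW hu, ?_⟩
    rcases e with e | e
    · exact e ▸ hk
    · simpa [e] using mul_mem hk (inv_mem (le (mem_sup_right (mem_zpowers t))))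
  have : m * g ∈ ZZ F t E ⊔ zpowers t := by
    rcases e with e | e <;> rw [e]
    · exact mem_sup_left hη
    · exact mul_mem (mem_sup_left hη) (mem_sup_right (mem_zpowers t))
  simpa using mul_mem (inv_mem (mem_sup_left hm)) this

theorem Cl.t1 (c : Cl F t N K α η E) (c' : Cl F t N K α η E') :
    ∃ o, Od F t K α η o ∧ ZZ F t E ^ᶜ o = ZZ F t E' :=
  c.m1Z.tr c'.m1Z c.lf c.sylZ c'.sylZ fun _ h => c'.m1_η h

theorem Cl.t1' (c : Cl F t N K α η E) (c' : Cl F t N K (fun g => F.sw (α g)) (fun x => η (F.sw x)) E') :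
    ∃ o, Od F t K α η o ∧ ZZ F t E' ^ᶜ o = ZZ F t E :=
  c'.m1Z.tr c.m1Z c.lf (c.lf.im_sw ▸ c'.sylZ) c.sylZ fun _ h => c.m1_η h

theorem m1_syl_sup {W C B : Subgroup G} (hW : IsSylowIn 2 W C) (hB : IsPGroup 2 B) (n0 : B ≤ 𝐍(C))
    (n1 : B ≤ 𝐍(W)) : IsSylowIn 2 (W ⊔ B) (B ⊔ C) := by
  refine ⟨sup_le (hW.le.trans le_sup_right) le_sup_left, isPGroup_sup_of_le_normalizer_left hW.isP hB n1,
    fun S h1 h2 h3 => ?_⟩
  rw [← inf_eq_right.2 h2, dedekind_right n0 (le_sup_right.trans h1), sup_comm,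
    hW.max _ (le_inf hW.le (le_sup_left.trans h1)) inf_le_left (h3.to_le inf_le_right)]

theorem Cl.t2 (c : Cl F t N K α η E) {W B : Subgroup G}
    (hW : IsSylowIn 2 W 𝐂(im η F.U ⊔ ZZ F t E)) (hB : IsPGroup 2 B) (tB : t ∈ B) (qB : im η F.UV ≤ B)
    (n0 : B ≤ 𝐍(im η F.U ⊔ ZZ F t E)) (n1 : B ≤ 𝐍(W)) (n2 : B ≤ 𝐍(WW F t E)) :
    ∃ o, Od F t K α η o ∧ o ∈ 𝐂(im η F.U ⊔ ZZ F t E) ∧ W ^ᶜ o = WW F t E ∧
      (W ⊔ B) ^ᶜ o = WW F t E ⊔ B := by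
  have f := c.fr
  have tA : t ∉ 𝐂(im η F.U ⊔ ZZ F t E) := fun h => by
    have := c.tr F.zU
    rw [mem_centralizer_iff_commute.1 h _ (mem_sup_right (c.m1_E F.zZ)), mul_inv_cancel_right, left_eq_mul] at this
    exact F.z1 (c.lf.inj (F.mU F.zU) (one_mem _) (this.trans c.lf.one.symm))
  have hU : im η F.U ≤ im η F.U ⊔ ZZ F t E := le_sup_left
  have hA : im η F.U ⊔ ZZ F t E ≤ WW F t E := sup_le (im_le.2 fun _ => c.ηW) c.m1_le
  generalize im η F.U ⊔ ZZ F t E = A at *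
  have s := c.sylA hU hA (n0 tB) tA
  have nC := le_normalizer_centralizer n0
  have s2 := m1_syl_sup s hB nC n2
  have inW : ∀ g ∈ 𝐂(A), g ∈ WW F t E ⊔ B → g ∈ WW F t E := fun g h1 h2 =>
    s.max (𝐂(A) ⊓ (WW F t E ⊔ B)) (le_inf s.le le_sup_left) inf_le_left (s2.isP.to_le inf_le_right) ▸ ⟨h1, h2⟩
  obtain ⟨g, hg, e⟩ := (m1_syl_sup hW hB nC n1).conj s2
  obtain ⟨b, hb, k, hk, rfl⟩ := (mem_sup_of_le_normalizer_right nC).1 hg
  rw [← cj_cj, cj_eq_iff, cj_eq_of_mem (inv_mem (mem_sup_right hb))] at e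
  have h1 : k * t * k⁻¹ * t ∈ WW F t E := inW _ (by
      have := mul_mem hk (conj_mem_of_mem_normalizer (nC tB) (inv_mem hk))
      rwa [f.ti, ← mul_assoc, ← mul_assoc] at this)
    (mul_mem (e ▸ cj_mem k (mem_sup_right tB)) (mem_sup_right tB))
  have h2 : k * t * k⁻¹ * t * t = k * t * k⁻¹ := by rw [mul_assoc _ t t, f.t2, mul_one]
  obtain ⟨u, hu, h3⟩ := c.inv_t h1 (by rw [h2, cjsq f.t2])
  have ct : E u * k * t = t * (E u * k) := mul_inv_eq_iff_eq_mul.1 (by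
    rw [h2] at h3; rw [← h3]; conv_lhs => rw [h3]
    group)
  have hk' : E u * k ∈ 𝐂(A) := mul_mem (s.le (c.EW hu)) hk
  have e' : (W ⊔ B) ^ᶜ (E u * k) = WW F t E ⊔ B := by rw [← cj_cj, e, cj_eq_of_mem (mem_sup_left (c.EW hu))]
  generalize E u * k = k' at ct hk' e'
  obtain ⟨-, v, hv, -, o, oK, o1, -, oz, eo⟩ := c.lf.cenU ct fun u hu =>
    (mem_centralizer_iff_commute.1 hk' _ (hU (mem_im_self η hu))).symm
  have hη := s.le (c.ηW hv)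
  have oC : o ∈ 𝐂(A) := zpowers_le_of_mem (mul_mem (inv_mem hη) hk') oz
  rcases eo with rfl | rfl
  swap
  · exact absurd ((mul_mem_cancel_left (mul_mem hη oC)).1 hk') tA
  rw [← cj_cj, cj_eq_iff, cj_eq_of_mem (inv_mem (mem_sup_left (c.ηW hv)))] at e'
  refine ⟨o, ⟨oK, o1, fun x hx => mul_inv_eq_iff_eq_mul.1 ?_⟩, oC, ?_, e'⟩
  · have xB := qB (mem_im_self η hx)
    refine f.uniq s2.isP (f.cjK (f.KN oK) (c.lf.mem x hx)) (c.lf.mem x hx) (e' ▸ cj_mem o (mem_sup_right xB))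
      (mem_sup_right xB) ?_
    rw [f.conj (f.KN oK) (c.lf.memN hx), o1]; simp
  · have s3 := hW.cj_of_mem oC
    exact (s3.max _ (fun g hg => inW g (s3.le hg) (e' ▸ cj_mono o le_sup_left hg)) s.le s.isP).symm

end H60.ML
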