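import Mathlib
import Cfsg.Agent.Lib.McLy.Base2
import Cfsg.Agent.Lib.McLy.M1

set_option autoImplicit false
set_option linter.unusedSectionVars false

namespace H60.ML

open Subgroup H69 H36.SW
open scoped commutatorElement

universe u
variable {X : Type} [Group X] [Finite X] {G : Type u} [Group G] [Finite G]
variable {F : Fy X} {t : G} {N K : Subgroup G} {α : G → X} {η E E' ε : X → G} {R : Subgroup G}

theorem m2_inv_syl {L B : Subgroup G} (hB : IsPGroup 2 B) (n : B ≤ 𝐍(L)) :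
    ∃ T, IsSylowIn 2 T L ∧ B ≤ 𝐍(T) := by
  obtain ⟨S, hS, hBS⟩ := exists_isSylowIn_le (L := L ⊔ B) hB le_sup_right
  exact ⟨S ⊓ L, hS.inf_normal le_sup_left (sup_le le_normalizer n),
    le_normalizer_inf (le_normalizer_of_le hBS) n⟩

theorem m2_nsup {g : G} {A B : Subgroup G} (hA : g ∈ 𝐍(A)) (hB : g ∈ 𝐍(B)) : g ∈ 𝐍(A ⊔ B) := by
  rw [← cj_eq_self_iff] at *
  rw [cj_sup, hA, hB]

theorem m2_ncj {g : G} {A B : Subgroup G} (hB : g ∈ 𝐍(B)) (h : B ≤ 𝐍(A)) : B ≤ 𝐍(A ^ᶜ g) := by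
  rw [← cj_normalizer, ← cj_eq_of_mem_normalizer hB]
  exact cj_mono g h

theorem m2_tC (l : Lf F t N K α η) {Y : Subgroup X} (hY : Y ≤ F.UV) : t ∈ 𝐂(im η Y) :=
  cen_im.2 fun _ hy => (l.ct (hY hy)).symm

theorem m2_od {o : G} (h : Od F t K α η o) : o ∈ 𝐂(im η F.UV) := cen_im.2 h.cen

theorem m2_nY (l : Lf F t N K α η) {k : G} (hk : k ∈ K) (hn : k ∈ 𝐍(im η F.UV)) {Y : Subgroup X}
    (hY : Y ≤ F.UV) (h : α k ∈ 𝐍(Y)) : k ∈ 𝐍(im η Y) :=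
  nrm_im fun y hy => ⟨_, conj_mem_of_mem_normalizer h hy, (l.cj le_rfl (l.fr.KN hk) hn (hY hy)).2⟩

theorem m2_QY (l : Lf F t N K α η) {Y : Subgroup X} (hY : Y ≤ F.UV) (h : F.UV ≤ 𝐍(Y)) :
    im η F.UV ≤ 𝐍(im η Y) :=
  im_le.2 fun x hx => m2_nY l (l.mem x hx) (le_normalizer (mem_im_self η hx)) hY (by
    rw [l.inv x hx]; exact h hx)

theorem m2_B2 (l : Lf F t N K α η) : IsPGroup 2 (zpowers t ⊔ im η F.UV : Subgroup G) :=
  isPGroup_sup_of_le_normalizer_right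
    (IsPGroup.of_card (n := 1) (by
      rw [Nat.card_zpowers, pow_one]
      exact orderOf_eq_prime (by rw [pow_two, l.fr.t2]) l.fr.t1))
    (l.isP le_rfl) (le_normalizer_of_le_centralizer (zpowers_le.2 (m2_tC l le_rfl)))

theorem m2_nB (l : Lf F t N K α η) {k : G} (hk : k ∈ K) (hn : k ∈ 𝐍(im η F.UV)) :
    k ∈ 𝐍(zpowers t ⊔ im η F.UV) :=
  m2_nsup (by rw [← cj_eq_self_iff, cj_zpowers, l.fr.cjt (l.fr.KN hk)]) hn

namespace Cl

variable (c : Cl F t N K α η E)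
include c

theorem m2_ZW : ZZ F t E ≤ WW F t E := by rw [c.ZZ_eq]; exact inf_le_left

theorem m2_WZ : WW F t E ≤ 𝐂(ZZ F t E) := fun _ hw _ hz => c.Wc (c.m2_ZW hz) hw

theorem m2_nZ {g : G} (h1 : g ∈ 𝐍(WW F t E)) (h2 : g ∈ 𝐍(im η F.UV)) : g ∈ 𝐍(ZZ F t E) := by
  rw [← cj_eq_self_iff] at *
  rw [c.ZZ_eq, cj_inf, cj_centralizer, h1, h2]

theorem m2_BW : zpowers t ⊔ im η F.UV ≤ 𝐍(WW F t E) :=
  sup_le (zpowers_le.2 c.tW) (im_le.2 c.qn)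

theorem m2_BZ : zpowers t ⊔ im η F.UV ≤ 𝐍(ZZ F t E) := fun _ hg => c.m2_nZ (c.m2_BW hg)
  (sup_le (le_normalizer_of_le_centralizer (zpowers_le.2 (m2_tC c.lf le_rfl))) le_normalizer hg)

theorem m2_BA {Y : Subgroup X} (hY : Y ≤ F.UV) (h : F.UV ≤ 𝐍(Y)) :
    zpowers t ⊔ im η F.UV ≤ 𝐍(im η Y ⊔ ZZ F t E) :=
  le_normalizer_sup (sup_le (le_normalizer_of_le_centralizer (zpowers_le.2 (m2_tC c.lf hY)))
    (m2_QY c.lf hY h)) c.m2_BZ

theorem m2_EZ {a : X} (ha : a ∈ F.Z0) : E a ∈ ZZ F t E := mem_sup_left (mem_im_self E ha)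

theorem m2_syl : IsSylowIn 2 (WW F t E) 𝐂(im η F.U ⊔ ZZ F t E) := by
  refine c.sylA le_sup_left (sup_le (im_le.2 fun _ hu => c.ηW hu) c.m2_ZW)
    (c.m2_BA le_sup_left (F.UVT.trans F.TU) (mem_sup_left (mem_zpowers t))) fun h => ?_
  have h1 := c.tr F.zZ.1
  rw [h _ (mem_sup_right (c.m2_EZ F.zZ)), mul_inv_cancel_right, left_eq_mul, ← c.lf.one] at h1
  exact F.z1 (c.lf.inj (F.mU F.zZ.1) (one_mem _) h1)

theorem m2_nA : WW F t E ≤ 𝐍(im η F.V ⊔ ZZ F t E) := by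
  have h1 : im E F.U ≤ 𝐍(im η F.V ⊔ ZZ F t E) := im_le.2 fun a ha => mem_normalizer_of_cj_le (by
    rw [cj_sup, cj_eq_of_mem_centralizer (c.m2_WZ (c.EW ha))]
    refine sup_le (cj_le_iff.2 (im_le.2 fun v hv => (cj_mem_iff (g := E a)).1 ?_)) le_sup_right
    rw [cj_inv_cj]
    have hz := F.commZ ha hv
    have hu : v * a⁻¹ * v⁻¹ ∈ F.U := by
      have := mul_mem (inv_mem ha) hz.1
      rwa [show a⁻¹ * (a * v * a⁻¹ * v⁻¹) = v * a⁻¹ * v⁻¹ by group] at this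
    have e : E a * η v * (E a)⁻¹ = E (a * v * a⁻¹ * v⁻¹) * η v := by
      rw [show a * v * a⁻¹ * v⁻¹ = a * (v * a⁻¹ * v⁻¹) by group, c.mul a ha _ hu,
        ← c.ηE (F.mV hv) (inv_mem ha), im_inv c.mul ha]
      group
    rw [e]
    exact mul_mem (mem_sup_right (c.m2_EZ hz)) (mem_sup_left (mem_im_self η hv)))
  exact sup_le h1 (cj_le_of_mem_normalizer h1 (normalizer_le_normalizer_normalizer _
    (c.m2_BA le_sup_right (F.UVT.trans F.TV) (mem_sup_left (mem_zpowers t)))))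

theorem m2_cj {k : G} (hk : k ∈ K) (hn : k ∈ 𝐍(im η F.UV)) (hU : α k ∈ 𝐍(F.U)) :
    ∃ E1, Cl F t N K α η E1 ∧ WW F t E1 = WW F t E ^ᶜ k ∧ ZZ F t E1 = ZZ F t E ^ᶜ k := by
  obtain ⟨c1, e⟩ := c.cj hk hn hU
  exact ⟨_, c1, e, by rw [c1.ZZ_eq, c.ZZ_eq, e, cj_inf, cj_centralizer, cj_eq_of_mem_normalizer hn]⟩

theorem m2_nq (c' : Cl F t N K (fun g => F.sw (α g)) (fun x => η (F.sw x)) E')
    (hZ : ZZ F t E' = ZZ F t E) (n1 : WW F t E' ≤ 𝐍(WW F t E)) (n2 : WW F t E ≤ 𝐍(WW F t E'))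
    {n : X} (hn : n ∈ F.NU) (hV : n ∈ 𝐍(F.V)) :
    ∃ γ ∈ K, γ ∈ 𝐍(WW F t E) ∧ γ ∈ 𝐍(WW F t E') ∧ α γ = n := by
  have f := c.fr
  have mul : ∀ {o k : G}, o ∈ K → α o = 1 → k ∈ K → α (o * k) = α k := fun ho e hk => by
    rw [f.mul _ (f.KN ho) _ (f.KN hk), e, one_mul]
  have CN : ∀ {o : G}, Od F t K α η o → o ∈ 𝐍(im η F.UV) := fun h =>
    centralizer_le_normalizer _ (m2_od h)
  obtain ⟨k, hk, kQ, ek⟩ := c.lf.liftN le_rfl hn.1 (F.nUV hn.2 hV)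
  obtain ⟨E1, c1, -, e1⟩ := c.m2_cj hk kQ (ek ▸ hn.2)
  obtain ⟨o1, ho1, e2⟩ := c1.t1 c
  rw [e1, cj_cj, cj_eq_self_iff] at e2
  have k1K := mul_mem ho1.mem hk
  have k1Q := mul_mem (CN ho1) kQ
  have k1e := (mul ho1.mem ho1.ker hk).trans ek
  generalize o1 * k = k1 at e2 k1K k1Q k1e
  have k1B := m2_nB c.lf k1K k1Q
  obtain ⟨o2, ho2, -, e3, -⟩ := c.t2 (W := WW F t E ^ᶜ k1) (B := zpowers t ⊔ im η F.UV)
    (c.m2_syl.cj_of_mem_normalizer (normalizer_le_normalizer_centralizer _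
      (m2_nsup (m2_nY c.lf k1K k1Q le_sup_left (k1e ▸ hn.2)) e2)))
    (m2_B2 c.lf) (mem_sup_left (mem_zpowers t)) le_sup_right
    (c.m2_BA le_sup_left (F.UVT.trans F.TU)) (m2_ncj k1B c.m2_BW) c.m2_BW
  rw [cj_cj, cj_eq_self_iff] at e3
  have k2K := mul_mem ho2.mem k1K
  have k2Q := mul_mem (CN ho2) k1Q
  have k2e := (mul ho2.mem ho2.ker k1K).trans k1e
  generalize o2 * k1 = k2 at e3 k2K k2Q k2e
  have hB1 : IsPGroup 2 (WW F t E ⊔ (zpowers t ⊔ im η F.UV) : Subgroup G) :=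
    isPGroup_sup_of_le_normalizer_left c.isP (m2_B2 c.lf) c.m2_BW
  have BW' : WW F t E ⊔ (zpowers t ⊔ im η F.UV) ≤ 𝐍(WW F t E') :=
    sup_le n2 (by have := c'.m2_BW; rwa [im_sw_UV] at this)
  have hs := c'.m2_syl
  have ht2 := fun W => c'.t2 (W := W) (B := WW F t E ⊔ (zpowers t ⊔ im η F.UV))
  rw [im_sw_U, hZ] at hs ht2
  rw [im_sw_UV] at ht2
  obtain ⟨o3, ho3, o3A, e4, e5⟩ := ht2 (WW F t E' ^ᶜ k2)
    (hs.cj_of_mem_normalizer (normalizer_le_normalizer_centralizer _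
      (m2_nsup (m2_nY c.lf k2K k2Q le_sup_right (k2e ▸ hV)) (c.m2_nZ e3 k2Q))))
    hB1 (mem_sup_right (mem_sup_left (mem_zpowers t))) (le_sup_right.trans le_sup_right)
    (sup_le c.m2_nA (c.m2_BA le_sup_right (F.UVT.trans F.TV)))
    (m2_ncj (m2_nsup e3 (m2_nB c.lf k2K k2Q)) BW') BW'
  rw [cj_cj, cj_eq_self_iff] at e4
  have o3Q : o3 ∈ 𝐂(im η F.UV) := by have := m2_od ho3; rwa [im_sw_UV] at this
  have o3N : o3 ∈ 𝐍(𝐂(im η F.U ⊔ ZZ F t E)) := normalizer_le_normalizer_centralizer _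
    (centralizer_le_normalizer _ (by
      rw [centralizer_sup]
      exact ⟨centralizer_anti (im_mono η le_sup_left) o3Q, centralizer_anti le_sup_right o3A⟩))
  have hP : IsPGroup 2 (WW F t E' ⊔ (WW F t E ⊔ (zpowers t ⊔ im η F.UV)) : Subgroup G) :=
    isPGroup_sup_of_le_normalizer_left c'.isP hB1 BW'
  have e6 := c.m2_syl.max _ (le_inf (le_sup_left.trans le_sup_right) c.m2_syl.le) inf_le_right
    hP.to_inf_left
  have o3W : o3 ∈ 𝐍(WW F t E) := mem_normalizer_of_cj_le (by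
    conv_rhs => rw [← e6]
    exact le_inf (e5 ▸ cj_mono o3 (le_sup_left.trans le_sup_right))
      (cj_le_of_mem_normalizer c.m2_syl.le o3N))
  exact ⟨o3 * k2, mul_mem ho3.mem k2K, mul_mem o3W e3, e4,
    (mul ho3.mem (F.sw_inj (ho3.ker.trans F.sw_one.symm)) k2K).trans k2e⟩

end Cl

theorem Cl.exists_mt (c : Cl F t N K α η E)
    (c' : Cl F t N K (fun g => F.sw (α g)) (fun x => η (F.sw x)) E') :
    ∃ E E', Mt F t N K α η E E' := by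
  obtain ⟨o, ho, e⟩ := c.t1' c'
  obtain ⟨E2, c2, -, hZ⟩ := c'.m2_cj ho.mem
    (by rw [im_sw_UV]; exact centralizer_le_normalizer _ (m2_od ho))
    (by rw [ho.ker, F.sw_one]; exact one_mem _)
  rw [e] at hZ
  have BW' := c2.m2_BW
  have nA := c2.m2_nA
  rw [im_sw_UV] at BW'
  rw [im_sw_V, hZ] at nA
  have BA := c.m2_BA le_sup_left (F.UVT.trans F.TU)
  obtain ⟨W, hW, nW⟩ := m2_inv_syl (L := 𝐂(im η F.U ⊔ ZZ F t E))
    (isPGroup_sup_of_le_normalizer_left c2.isP (m2_B2 c.lf) BW')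
    (le_normalizer_centralizer (sup_le nA BA))
  obtain ⟨o2, ho2, o2A, e2, -⟩ := c.t2 hW (m2_B2 c.lf) (mem_sup_left (mem_zpowers t)) le_sup_right BA
    (le_sup_right.trans nW) c.m2_BW
  obtain ⟨E1, c1, e3, e4⟩ := c.m2_cj (inv_mem ho2.mem)
    (inv_mem (centralizer_le_normalizer _ (m2_od ho2)))
    (by rw [c.fr.inv (c.fr.KN ho2.mem), ho2.ker, inv_one]; exact one_mem _)
  rw [← e2, cj_cj_inv] at e3
  rw [cj_eq_of_mem_centralizer (inv_mem (centralizer_anti le_sup_right o2A)), ← hZ] at e4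
  have n1 : WW F t E2 ≤ 𝐍(WW F t E1) := e3 ▸ le_sup_left.trans nW
  have hs := c2.m2_syl
  rw [im_sw_U, ← e4] at hs
  have e5 := hs.max _ (le_inf le_sup_right hs.le) inf_le_right
    (isPGroup_sup_of_le_normalizer_left c1.isP c2.isP n1).to_inf_left
  have n2 : WW F t E1 ≤ 𝐍(WW F t E2) := by
    conv_rhs => rw [← e5]
    exact le_normalizer_inf (le_normalizer_of_le le_sup_left) (le_normalizer_centralizer c1.m2_nA)
  exact ⟨E1, E2, c1, c2, fun a ha => c1.m2_ZW (e4 ▸ c2.m2_EZ ha), n1, n2,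
    fun n hn hV => c1.m2_nq c2 e4.symm n1 n2 hn hV⟩

end H60.ML
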