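import Mathlib
import Cfsg.Agent.Lib.McLy.Base2

set_option autoImplicit false
set_option linter.unusedSectionVars false

namespace H60.ML

open Subgroup H69 H36.SW
open scoped commutatorElement

universe u
variable {X : Type} [Group X] [Finite X] {G : Type u} [Group G] [Finite G]
variable {F : Fy X} {t : G} {N K : Subgroup G} {α : G → X} {η E E' ε : X → G} {R : Subgroup G}

theorem m3_cj (g a b : G) : g * (a * b) * g⁻¹ = g * a * g⁻¹ * (g * b * g⁻¹) := by group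

theorem m3_N {H : Type*} [Group H] {A : Subgroup H} {g a : H} (hg : g ∈ 𝐍(A)) (ha : a ∈ A) :
    g * a * g⁻¹ ∈ A := (mem_normalizer_iff.1 hg a).1 ha

theorem m3_i {H : Type*} [Group H] {a : H} (h : a * a = 1) : a⁻¹ = a := inv_eq_of_mul_eq_one_right h

theorem Cl.m3_eta (c : Cl F t N K α η E) {γ : G} (hγ : γ ∈ K) (hn : γ ∈ 𝐍(WW F t E)) {u : X}
    (hu : u ∈ F.U) : γ * η u * γ⁻¹ = η (α γ * u * (α γ)⁻¹) := by
  rw [← c.hat u hu, m3_cj, c.eqv γ hγ hn u hu, c.eqv' hγ hn hu,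
    c.hat _ (m3_N (mem_inf.1 (c.nU hγ hn)).2 hu)]

theorem Cl.m3_tW (c : Cl F t N K α η E) {g : G} (hg : g ∈ WW F t E) : t * g * t ∈ WW F t E := by
  have := m3_N c.tW hg
  rwa [c.fr.ti] at this

theorem Cl.m3_B (c : Cl F t N K α η E) {u v : X} (hu : u ∈ F.U) (hv : v ∈ F.U) :
    t * E (u * v) * t = t * E u * t * (t * E v * t) := by
  rw [c.mul u hu v hv]
  calc t * (E u * E v) * t = t * E u * (t * t) * E v * t := by rw [c.fr.t2]; group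
    _ = _ := by group

theorem Mt.m3_D (m : Mt F t N K α η E E') {γ : G} (hγ : γ ∈ K) (hn : γ ∈ 𝐍(WW F t E')) {v : X}
    (hv : v ∈ F.V) : γ * E' (F.sw v) * γ⁻¹ = E' (F.sw (α γ * v * (α γ)⁻¹)) := by
  rw [m.c'.eqv γ hγ hn _ (F.sw_V hv), F.sw_cj]

theorem Mt.m3_D' (m : Mt F t N K α η E E') {γ : G} (hγ : γ ∈ K) (hn : γ ∈ 𝐍(WW F t E')) {v : X}
    (hv : v ∈ F.V) : γ * (t * E' (F.sw v) * t) * γ⁻¹ = t * E' (F.sw (α γ * v * (α γ)⁻¹)) * t := by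
  rw [m.c'.eqv' hγ hn (F.sw_V hv), F.sw_cj]

theorem Mt.m3_z (m : Mt F t N K α η E E') : E' F.z = E F.z ∨ E' F.z = t * E F.z * t := by
  have c := m.c
  have zU := F.zU
  have h1 := c.tr zU
  have h2 := m.c'.tr zU
  simp only [F.sw_Z0 F.zZ] at h2
  have zW := m.zW _ F.zZ
  have gW : E F.z * E' F.z ∈ WW F t E := mul_mem (c.EW zU) zW
  have gt : E F.z * E' F.z * t = t * (E F.z * E' F.z) := by
    have e : E F.z * E' F.z * t * (E F.z * E' F.z)⁻¹ = t := by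
      calc E F.z * E' F.z * t * (E F.z * E' F.z)⁻¹
          = E F.z * (E' F.z * t * (E' F.z)⁻¹) * (E F.z)⁻¹ := by group
        _ = E F.z * t * (E F.z)⁻¹ * (E F.z * η F.z * (E F.z)⁻¹) := by rw [h2]; group
        _ = t * (η F.z * η F.z) := by rw [h1, c.Wc (c.EW zU) (c.ηW zU)]; group
        _ = t := by rw [c.lf.sq zU, mul_one]
    calc E F.z * E' F.z * t = E F.z * E' F.z * t * (E F.z * E' F.z)⁻¹ * (E F.z * E' F.z) := by group
      _ = _ := by rw [e]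
  obtain ⟨u, hu, e⟩ := c.CWt gW gt
  have fx : ∀ y ∈ F.T, y * u = u * y := by
    intro y hy
    obtain ⟨γ, hγ, n1, n2, rfl⟩ := m.nq y (F.TNU hy) (F.TV hy)
    have yz : α γ * F.z * (α γ)⁻¹ = F.z := by rw [F.cT _ hy]; group
    have a1 := c.eqv γ hγ n1 _ zU
    have a2 := m.m3_D hγ n2 (mem_inf.1 F.zZ).2
    rw [yz] at a1 a2
    rw [F.sw_Z0 F.zZ] at a2
    have a3 := c.m3_eta hγ n1 hu
    rw [← e, m3_cj, a1, a2, e] at a3
    have := c.lf.inj (F.mU hu) (F.mU (m3_N (mem_inf.1 (F.TNU hy)).2 hu)) a3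
    calc α γ * u = α γ * u * (α γ)⁻¹ * α γ := by group
      _ = _ := by rw [← this]
  have uZ : u ∈ F.Z0 := F.cenUV fun x hx => (fx x (F.UVT hx)).symm
  rcases F.cy1 uZ (fx _ F.y1T) with rfl | rfl
  · left
    rw [c.lf.one] at e
    rw [← c.Ei zU]
    exact (inv_eq_of_mul_eq_one_right e).symm
  · right
    rw [← c.hat _ zU] at e
    exact mul_left_cancel e

theorem Mt.m3_agr (m : Mt F t N K α η E E') (hz : E' F.z = E F.z) : ∀ c ∈ F.Z0, E' c = E c := by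
  have eZ : F.e ∈ 𝐍(F.Z0) := F.nZ0 F.eU F.eV
  have step : ∀ c ∈ F.Z0, E' c = E c → E' (F.e * c * F.e⁻¹) = E (F.e * c * F.e⁻¹) := by
    intro c hc h
    obtain ⟨γ, hγ, n1, n2, e⟩ := m.nq _ F.eNU F.eV
    have a1 := m.c.eqv γ hγ n1 _ (mem_inf.1 hc).1
    have a2 := m.m3_D hγ n2 (mem_inf.1 hc).2
    rw [e] at a1 a2
    rw [F.sw_Z0 hc, F.sw_Z0 (m3_N eZ hc)] at a2
    rw [← a1, ← a2, h]
  intro c hc
  by_cases h : c = 1
  · rw [h, m.c.one, m.c'.one]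
  rcases F.Ztr hc h with rfl | rfl | rfl
  · exact hz
  · exact step _ F.zZ hz
  · exact step _ (m3_N eZ F.zZ) (step _ F.zZ hz)

theorem Mt.exists_agr (m : Mt F t N K α η E E') :
    ∃ E', Mt F t N K α η E E' ∧ ∀ c ∈ F.Z0, E' c = E c := by
  rcases m.m3_z with h | h
  · exact ⟨E', m, m.m3_agr h⟩
  · obtain ⟨c', e⟩ := m.c'.tw
    have m' : Mt F t N K α η E (fun u => t * E' u * t) :=
      ⟨m.c, c', fun c hc => m.c.m3_tW (m.zW c hc), by rw [e]; exact m.n1, by rw [e]; exact m.n2,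
        by rw [e]; exact m.nq⟩
    refine ⟨_, m', m'.m3_agr ?_⟩
    show t * E' F.z * t = E F.z
    rw [h]
    calc t * (t * E F.z * t) * t = t * t * E F.z * (t * t) := by group
      _ = _ := by rw [m.c.fr.t2]; group

theorem m3_grp {W W' : Subgroup G} (Wc : ∀ {a b : G}, a ∈ W → b ∈ W → a * b = b * a)
    (Wc' : ∀ {a b : G}, a ∈ W' → b ∈ W' → a * b = b * a) (W2 : ∀ {a : G}, a ∈ W → a * a = 1)
    (n1 : W' ≤ 𝐍(W)) (n2 : W ≤ 𝐍(W')) (t2 : t * t = 1) {a b k : G} (ha : a ∈ W) (hb : b ∈ W')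
    (has : t * a * t ∈ W) (hbs : t * b * t ∈ W')
    (h1 : b * (t * b * t) * a * (b * (t * b * t))⁻¹ = k * a)
    (h2 : a * (t * a * t) * b * (a * (t * a * t))⁻¹ = k * b) :
    ∃ p ∈ W, p ∈ W' ∧ p * t = t * p ∧ a * (t * b * t) = p * (t * b * t * a) ∧
      b * a * b⁻¹ = a * (p * k) ∧ b * (t * a * t) * b⁻¹ = t * a * t * p := by
  have cW : ∀ {x y : G}, x ∈ W → y ∈ W' → x * y * x⁻¹ * y⁻¹ ∈ W ∧ x * y * x⁻¹ * y⁻¹ ∈ W' := by
    intro x y hx hy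
    refine ⟨?_, mul_mem (m3_N (n2 hx) hy) (inv_mem hy)⟩
    have := mul_mem hx (m3_N (n1 hy) (inv_mem hx))
    simpa only [mul_assoc] using this
  have ti : t⁻¹ = t := m3_i t2
  have tp : t * (a * (t * b * t) * a⁻¹ * (t * b * t)⁻¹) * t =
      t * a * t * b * (t * a * t)⁻¹ * b⁻¹ := by
    simp only [mul_inv_rev, ti, mul_assoc]
    rw [t2, mul_one]
  obtain ⟨p1, p1'⟩ := cW ha hbs
  obtain ⟨p2, p2'⟩ := cW ha hb
  obtain ⟨p3, p3'⟩ := cW has hb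
  generalize t * a * t = as at *
  generalize t * b * t = bs at *
  obtain ⟨p, hp⟩ : ∃ p, p = a * bs * a⁻¹ * bs⁻¹ := ⟨_, rfl⟩
  obtain ⟨r, hr⟩ : ∃ r, r = a * b * a⁻¹ * b⁻¹ := ⟨_, rfl⟩
  obtain ⟨s, hs⟩ : ∃ s, s = as * b * as⁻¹ * b⁻¹ := ⟨_, rfl⟩
  rw [← hp] at p1 p1' tp
  rw [← hr] at p2 p2'
  rw [← hs] at p3 p3' tp
  have pi := m3_i (W2 p1)
  have ri := m3_i (W2 p2)
  have e1 : bs * a * bs⁻¹ = p * a := by rw [← pi, hp]; group
  have e2 : b * a * b⁻¹ = r * a := by rw [← ri, hr]; group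
  have e3 : as * b * as⁻¹ = s * b := by rw [hs]; group
  have e4 : a * b * a⁻¹ = r * b := by rw [hr]; group
  have k1 : k = p * r := by
    have : k * a = p * r * a := by
      calc k * a = b * (bs * a * bs⁻¹) * b⁻¹ := by rw [← h1]; group
        _ = b * p * a * b⁻¹ := by rw [e1]; group
        _ = p * (b * a * b⁻¹) := by rw [Wc' hb p1']; group
        _ = _ := by rw [e2, mul_assoc]
    exact mul_right_cancel this
  have k2 : k = s * r := by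
    have : k * b = s * r * b := by
      calc k * b = a * (as * b * as⁻¹) * a⁻¹ := by rw [← h2]; group
        _ = a * s * b * a⁻¹ := by rw [e3]; group
        _ = s * (a * b * a⁻¹) := by rw [Wc ha p3]; group
        _ = _ := by rw [e4, mul_assoc]
    exact mul_right_cancel this
  have ps : p = s := mul_right_cancel (k1.symm.trans k2)
  refine ⟨p, p1, p1', ?_, by rw [hp]; group, ?_, ?_⟩
  · calc p * t = t * t * p * t := by rw [t2, one_mul]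
      _ = t * (t * p * t) := by group
      _ = _ := by rw [tp, ← ps]
  · rw [e2, k1, ← mul_assoc p, W2 p1, one_mul, Wc p2 ha]
  · rw [Wc has p1, ← pi, ps, hs]; group

/-- the commutator of `E u` and `t E' (sw v) t` -/
theorem Mt.m3_key (m : Mt F t N K α η E E') (agr : ∀ c ∈ F.Z0, E' c = E c) {u v : X} (hu : u ∈ F.U)
    (hv : v ∈ F.V) : ∃ l ∈ F.Z0,
      E u * (t * E' (F.sw v) * t) = η l * (t * E' (F.sw v) * t * E u) ∧
      E' (F.sw v) * E u * (E' (F.sw v))⁻¹ = E u * (η l * E (v * u * v⁻¹ * u⁻¹)) ∧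
      E' (F.sw v) * (t * E u * t) * (E' (F.sw v))⁻¹ = t * E u * t * η l := by
  have c := m.c
  have c' := m.c'
  have sv := F.sw_V hv
  have kZ := F.commZ hu hv
  have kk : v * u * v⁻¹ * u⁻¹ = u * v * u⁻¹ * v⁻¹ := by
    rw [← m3_i (F.U2 _ (mem_inf.1 kZ).1)]; group
  have h1 := c.ηE (F.mV hv) hu
  have h2 := c'.ηE (F.mV (F.sw_U hu)) sv
  have v1 := c'.hat _ sv
  simp only [F.sw_sw] at h2 v1
  rw [← v1, show v * u * v⁻¹ = u * v * u⁻¹ * v⁻¹ * u by rw [← kk]; group,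
    c.mul _ (mem_inf.1 kZ).1 _ hu] at h1
  rw [← c.hat u hu, ← F.sw_cj, show u * v * u⁻¹ = u * v * u⁻¹ * v⁻¹ * v by group, F.sw_mul,
    F.sw_Z0 kZ, c'.mul _ (mem_inf.1 kZ).1 _ sv, agr _ kZ] at h2
  obtain ⟨p, p1, p2, pt, a1, a2, a3⟩ := m3_grp c.Wc c'.Wc c.W2 m.n1 m.n2 c.fr.t2 (c.EW hu) (c'.EW sv)
    (c.tEW hu) (c'.tEW sv) h1 h2
  obtain ⟨l, hl, rfl⟩ := c.CWt p1 pt
  obtain ⟨l', hl', e⟩ := c'.CWt p2 pt
  have := c.lf.inj (F.mU hl) (F.mV (F.sw_U hl')) e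
  refine ⟨l, mem_inf.2 ⟨hl, this ▸ F.sw_U hl'⟩, a1, ?_, a3⟩
  rw [kk]; exact a2

theorem Mt.m3_eqv (m : Mt F t N K α η E E') {u v l n : X} (hu : u ∈ F.U) (hv : v ∈ F.V) (hl : l ∈ F.U)
    (hn : n ∈ F.NU) (hn' : n ∈ 𝐍(F.V))
    (h : E u * (t * E' (F.sw v) * t) = η l * (t * E' (F.sw v) * t * E u)) :
    E (n * u * n⁻¹) * (t * E' (F.sw (n * v * n⁻¹)) * t) =
      η (n * l * n⁻¹) * (t * E' (F.sw (n * v * n⁻¹)) * t * E (n * u * n⁻¹)) := by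
  obtain ⟨γ, hγ, n1, n2, rfl⟩ := m.nq n hn hn'
  rw [← m.c.eqv γ hγ n1 u hu, ← m.m3_D' hγ n2 hv, ← m.c.m3_eta hγ n1 hl, ← m3_cj, ← m3_cj, ← m3_cj, h]

theorem Mt.m3_Z (m : Mt F t N K α η E E') (agr : ∀ c ∈ F.Z0, E' c = E c) {u v a b : X} {p : G}
    (hu : u ∈ F.U) (hv : v ∈ F.V) (ha : a ∈ F.Z0) (hb : b ∈ F.Z0)
    (h : E u * (t * E' (F.sw v) * t) = p * (t * E' (F.sw v) * t * E u)) :
    E (u * a) * (t * E' (F.sw (v * b)) * t) = p * (t * E' (F.sw (v * b)) * t * E (u * a)) := by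
  have c := m.c
  have c' := m.c'
  have sv := F.sw_V hv
  have aU := (mem_inf.1 ha).1
  have bU := (mem_inf.1 hb).1
  rw [c.mul u hu a aU, F.sw_mul, F.sw_Z0 hb, c'.m3_B sv bU, agr b hb]
  have e1 : E a * (t * E' (F.sw v) * t) = t * E' (F.sw v) * t * E a :=
    c'.Wc (agr a ha ▸ c'.EW aU) (c'.tEW sv)
  have e2 := c.cm a aU b bU
  have e3 := c.cm u hu b bU
  generalize t * E' (F.sw v) * t = y at *
  generalize t * E b * t = w at *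
  calc E u * E a * (y * w) = E u * (E a * y) * w := by group
    _ = E u * y * (E a * w) := by rw [e1]; group
    _ = p * (y * (E u * w) * E a) := by rw [h, e2]; group
    _ = _ := by rw [e3]; group

theorem Mt.m3_triv (m : Mt F t N K α η E E') (agr : ∀ c ∈ F.Z0, E' c = E c) {u v : X}
    (hu : u ∈ F.U) (hv : v ∈ F.V) (h : u ∈ F.V ∨ v ∈ F.U) :
    E u * (t * E' (F.sw v) * t) = t * E' (F.sw v) * t * E u := by
  rcases h with h | h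
  · exact m.c'.Wc (agr u (mem_inf.2 ⟨hu, h⟩) ▸ m.c'.EW hu) (m.c'.tEW (F.sw_V hv))
  · have vZ : v ∈ F.Z0 := mem_inf.2 ⟨h, hv⟩
    rw [F.sw_Z0 vZ, agr v vZ]
    exact m.c.cm u hu v h

theorem Mt.m3_pr (m : Mt F t N K α η E E') (agr : ∀ c ∈ F.Z0, E' c = E c) {l : X} (hl : l ∈ F.U)
    (h : E F.q * (t * E' (F.sw F.y2) * t) = η l * (t * E' (F.sw F.y2) * t * E F.q)) {u v : X}
    (hu : u ∈ F.U) (hv : v ∈ F.V) (hu' : u ∉ F.V) (hv' : v ∉ F.U) :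
    ∃ n, v * u * v⁻¹ * u⁻¹ = n * F.z * n⁻¹ ∧
      E u * (t * E' (F.sw v) * t) = η (n * l * n⁻¹) * (t * E' (F.sw v) * t * E u) := by
  obtain ⟨n, nJ, nU, nV, a, b⟩ := F.pr u hu hu' v hv hv'
  have qU := m3_N nU F.qU
  have yV := m3_N nV F.y2V
  have h1 := m.m3_Z agr qU yV a b (m.m3_eqv F.qU F.y2V hl (mem_inf.2 ⟨nJ, nU⟩) nV h)
  rw [mul_inv_cancel_left, mul_inv_cancel_left] at h1
  refine ⟨n, ?_, h1⟩
  have hz : F.y2 * F.q * F.y2⁻¹ * F.q⁻¹ = F.z := by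
    rw [m3_i F.y22, F.qy2, F.Uc F.qU F.zU]; group
  have a1 := F.Zc a (F.mV yV)
  have b1 := F.Zc b (F.mU hu)
  obtain ⟨a', ha'⟩ : ∃ a', a' = (n * F.q * n⁻¹)⁻¹ * u := ⟨_, rfl⟩
  obtain ⟨b', hb'⟩ : ∃ b', b' = (n * F.y2 * n⁻¹)⁻¹ * v := ⟨_, rfl⟩
  rw [← ha'] at a1
  rw [← hb'] at b1
  have eu : u = n * F.q * n⁻¹ * a' := by rw [ha']; group
  have ev : v = n * F.y2 * n⁻¹ * b' := by rw [hb']; group
  calc v * u * v⁻¹ * u⁻¹ = n * F.y2 * n⁻¹ * (b' * u) * b'⁻¹ * (n * F.y2 * n⁻¹)⁻¹ * u⁻¹ := by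
        rw [ev]; group
    _ = n * F.y2 * n⁻¹ * u * (n * F.y2 * n⁻¹)⁻¹ * u⁻¹ := by rw [b1]; group
    _ = n * F.y2 * n⁻¹ * (n * F.q * n⁻¹) * (n * F.y2 * n⁻¹)⁻¹ *
          (n * F.y2 * n⁻¹ * a') * (n * F.y2 * n⁻¹)⁻¹ * a'⁻¹ * (n * F.q * n⁻¹)⁻¹ := by
        rw [eu]; group
    _ = _ := by rw [← a1, ← hz]; group

/-- the twisted action -/
structure M3Tw (F : Fy X) (t : G) (η E : X → G) (g : G) (y : X) : Prop where
  n : g ∈ 𝐍(WW F t E)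
  a : ∀ u ∈ F.U, g * E u * g⁻¹ = E u * (t * E (y * u * y⁻¹ * u⁻¹) * t)
  b : ∀ u ∈ F.U, g * (t * E u * t) * g⁻¹ = t * E u * t * η (y * u * y⁻¹ * u⁻¹)

theorem M3Tw.m3_tr (c : Cl F t N K α η E) {g : G} {y y' n : X} (h : M3Tw F t η E g y) (hy : y ∈ 𝐍(F.U))
    (hy' : y' ∈ 𝐍(F.U)) (hn : n ∈ F.NU) (e : n * y * n⁻¹ * y'⁻¹ ∈ F.U) :
    ∃ g', M3Tw F t η E g' y' := by
  obtain ⟨γ, hγ, hN, rfl⟩ := c.cov n hn
  have nU := (mem_inf.1 hn).2
  have key : ∀ u ∈ F.U, ∃ u0 ∈ F.U, u = α γ * u0 * (α γ)⁻¹ ∧ y * u0 * y⁻¹ * u0⁻¹ ∈ F.U ∧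
      y' * u * y'⁻¹ * u⁻¹ = α γ * (y * u0 * y⁻¹ * u0⁻¹) * (α γ)⁻¹ := by
    intro u hu
    have h0 : (α γ)⁻¹ * u * (α γ)⁻¹⁻¹ ∈ F.U := m3_N (inv_mem nU) hu
    refine ⟨_, h0, by group, mul_mem (m3_N hy h0) (inv_mem h0), ?_⟩
    have := F.Uc e (m3_N hy' hu)
    calc y' * u * y'⁻¹ * u⁻¹ = (α γ * y * (α γ)⁻¹ * y'⁻¹) * (y' * u * y'⁻¹) *
          (α γ * y * (α γ)⁻¹ * y'⁻¹)⁻¹ * u⁻¹ := by rw [this]; group
      _ = _ := by group
  refine ⟨γ * g * γ⁻¹, mul_mem (mul_mem hN h.n) (inv_mem hN), fun u hu => ?_, fun u hu => ?_⟩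
  · obtain ⟨u0, h0, e1, k, e2⟩ := key u hu
    rw [e2, e1, ← c.eqv γ hγ hN u0 h0, ← c.eqv' hγ hN k, ← m3_cj γ (E u0), ← h.a u0 h0]; group
  · obtain ⟨u0, h0, e1, k, e2⟩ := key u hu
    rw [e2, e1, ← c.eqv' hγ hN h0, ← c.m3_eta hγ hN k, ← m3_cj γ (t * E u0 * t), ← h.b u0 h0]
    group

theorem m3_abs {W : Subgroup G} (Wc : ∀ {a b : G}, a ∈ W → b ∈ W → a * b = b * a)
    (W2 : ∀ {a : G}, a ∈ W → a * a = 1) (σ1 σ2 σ3 : G ≃* G) {az aq ar aw bz bq br bw : G}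
    (m1 : az ∈ W) (m2 : aq ∈ W) (m3 : ar ∈ W) (m4 : aw ∈ W)
    (m5 : bz ∈ W) (m6 : bq ∈ W) (m7 : br ∈ W) (m8 : bw ∈ W)
    (a1 : σ1 az = az) (a2 : σ1 aq = aq) (a3 : σ1 ar = ar * bz) (a4 : σ1 aw = aw * bq)
    (a5 : σ1 bz = bz) (a6 : σ1 bq = bq) (a7 : σ1 br = br * (az * bz)) (a8 : σ1 bw = bw * (aq * bq))
    (b1 : σ2 az = az) (b2 : σ2 aq = aq * bz) (b3 : σ2 ar = ar) (b4 : σ2 aw = aw * br)
    (b5 : σ2 bz = bz) (b6 : σ2 bq = bq * (az * bz)) (b7 : σ2 br = br) (b8 : σ2 bw = bw * (ar * br))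
    (c1 : σ3 az = az) (c2 : σ3 aq = aq * bz) (c3 : σ3 ar = ar * bz) (c4 : σ3 aw = aw * (bq * br * bz))
    (c5 : σ3 bz = bz) (c6 : σ3 bq = bq * (az * bz)) (c7 : σ3 br = br * (az * bz))
    (c8 : σ3 bw = bw * (aq * ar * az * (bq * br * bz))) :
    (σ1 (σ2 (σ3 az)) = az ∧ σ1 (σ2 (σ3 bz)) = bz) ∧ (σ1 (σ2 (σ3 aq)) = aq ∧ σ1 (σ2 (σ3 bq)) = bq) ∧
      (σ1 (σ2 (σ3 ar)) = ar ∧ σ1 (σ2 (σ3 br)) = br) ∧
      σ1 (σ2 (σ3 aw)) = aw * az ∧ σ1 (σ2 (σ3 bw)) = bw * bz := by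
  lift az to W using m1
  lift aq to W using m2
  lift ar to W using m3
  lift aw to W using m4
  lift bz to W using m5
  lift bq to W using m6
  lift br to W using m7
  lift bw to W using m8
  have mc : ∀ a b : W, a * b = b * a := fun a b => Subtype.ext (Wc a.2 b.2)
  have ml : ∀ a b c : W, a * (b * c) = b * (a * c) := fun a b c => by
    rw [← mul_assoc, mc a b, mul_assoc]
  have s1 : ∀ a : W, a * a = 1 := fun a => Subtype.ext (W2 a.2)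
  have s2 : ∀ a b : W, a * (a * b) = b := fun a b => by rw [← mul_assoc, s1, one_mul]
  simp only [c1, c2, c3, c4, c5, c6, c7, c8, map_mul, b1, b2, b3, b4, b5, b6, b7, b8,
    a1, a2, a3, a4, a5, a6, a7, a8]
  norm_cast
  simp only [mul_assoc, mc, ml, s1, s2, mul_one, one_mul, and_self]

theorem M3Tw.m3_val (c : Cl F t N K α η E) {g : G} {y u k : X} (h : M3Tw F t η E g y) (hu : u ∈ F.U)
    (hk : k ∈ F.U) (e : y * u * y⁻¹ = u * k) :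
    MulAut.conj g (E u) = E u * (t * E k * t) ∧
      MulAut.conj g (t * E u * t) = t * E u * t * (E k * (t * E k * t)) := by
  have e' : y * u * y⁻¹ * u⁻¹ = k := by rw [e, F.Uc hu hk]; group
  rw [MulAut.conj_apply, MulAut.conj_apply, h.a u hu, h.b u hu, e', c.hat k hk]
  exact ⟨rfl, rfl⟩

theorem M3Tw.m3_fix (c : Cl F t N K α η E) {g : G} {y u : X} (h : M3Tw F t η E g y) (hu : u ∈ F.U)
    (e : y * u * y⁻¹ = u) :
    MulAut.conj g (E u) = E u ∧ MulAut.conj g (t * E u * t) = t * E u * t := by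
  have := h.m3_val c hu (one_mem _) (by rw [e, mul_one])
  simpa only [c.one, mul_one, c.fr.t2] using this

theorem Cl.m3_no (c : Cl F t N K α η E) {g2 : G} (h2 : M3Tw F t η E g2 F.y2) : False := by
  have y1N := F.TU F.y1T
  have y2N := F.TU F.y2T
  obtain ⟨n1, j1, u1, e1⟩ := F.n1
  obtain ⟨n2, j2, u2, e2⟩ := F.n2
  obtain ⟨g1, h1⟩ := h2.m3_tr c y2N y1N (mem_inf.2 ⟨j1, u1⟩) e1
  obtain ⟨g3, h3⟩ := h2.m3_tr c y2N (mul_mem y1N y2N) (mem_inf.2 ⟨j2, u2⟩) e2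
  have zU := F.zU
  have qU := F.qU
  have rU := F.rU
  have wU := F.wU
  have z1 : F.y1 * F.z * F.y1⁻¹ = F.z := by rw [F.cT _ F.y1T]; group
  have q1 : F.y1 * F.q * F.y1⁻¹ = F.q := by rw [← F.qy1]; group
  have r1 : F.y1 * F.r * F.y1⁻¹ = F.r * F.z := by rw [m3_i F.y11, F.ry1]
  have w1 : F.y1 * F.w * F.y1⁻¹ = F.w * F.q := by rw [m3_i F.y11, F.wy1]
  have z2 : F.y2 * F.z * F.y2⁻¹ = F.z := by rw [F.cT _ F.y2T]; group
  have q2 : F.y2 * F.q * F.y2⁻¹ = F.q * F.z := by rw [m3_i F.y22, F.qy2]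
  have r2 : F.y2 * F.r * F.y2⁻¹ = F.r := by rw [← F.ry2]; group
  have w2 : F.y2 * F.w * F.y2⁻¹ = F.w * F.r := by rw [m3_i F.y22, F.wy2]
  have cj : ∀ u, F.y1 * F.y2 * u * (F.y1 * F.y2)⁻¹ = F.y1 * (F.y2 * u * F.y2⁻¹) * F.y1⁻¹ :=
    fun u => by group
  have cm : ∀ a b, F.y1 * (a * b) * F.y1⁻¹ = F.y1 * a * F.y1⁻¹ * (F.y1 * b * F.y1⁻¹) :=
    fun a b => by group
  have z3 : F.y1 * F.y2 * F.z * (F.y1 * F.y2)⁻¹ = F.z := by rw [cj, z2, z1]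
  have q3 : F.y1 * F.y2 * F.q * (F.y1 * F.y2)⁻¹ = F.q * F.z := by rw [cj, q2, cm, q1, z1]
  have r3 : F.y1 * F.y2 * F.r * (F.y1 * F.y2)⁻¹ = F.r * F.z := by rw [cj, r2, r1]
  have w3 : F.y1 * F.y2 * F.w * (F.y1 * F.y2)⁻¹ = F.w * (F.q * F.r * F.z) := by
    rw [cj, w2, cm, w1, r1]; group
  have c4 := h3.m3_val c wU (mul_mem (mul_mem qU rU) zU) w3
  rw [c.m3_B (mul_mem qU rU) zU, c.m3_B qU rU, c.mul _ (mul_mem qU rU) _ zU, c.mul _ qU _ rU] at c4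
  obtain ⟨⟨xz, xz'⟩, ⟨xq, xq'⟩, ⟨xr, xr'⟩, xw, xw'⟩ :=
    m3_abs c.Wc c.W2 (MulAut.conj g1) (MulAut.conj g2) (MulAut.conj g3)
      (c.EW zU) (c.EW qU) (c.EW rU) (c.EW wU) (c.tEW zU) (c.tEW qU) (c.tEW rU) (c.tEW wU)
      (h1.m3_fix c zU z1).1 (h1.m3_fix c qU q1).1 (h1.m3_val c rU zU r1).1 (h1.m3_val c wU qU w1).1
      (h1.m3_fix c zU z1).2 (h1.m3_fix c qU q1).2 (h1.m3_val c rU zU r1).2 (h1.m3_val c wU qU w1).2
      (h2.m3_fix c zU z2).1 (h2.m3_val c qU zU q2).1 (h2.m3_fix c rU r2).1 (h2.m3_val c wU rU w2).1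
      (h2.m3_fix c zU z2).2 (h2.m3_val c qU zU q2).2 (h2.m3_fix c rU r2).2 (h2.m3_val c wU rU w2).2
      (h3.m3_fix c zU z3).1 (h3.m3_val c qU zU q3).1 (h3.m3_val c rU zU r3).1 c4.1
      (h3.m3_fix c zU z3).2 (h3.m3_val c qU zU q3).2 (h3.m3_val c rU zU r3).2 c4.2
  have xN : g1 * g2 * g3 ∈ 𝐍(WW F t E) := mul_mem (mul_mem h1.n h2.n) h3.n
  have hx : ∀ a, MulAut.conj g1 (MulAut.conj g2 (MulAut.conj g3 a)) =
      g1 * g2 * g3 * a * (g1 * g2 * g3)⁻¹ := fun a => by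
    simp only [MulAut.conj_apply]; group
  simp only [hx] at xz xz' xq xq' xr xr' xw xw'
  generalize g1 * g2 * g3 = x at *
  have t2 := c.fr.t2
  have tm : ∀ a b : G, t * (a * b) * t = t * a * t * (t * b * t) := fun a b => by
    calc t * (a * b) * t = t * a * (t * t) * b * t := by rw [t2]; group
      _ = _ := by group
  have tt : ∀ a : G, t * (t * a * t) * t = a := fun a => by
    calc t * (t * a * t) * t = t * t * a * (t * t) := by group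
      _ = _ := by rw [t2]; group
  have hp : ∀ u ∈ F.U, x * (t * E u * t) * x⁻¹ = t * (x * E u * x⁻¹) * t := by
    intro u hu
    have hU := F.hU
    have hu' := hu
    rw [hU] at hu'
    induction hu' using closure_induction with
    | mem a ha =>
      rcases ha with rfl | rfl | rfl | rfl
      · rw [xz, xz']
      · rw [xq, xq']
      · rw [xr, xr']
      · rw [xw, xw', tm]
    | one => rw [c.one]; simp only [mul_one, t2, mul_inv_cancel]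
    | mul a b ha hb ia ib =>
      rw [← hU] at ha hb
      rw [c.m3_B ha hb, c.mul a ha b hb, m3_cj x (t * E a * t), m3_cj x (E a), ia ha, ib hb,
        tm (x * E a * x⁻¹)]
    | inv a ha ia =>
      rw [← hU] at ha
      rw [m3_i (F.U2 a ha)]
      exact ia ha
  obtain ⟨n, hn, e⟩ := c.act xN fun w hw => by
    obtain ⟨a, ha, b, hb, rfl⟩ := c.memW.1 hw
    rw [tm (E a), tt, m3_cj x (t * E a * t), m3_cj x (E a), tm (x * E a * x⁻¹), hp a ha, hp b hb, tt]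
  have nU := (mem_inf.1 hn).2
  have fx : ∀ u ∈ F.U, x * E u * x⁻¹ = E u → x * (t * E u * t) * x⁻¹ = t * E u * t → n * u = u * n := by
    intro u hu a b
    have := e u hu
    rw [← c.hat u hu, m3_cj, a, b, c.hat u hu] at this
    have := c.lf.inj (F.mU hu) (F.mU (m3_N nU hu)) this
    calc n * u = n * u * n⁻¹ * n := by group
      _ = _ := by rw [← this]
  have nU' := F.cpqr n (fx _ zU xz xz') (fx _ qU xq xq') (fx _ rU xr xr')
  have := e _ wU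
  rw [F.Uc nU' wU, mul_inv_cancel_right, ← c.hat _ wU, m3_cj, xw, xw', ← c.mul _ wU _ zU,
    ← c.m3_B wU zU] at this
  have := (c.W_inj (mul_mem wU zU) (mul_mem wU zU) wU wU this).1
  exact F.z1 (by simpa using this)

theorem Mt.cm (m : Mt F t N K α η E E') (agr : ∀ c ∈ F.Z0, E' c = E c) {u u' : X} (hu : u ∈ F.U)
    (hu' : u' ∈ F.U) : E u * (t * E' u' * t) = t * E' u' * t * E u := by
  have c := m.c
  obtain ⟨l, hl, h, -, -⟩ := m.m3_key agr F.qU F.y2V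
  have lU := (mem_inf.1 hl).1
  have h1 := m.m3_eqv F.qU F.y2V lU (F.TNU F.y1T) (F.TV F.y1T) h
  rw [show F.y1 * F.q * F.y1⁻¹ = F.q by rw [← F.qy1]; group,
    show F.y1 * F.y2 * F.y1⁻¹ = F.y2 by rw [F.y12]; group, h] at h1
  have h2 := c.lf.inj (F.mU lU) (F.mU (m3_N (F.TU F.y1T) lU)) (mul_right_cancel h1)
  have h3 : F.y1 * l = l * F.y1 := by
    calc F.y1 * l = F.y1 * l * F.y1⁻¹ * F.y1 := by group
      _ = _ := by rw [← h2]
  rcases F.cy1 hl h3 with rfl | rfl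
  · have hv := F.sw_U hu'
    rw [← F.sw_sw u']
    by_cases a : u ∈ F.V ∨ F.sw u' ∈ F.U
    · exact m.m3_triv agr hu hv a
    · obtain ⟨n, -, e⟩ := m.m3_pr agr lU h hu hv (fun x => a (Or.inl x)) fun x => a (Or.inr x)
      rwa [mul_one, mul_inv_cancel, c.lf.one, one_mul] at e
  · exfalso
    have key : ∀ u ∈ F.U,
        E' (F.sw F.y2) * E u * (E' (F.sw F.y2))⁻¹ = E u * (t * E (F.y2 * u * F.y2⁻¹ * u⁻¹) * t) ∧
        E' (F.sw F.y2) * (t * E u * t) * (E' (F.sw F.y2))⁻¹ =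
          t * E u * t * η (F.y2 * u * F.y2⁻¹ * u⁻¹) := by
      intro u hu
      obtain ⟨l, hl, a1, a2, a3⟩ := m.m3_key agr hu F.y2V
      have lU := (mem_inf.1 hl).1
      have kU : F.y2 * u * F.y2⁻¹ * u⁻¹ ∈ F.U := mul_mem (m3_N (F.TU F.y2T) hu) (inv_mem hu)
      have e : l = F.y2 * u * F.y2⁻¹ * u⁻¹ := by
        apply c.lf.inj (F.mU lU) (F.mU kU)
        by_cases a : u ∈ F.V
        · rw [m.m3_triv agr hu F.y2V (Or.inl a)] at a1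
          rw [F.Vc F.y2V a, mul_inv_cancel_right, mul_inv_cancel, c.lf.one]
          exact (mul_eq_right.1 a1.symm)
        · obtain ⟨n, e1, e2⟩ := m.m3_pr agr F.zU h hu F.y2V a F.y2U
          rw [e1]
          exact mul_right_cancel (a1.symm.trans e2)
      rw [← e]
      rw [← e] at a2
      refine ⟨?_, a3⟩
      rw [a2, ← c.hat l lU, c.cm l lU l lU, mul_assoc (t * E l * t), c.sq lU, mul_one]
    exact c.m3_no ⟨m.n1 (m.c'.EW (F.sw_V F.y2V)), fun u hu => (key u hu).1, fun u hu => (key u hu).2⟩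

end H60.ML
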