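import Mathlib
import Cfsg.Agent.Lib.McLy.Base2

set_option autoImplicit false
set_option linter.unusedSectionVars false

namespace H60.ML

open Subgroup H69 H36.SW
open scoped commutatorElement

universe u
variable {X : Type} [Group X] [Finite X] {G : Type u} [Group G] [Finite G]
variable {F : Fy X} {t : G} {N K : Subgroup G} {α : G → X} {η E E' ε : X → G} {R : Subgroup G}

theorem Mt.m4_wd (m : Mt F t N K α η E E') (agr : ∀ c ∈ F.Z0, E' c = E c) {u v u' v' : X} (hu : u ∈ F.U)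
    (hv : v ∈ F.V) (hu' : u' ∈ F.U) (hv' : v' ∈ F.V) (e : u * v = u' * v') :
    E u * E' (F.sw v) = E u' * E' (F.sw v') := by
  have e1 : u'⁻¹ * u = v' * v⁻¹ := by rw [eq_mul_inv_iff_mul_eq, mul_assoc, e, inv_mul_cancel_left]
  have hc : u'⁻¹ * u ∈ F.Z0 := mem_inf.2 ⟨mul_mem (inv_mem hu') hu, e1 ▸ mul_mem hv' (inv_mem hv)⟩
  have e2 : v' = u'⁻¹ * u * v := by rw [e1, inv_mul_cancel_right]
  rw [e2, F.sw_mul, F.sw_Z0 hc, m.c'.mul _ hc.1 _ (F.sw_V hv), agr _ hc, ← mul_assoc, ← m.c.mul _ hu' _ hc.1,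
    mul_inv_cancel_left]

theorem Mt.m4_cj (m : Mt F t N K α η E E')
    (cm : ∀ u ∈ F.U, ∀ u' ∈ F.U, E u * (t * E' u' * t) = t * E' u' * t * E u) {u v : X} (hu : u ∈ F.U)
    (hv : v ∈ F.V) : E (v * u * v⁻¹) * E' (F.sw v) = E' (F.sw v) * E u := by
  have h := m.c'.hat _ (F.sw_V hv)
  simp only [F.sw_sw] at h
  have c := cm u hu _ (F.sw_V hv)
  rw [← m.c.ηE (F.mV hv) hu, ← h, mul_assoc (E' _), ← c]
  group

theorem Mt.exists_dq (m : Mt F t N K α η E E') (agr : ∀ c ∈ F.Z0, E' c = E c)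
    (cm : ∀ u ∈ F.U, ∀ u' ∈ F.U, E u * (t * E' u' * t) = t * E' u' * t * E u) :
    ∃ ε, Dq F t N K α η ε := by
  classical
  obtain ⟨ε, h⟩ : ∃ ε : X → G, ∀ u ∈ F.U, ∀ v ∈ F.V, ε (u * v) = E u * E' (F.sw v) := by
    choose a ha b hb e using fun x : F.UV => F.mem_UV.1 x.2
    refine ⟨fun x => if h : x ∈ F.UV then E (a ⟨x, h⟩) * E' (F.sw (b ⟨x, h⟩)) else 1, fun u hu v hv => ?_⟩
    have k : u * v ∈ F.UV := mul_mem (F.mU hu) (F.mV hv)
    simp only [dif_pos k]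
    exact m.m4_wd agr (ha _) (hb _) hu hv (e ⟨_, k⟩).symm
  have h1 : ∀ u ∈ F.U, E u = ε u := fun u hu => by
    have := h u hu 1 (one_mem _)
    rw [mul_one, F.sw_one, m.c'.one, mul_one] at this
    exact this.symm
  have h2 : ∀ u ∈ F.U, E' u = ε (F.sw u) := fun u hu => by
    have := h 1 (one_mem _) _ (F.sw_U hu)
    rw [one_mul, F.sw_sw, m.c.one, one_mul] at this
    exact this.symm
  have t2 := m.c.fr.t2
  refine ⟨ε, m.c.congr h1, m.c'.congr h2, fun x hx y hy => ?_, fun x hx y hy => ?_, fun n hn hn' => ?_⟩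
  · obtain ⟨u, hu, v, hv, rfl⟩ := F.mem_UV.1 hx
    obtain ⟨u', hu', v', hv', rfl⟩ := F.mem_UV.1 hy
    have k : v * u' * v⁻¹ ∈ F.U := (mem_normalizer_iff.1 (F.TU (F.VT hv)) u').1 hu'
    rw [show u * v * (u' * v') = u * (v * u' * v⁻¹) * (v * v') by group, h _ (mul_mem hu k) _ (mul_mem hv hv'),
      h _ hu _ hv, h _ hu' _ hv', F.sw_mul, m.c'.mul _ (F.sw_V hv) _ (F.sw_V hv'), m.c.mul _ hu _ k, mul_assoc,
      ← mul_assoc (E (v * u' * v⁻¹)), m.m4_cj cm hu' hv]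
    simp only [mul_assoc]
  · obtain ⟨u, hu, v, hv, rfl⟩ := F.mem_UV.1 hx
    obtain ⟨u', hu', v', hv', rfl⟩ := F.mem_UV.1 hy
    have e : ∀ a b : G, t * (a * b) * t = t * a * t * (t * b * t) := fun a b => by
      rw [show t * a * t * (t * b * t) = t * a * (t * t) * b * t by group, t2]; group
    have c1 : Commute (E u) (t * E u' * t) := m.c.cm u hu u' hu'
    have c2 : Commute (E u) (t * E' (F.sw v') * t) := cm u hu _ (F.sw_V hv')
    have c3 : Commute (E' (F.sw v)) (t * E' (F.sw v') * t) := m.c'.cm _ (F.sw_V hv) _ (F.sw_V hv')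
    have c4 : Commute (E' (F.sw v)) (t * E u' * t) := by
      have k := congrArg (fun g => t * g * t) (cm u' hu' _ (F.sw_V hv))
      have s : ∀ a : G, t * (t * a * t) * t = a := fun a => by
        rw [show t * (t * a * t) * t = t * t * a * (t * t) by group, t2, one_mul, mul_one]
      beta_reduce at k
      rw [e (E u'), e (t * _ * t), s] at k
      exact k.symm
    rw [h _ hu _ hv, h _ hu' _ hv', e]
    exact ((c1.mul_right c2).mul_left (c4.mul_right c3)).eq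
  · rw [← WW_congr h1, ← WW_congr h2]
    exact m.nq n hn hn'

end H60.ML
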