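import Mathlib
import Cfsg.Agent.Lib.McLy.Mod1
import Cfsg.Agent.Lib.McLy.DefB

/-! The checks which give `Fy`, and their meaning. -/

set_option autoImplicit false
set_option linter.unusedSectionVars false

namespace H60.ML

open Subgroup H69 H54 Function H92.SW H36.SW
open scoped commutatorElement

local notation "TL" => ([1, 2, 3, 4, 5, 6, 12] : List ℕ)
local notation "SL" => ([1, 2, 3, 4, 5, 6, 12, 80] : List ℕ)
local notation "UL" => ([1, 2, 3, 4] : List ℕ)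
local notation "VL" => ([14, 15, 16, 17] : List ℕ)
local notation "QL" => ([1, 2, 3, 4, 14, 15, 16, 17] : List ℕ)
local notation "NL" => ([1, 2, 3, 4, 7, 8, 9, 11] : List ℕ)
local notation "ZL" => ([1, 2, 3, 4, 7, 8, 9] : List ℕ)
local notation "CL" => ([1, 3] : List ℕ)
local infixr:35 " &&& " => band
local infixr:30 " ||| " => bor
local infixr:25 " ==> " => bimp

def mod_W0 : List (List ℕ) := [[], [1], [2], [3], [4], [1, 2], [1, 3], [1, 4], [2, 3], [2, 4], [3, 4],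
  [1, 2, 3], [1, 2, 4], [1, 3, 4], [2, 3, 4], [1, 2, 3, 4]]
def mod_W1 : List (List ℕ) := [[], [14], [15], [16], [17], [14, 15], [14, 16], [14, 17], [15, 16],
  [15, 17], [16, 17], [14, 15, 16], [14, 15, 17], [14, 16, 17], [15, 16, 17], [14, 15, 16, 17]]
def mod_W2 : List (List ℕ) := [[], [11], [7, 7, 11], [7, 8, 9, 11], [7, 9, 11], [11, 8, 11],
  [8, 11, 11], [9, 11], [7, 11, 11], [11, 11], [8, 11], [8, 9, 11], [7, 11, 8, 11], [9, 7, 11], [7, 11]]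
def mod_W3 : List (List ℕ) := [[], [7, 7], [7, 8, 9], [7, 9], [7, 9, 7], [7, 8, 8], [9], [8, 8],
  [7, 7, 7], [8], [8, 9], [7, 7, 9, 7], [9, 7], [7]]
def mod_W4 : List (List ℕ) := [[], [7, 7, 9, 7, 9, 7, 7], [9, 8, 7, 9, 7, 8], [7, 7, 9, 7, 7, 7],
  [7, 7, 9, 8, 7, 8, 7], [7, 8], [9, 8, 7, 9], [7, 9, 7, 9], [7, 9, 7, 9, 7, 8],
  [8, 7, 7, 9, 7, 8, 7], [7, 7, 9, 8, 7, 7], [7, 8, 7, 8]]
def mod_W5 : List (List ℕ) := [[], [7, 7, 7, 7, 9, 7], [8, 7, 8, 7, 9, 7], [8, 7, 7, 7], [9],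
  [8, 9, 7, 9], [9, 8, 7, 7, 7], [7, 9, 7, 9, 7, 8, 7], [8, 8, 7, 9], [8, 7, 7, 7, 9], [8, 9, 7],
  [8, 8, 7]]
def mod_W6 : List (List ℕ) := [[], [17], [14, 16], [1, 16]]
def mod_W7 : List (List ℕ) := [[], [11, 8, 11, 8], [7, 7, 11, 7, 7], [8, 8, 11, 11], [8, 7, 7, 7],
  [11, 8, 11, 7], [11, 9, 7, 9, 11], [11, 11, 11, 7], [8, 8, 7]]
def mod_W8 : List (List ℕ) := [[8, 9], [7, 9, 7, 9], [9, 8]]
def mod_WZ : List (List ℕ) := [[], [1], [3], [1, 3]]
def mod_WT : List (List ℕ) := [[1], [1, 6], [3], [6, 12], [1, 5], [1, 2], [1, 2, 4], [6], [1, 3, 6], [12]]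
def mod_WM : List (List ℕ) := [[], [11], [7, 7, 11], [7, 8, 9, 11], [8, 8], [11, 7, 7], [8, 8, 7], [7],
  [8, 7], [8, 8, 2, 7], [2, 8, 7], [2, 11, 11, 8, 7]]
def mod_WV : List (List ℕ) := [[14], [14, 17]]
def mod_WC : List (List ℕ) := [[2], [7, 9], [4], [11, 11], [9], [3], [7], [8], [7, 8], [7, 8, 9],
  [4, 8, 9], [9, 7, 9]]
def mod_II : List (List (List ℕ)) := [[[1]], [[2]], [[3]], [[4]],
  [[1, 7, 8, 7, 9, 7, 8], [9, 8, 7, 9, 7, 8], [1, 9]], [[1, 9, 8], [1, 8, 9]], [[9]],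
  [[4, 8, 9], [4, 8, 9, 11]]]
def mod_JJ : List (List (List ℕ)) := [[[2, 6], [2, 6]],
  [[4, 12, 2], [3, 5], [4], [3, 5], [4], [4, 12, 2]], [[4, 12, 2], [4, 12, 2]], [[4]],
  [[4, 12, 2], [4, 12, 2], [3, 5]], [[2, 6], [3, 5], [4], [3, 5], [4]], [[4, 12, 2], [3, 5], [4], [3, 5]]]
def mod_E : List ℕ := [8, 7, 9, 7, 11, 11]
def mod_A : List ℕ := [4, 12, 2]
def mod_B : List ℕ := [6, 12, 4]
def mod_C : List ℕ := [2, 6]
def mod_b : List ℕ := [3, 5]
def mod_n1 : List ℕ := [8, 7, 8]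
def mod_n2 : List ℕ := [7, 8, 7]

/-- some word of `W` in the letters `L` satisfies `f` -/
noncomputable def mod_ex (W : List (List ℕ)) (L : List ℕ) (f : List ℕ → Bool) : Bool :=
  anyL (fun u => band (f u) (Dt.sub u L)) W

noncomputable def mod_rp (k : ℕ) (w : List ℕ) : List ℕ :=
  Nat.rec (motive := fun _ => List ℕ) [] (fun _ ih => w ++ ih) k

noncomputable def mod_tw (i j k : ℕ) : List ℕ := mod_rp i mod_A ++ mod_rp j mod_B ++ mod_rp k mod_C

section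
variable (D : Dt)

noncomputable def mod_nm (W : List (List ℕ)) (n L L' : List ℕ) : Bool :=
  allL (fun g => mod_ex W L' fun u => D.cj D.cl n [g] u) L

noncomputable def mod_in (W : List (List ℕ)) (L v : List ℕ) : Bool :=
  mod_ex W L fun u => D.ew D.cl v u

noncomputable def mod_en (ch : Chain) (W : List (List ℕ)) (L : List ℕ) : Bool :=
  D.all ch fun cl => mod_ex W L fun u => D.ew cl [0] u

noncomputable def mod_pd (II : List (List (List ℕ))) (L : List ℕ) (P : List ℕ → Bool) : Bool :=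
  allL (fun l => anyL (fun I => D.ew D.cl [l] I.flatten &&& allL P I) II) L

noncomputable def mod_pf (L : List ℕ) : Bool :=
  allL (fun l => mod_ex mod_WC L fun a => mod_ex mod_WC L fun b => D.ew D.cl (a ++ b) ([l] ++ (b ++ a))) L

noncomputable def mod_kB : Bool :=
  mod_en D D.cU mod_W0 UL &&& mod_en D D.cV mod_W1 VL &&&
  D.ew D.cl [80, 80] [] &&& D.cm D.cl [80] [1] &&& D.cm D.cl [80] [3] &&&
  mod_nm D mod_W0 [80] VL UL &&& mod_nm D mod_W1 [80] UL VL &&& mod_nm D mod_WT [80] TL TL &&&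
  allL (fun l => mod_in D mod_WT TL [l]) VL &&& allL (fun n => mod_nm D mod_W0 [n] UL UL) TL &&&
  allL (fun l => mod_in D mod_W1 VL [l]) [1, 3, 6, 12] &&& mod_nm D mod_W1 mod_E VL VL &&&
  Dt.sub mod_E NL &&& Dt.sub mod_n1 NL &&& Dt.sub mod_n2 NL &&&
  (mod_ex mod_W0 UL fun u => D.cj D.cl mod_n1 [6] (u ++ [5])) &&&
  (mod_ex mod_W0 UL fun u => D.cj D.cl mod_n2 [6] (u ++ [5, 6])) &&&
  mod_pd D mod_II NL (fun c => mod_ex mod_WM NL fun n => mod_ex mod_WV VL fun v => D.cj D.cl n v c) &&&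
  mod_pf D NL &&& mod_pf D ZL

noncomputable def mod_aU (u : List ℕ) : Bool :=
  anyL (fun a => D.cj D.cl mod_E u a &&& anyL (fun b => D.cj D.cl mod_E a b &&&
    D.ew D.cl (u ++ a ++ b) []) mod_W0) mod_W0 &&&
  (D.ew D.cl u [] ||| (mod_ex mod_W2 NL fun n => D.cj D.cl n [1] u) &&& (D.ew D.cl u [1] |||
    (mod_ex mod_W3 ZL fun n => D.cj D.cl n [2] u) &&& (D.ew D.cl u [2] ||| D.ew D.cl u [1, 2] |||
      mod_ex mod_W4 ZL fun n => D.cj D.cl n [3] u &&& D.cm D.cl n [2]))) &&&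
  (mod_in D mod_WZ CL u ||| (mod_ex mod_W5 ZL fun n => D.cj D.cl n [2] u &&& D.cm D.cl n [3] &&&
      mod_in D mod_W6 QL (mod_rp 3 n)) &&&
    allL (fun v => mod_in D mod_WZ CL v ||| mod_ex mod_W7 NL fun n =>
      (mod_ex mod_WZ CL fun c => D.cj D.cl n [2] (u ++ c)) &&&
      (mod_ex mod_WZ CL fun c => D.cj D.cl n [6] (v ++ c)) &&& mod_nm D mod_W1 n VL VL) mod_W1)

noncomputable def mod_aV (v : List ℕ) : Bool :=
  bnot (D.ew D.cl v [2]) &&& (D.ew D.cl v [] ||| D.ew D.cl v [1] ||| D.ew D.cl v [3] |||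
    D.ew D.cl v [1, 3] ||| bnot (D.cm D.cl v [2]) ||| bnot (D.cm D.cl v [4])) &&&
  mod_ex mod_W0 UL fun u => D.cj D.cl mod_E v (u ++ v)

noncomputable def mod_aT (cl : ℕ → ℕ) : Bool :=
  (mod_ex mod_W0 UL fun u => D.ew cl [0] u) ||| mod_ex mod_W8 ZL fun n => D.ew cl (n ++ n) [] &&&
    bnot (D.ew cl ([0] ++ (n ++ [0] ++ n)) []) &&& D.ew cl (mod_rp 3 ([0] ++ (n ++ [0] ++ n))) []

noncomputable def mod_kC : Bool :=
  allL (mod_aU D) mod_W0 &&& allL (mod_aV D) mod_W1 &&& D.all D.cT (mod_aT D)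

noncomputable def mod_kS : Bool :=
  D.cm D.cl mod_A mod_B &&& D.cm D.cl mod_A mod_C &&& D.cm D.cl mod_B mod_C &&&
  D.ew D.cl (mod_rp 4 mod_A) [] &&& D.ew D.cl (mod_rp 4 mod_B) [] &&& D.ew D.cl (mod_rp 4 mod_C) [] &&&
  allLt (fun i => D.ew D.cl (mod_tw i i i) [] &&& allLt (fun j => allLt (fun k =>
    (D.ew D.cl (mod_tw i j k) [] ==> Nat.beq j i &&& Nat.beq k i) &&&
    D.ew D.cl (mod_b ++ mod_tw i j k) (mod_tw j i k ++ mod_b) &&&
    D.ew D.cl ([4] ++ mod_tw i j k) (mod_tw k ((12 - (i + j + k)) % 4) i ++ [4]) &&&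
    Dt.sub (mod_tw i j k) TL) 4) 4) 4 &&&
  D.ew D.cl (mod_b ++ mod_b) (mod_tw 0 0 2) &&& D.ew D.cl [4, 4] [] &&&
  D.cm D.cl mod_b ([4] ++ mod_b ++ [4]) &&& D.ew D.cl (mod_tw 0 0 2) [1] &&& Dt.sub mod_b TL &&&
  mod_pd D mod_JJ TL fun c => D.ew D.cl c (mod_tw 1 0 0) ||| D.ew D.cl c (mod_tw 0 0 1) |||
    D.ew D.cl c mod_b ||| D.ew D.cl c [4]

end

theorem eqns_Mod2 : True := by
  have := @mod_ex.eq_1
  have := @mod_rp.eq_1
  have := @mod_tw.eq_1
  have := @mod_nm.eq_1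
  have := @mod_in.eq_1
  have := @mod_en.eq_1
  have := @mod_pd.eq_1
  have := @mod_pf.eq_1
  have := @mod_kB.eq_1
  have := @mod_aU.eq_1
  have := @mod_aV.eq_1
  have := @mod_aT.eq_1
  have := @mod_kC.eq_1
  have := @mod_kS.eq_1
  trivial

variable {G Ω : Type} [Group G] [Finite G] [MulAction G Ω] {pt : ℕ → Ω} {D : Dt} {J : Subgroup G}
  {lt : ℕ → G}

theorem mod_ex_iff {W : List (List ℕ)} {L : List ℕ} {f : List ℕ → Bool} :
    mod_ex W L f = true ↔ ∃ u ∈ W, f u = true ∧ Dt.sub u L = true := by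
  simp only [mod_ex, anyL_iff, band_eq_true]

theorem mod_lw_rp (k : ℕ) (w : List ℕ) : lw lt (mod_rp k w) = lw lt w ^ k := by
  induction k with
  | zero => exact (pow_zero _).symm
  | succ k ih => rw [pow_succ', ← ih, ← lw_append]; rfl

theorem mod_lw_upd {u L : List ℕ} {g : G} (e : Dt.sub u L = true) (h : 0 ∉ L := by decide) :
    lw (update lt 0 g) u = lw lt u := by
  simp only [Dt.sub, allL_iff, anyL_iff, Nat.beq_eq, exists_eq_right'] at e
  exact congrArg List.prod (List.map_congr_left fun l hl =>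
    update_of_ne (fun k : l = 0 => h (k ▸ e l hl)) _ _)

theorem mod_flat {H : Subgroup G} : ∀ I : List (List ℕ), (∀ c ∈ I, lw lt c ∈ H) → lw lt I.flatten ∈ H
  | [], _ => one_mem H
  | c :: I, h => by
    rw [List.flatten_cons, lw_append]
    exact mul_mem (h c (List.mem_cons_self ..)) (mod_flat I fun d hd => h d (List.mem_cons_of_mem _ hd))

theorem mod_mono {L L' : List ℕ} (h : ∀ l ∈ L, l ∈ L' := by decide) : cs lt L ≤ cs lt L' :=
  cs_le fun l hl => mem_cs lt (h l hl)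

theorem mod_fix {n y a : G} (h : n * a * n⁻¹ = y * a * y⁻¹) : n⁻¹ * y * a = a * (n⁻¹ * y) := by
  calc n⁻¹ * y * a = n⁻¹ * (y * a * y⁻¹) * y := by group
    _ = _ := by rw [← h]; group

theorem mod_cm {n y a : G} (h : n * a = a * n) (k : y * a = a * y) : n⁻¹ * y * a = a * (n⁻¹ * y) :=
  mod_fix (by rw [h, k, mul_inv_cancel_right, mul_inv_cancel_right])

theorem mod_ne {y a c : G} (k : y * c = c * y) (h : y * a * y⁻¹ = c) : a = c := by
  rw [mul_inv_eq_iff_eq_mul, ← k] at h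
  exact mul_left_cancel h

variable (m : Md D pt J lt)
include m

theorem mod_nm_le {W : List (List ℕ)} {n L L' : List ℕ} (e : mod_nm D W n L L' = true) :
    cs lt L ^ᶜ lw lt n ≤ cs lt L' := by
  simp only [mod_nm, mod_ex_iff, allL_iff, m.ev.cj, lw_one] at e
  refine cj_le_iff.2 (cs_le fun l hl => ?_)
  obtain ⟨u, -, e1, e2⟩ := e l hl
  rw [mem_cj, inv_inv, e1]
  exact mem_sub e2

theorem mod_in_mem {W : List (List ℕ)} {L v : List ℕ} (e : mod_in D W L v = true) :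
    lw lt v ∈ cs lt L := by
  simp only [mod_in, mod_ex_iff, m.ev.ew] at e
  obtain ⟨u, -, e1, e2⟩ := e
  exact e1 ▸ mem_sub e2

theorem mod_en_ex {ch : Chain} {H : Subgroup G} (a : Good D.c pt ch H) {W : List (List ℕ)}
    {L : List ℕ} (e : mod_en D ch W L = true) (h : 0 ∉ L) {g : G} (hg : g ∈ H) :
    ∃ u ∈ W, g = lw lt u := by
  obtain ⟨cl, e, k⟩ := m.all a e hg
  simp only [mod_ex_iff, k.ew, lw_one, update_self] at e
  obtain ⟨u, hu, e1, e2⟩ := e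
  exact ⟨u, hu, e1.trans (mod_lw_upd e2 h)⟩

theorem mod_pd_le {II : List (List (List ℕ))} {L : List ℕ} {P : List ℕ → Bool} {H : Subgroup G}
    (e : mod_pd D II L P = true) (h : ∀ c, P c = true → lw lt c ∈ H) : cs lt L ≤ H := by
  simp only [mod_pd, allL_iff, anyL_iff, band_eq_true, m.ev.ew, lw_one] at e
  refine cs_le fun l hl => ?_
  obtain ⟨I, -, e1, e2⟩ := e l hl
  exact e1 ▸ mod_flat I fun c hc => h c (e2 c hc)

theorem mod_pf_le {L : List ℕ} (e : mod_pf D L = true) : cs lt L ≤ ⁅cs lt L, cs lt L⁆ := by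
  simp only [mod_pf, allL_iff, mod_ex_iff, m.ev.ew, lw_append, lw_one] at e
  refine cs_le fun l hl => ?_
  obtain ⟨a, -, ⟨b, -, e1, hb⟩, ha⟩ := e l hl
  have : lt l = ⁅lw lt a, lw lt b⁆ := by rw [commutatorElement_def, e1]; group
  exact this ▸ commutator_mem_commutator (mem_sub ha) (mem_sub hb)

theorem mod_bs (e : mod_kS D = true) :
    ∃ (Tm : H13.PS.ZM 0 → H13.PS.ZM 0 → H13.PS.ZM 0 → G) (b σ : G) (h : H13.LB.BS Tm b σ),
      h.S = cs lt TL ∧ H13.LB.ez Tm = lt 1 := by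
  simp only [mod_kS, band_eq_true, bimp_eq_true, allLt_iff, m.ev.ew, m.ev.cm, lw_append, mod_lw_rp,
    lw_cons, lw_nil, mul_one, Nat.beq_eq] at e
  obtain ⟨ab, ac, bc, a4, b4, c4, al, bb, ss, bs, ez, bT, jj⟩ := e
  have v4 : ∀ x : H13.PS.ZM 0, x.val < 4 := fun x => ZMod.val_lt x
  have pw : ∀ g : G, g ^ 4 = 1 → ∀ x y : H13.PS.ZM 0, g ^ (x + y).val = g ^ x.val * g ^ y.val :=
    fun g h x y => by rw [ZMod.val_add, ← pow_add]; exact (pow_eq_pow_mod _ h).symm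
  have h : H13.LB.BS (k := 0) (fun x y w => lw lt (mod_tw x.val y.val w.val)) (lw lt mod_b) (lt 4) := by
    refine ⟨fun x y w x' y' w' => ?_, fun {x y w} => ⟨fun k => ?_, ?_⟩, fun x y w => ?_, bb,
      fun x y w => ?_, ss, bs⟩
    · simp only [mod_tw, lw_append, mod_lw_rp, pw _ a4, pw _ b4, pw _ c4]
      rw [Commute.mul_mul_mul_comm (Commute.mul_right ((show Commute _ _ from ac.symm).pow_pow _ _)
        ((show Commute _ _ from bc.symm).pow_pow _ _)),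
        Commute.mul_mul_mul_comm ((show Commute _ _ from ab.symm).pow_pow _ _)]
    · obtain ⟨k1, k2⟩ := ((al _ (v4 x)).2 _ (v4 y) _ (v4 w)).1 k
      exact ⟨ZMod.val_injective _ k1, ZMod.val_injective _ k2, by
        rw [show (4 : H13.PS.ZM 0) = 0 from rfl, zero_mul]⟩
    · rintro ⟨rfl, rfl, -⟩
      exact (al _ (v4 _)).1
    · exact ((al _ (v4 x)).2 _ (v4 y) _ (v4 w)).2.1
    · have : (-(x + y + w)).val = (12 - (x.val + y.val + w.val)) % 4 := by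
        revert x y w; decide
      rw [this]
      exact ((al _ (v4 x)).2 _ (v4 y) _ (v4 w)).2.2.1
  refine ⟨_, _, _, h, le_antisymm (h.S_le (fun x y w =>
    mem_sub ((al _ (v4 x)).2 _ (v4 y) _ (v4 w)).2.2.2) (mem_sub bT) (mem_cs lt (by decide)))
    (mod_pd_le m jj fun c hc => ?_), ez⟩
  simp only [bor_eq_true, m.ev.ew, lw_one] at hc
  rcases hc with k | k | k | k <;> rw [k]
  exacts [h.T_mem 1 0 0, h.T_mem 0 0 1, h.b_mem, h.s_mem]

end H60.ML
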