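import Mathlib
import Cfsg.Agent.Lib.McLy.DefB
import Cfsg.Agent.Lib.McLy.Mod2
import Cfsg.Agent.Lib.StdW.Mod

/-! The model `McL:2` of `Fy`. -/

set_option autoImplicit false
set_option linter.unusedSectionVars false
set_option maxRecDepth 100000

namespace H60.ML

open Subgroup H69 H54 Function H92.SW H36.SW
open scoped commutatorElement

local notation "TL" => ([1, 2, 3, 4, 5, 6, 12] : List ℕ)
local notation "SL" => ([1, 2, 3, 4, 5, 6, 12, 80] : List ℕ)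
local notation "UL" => ([1, 2, 3, 4] : List ℕ)
local notation "VL" => ([14, 15, 16, 17] : List ℕ)
local notation "QL" => ([1, 2, 3, 4, 14, 15, 16, 17] : List ℕ)
local notation "NL" => ([1, 2, 3, 4, 7, 8, 9, 11] : List ℕ)
local notation "ZL" => ([1, 2, 3, 4, 7, 8, 9] : List ℕ)
local notation "CL" => ([1, 3] : List ℕ)

section
variable {G Ω : Type} [Group G] [Finite G] [MulAction G Ω] {pt : ℕ → Ω} {D : Dt} {J : Subgroup G}
  {lt : ℕ → G}

theorem mod_fy (m : Md D pt J lt) (φ : J ≃* Cfsg.Spor.McL) (F : Fx G) (eJ : F.J = J)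
    (eU : F.U = cs lt UL) (eV : F.V = cs lt VL) (eT : F.T = cs lt TL) (ez : F.z = lt 1)
    (eq : F.q = lt 2) (er : F.r = lt 3) (ew : F.w = lt 4) (ey1 : F.y1 = lt 5) (ey2 : F.y2 = lt 6)
    (eh : F.h = lt 7) (eρ : F.ρ = lt 8) (es : F.s = lt 9) (φJ : lt 80 ∉ J)
    (gT : Good D.c pt D.cT (cs lt TL)) (gU : Good D.c pt D.cU (cs lt UL))
    (gV : Good D.c pt D.cV (cs lt VL)) (NU : cs lt NL ≤ J ⊓ 𝐍(cs lt UL))
    (hS : ∀ R : Subgroup G, IsPGroup 2 R → ∃ j, R ^ᶜ j ≤ cs lt SL)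
    (hE : ∀ A : Subgroup G, A ≤ cs lt SL → (∀ a ∈ A, a * a = 1) → 16 ≤ Nat.card A →
      A = cs lt UL ∨ A = cs lt VL)
    (kB : mod_kB D = true) (kC : mod_kC D = true) (kS : mod_kS D = true) : Nonempty (Fy G) := by
  simp only [mod_kB, mod_kC, band_eq_true, allL_iff, mod_ex_iff, m.ev.ew, m.ev.cm, m.ev.cj,
    lw_append, lw_cons, lw_nil, mul_one] at kB kC
  obtain ⟨nU, nV, φ2, φz, φr, φV, φU, φT, VT, TU, iV, EV, EN, n1N, n2N, n1, n2, ncl, pN, pZ⟩ := kB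
  obtain ⟨aU, aV, aT⟩ := kC
  replace nU := fun g hg => mod_en_ex m gU nU (by decide) (g := g) hg
  replace nV := fun g hg => mod_en_ex m gV nV (by decide) (g := g) hg
  replace φV := mod_nm_le m φV
  replace φU := mod_nm_le m φU
  replace φT := mod_nm_le m φT
  rw [lw_one] at φV φU φT
  have φi : (lt 80)⁻¹ = lt 80 := inv_eq_of_mul_eq_one_right φ2
  replace VT : cs lt VL ≤ cs lt TL := cs_le fun l hl => lw_one (lt := lt) l ▸ mod_in_mem m (VT l hl)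
  replace TU : cs lt TL ≤ 𝐍(cs lt UL) := cs_le fun l hl =>
    lw_one (lt := lt) l ▸ mem_normalizer_of_cj_le (mod_nm_le m (TU l hl))
  replace iV : ∀ l ∈ [1, 3, 6, 12], lt l ∈ cs lt VL := fun l hl =>
    lw_one (lt := lt) l ▸ mod_in_mem m (iV l hl)
  replace EV := mem_normalizer_of_cj_le (mod_nm_le m EV)
  replace EN := NU (mem_sub EN)
  replace n1N := NU (mem_sub n1N)
  replace n2N := NU (mem_sub n2N)
  replace pN := mod_pf_le m pN
  replace pZ := mod_pf_le m pZ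
  have U2 := eU ▸ F.U2
  have Uc : ∀ {a b}, a ∈ cs lt UL → b ∈ cs lt UL → a * b = b * a := comm_of_sq U2
  have zU : lt 1 ∈ cs lt UL := mem_cs lt (by decide)
  have qU : lt 2 ∈ cs lt UL := mem_cs lt (by decide)
  have rU : lt 3 ∈ cs lt UL := mem_cs lt (by decide)
  have wU : lt 4 ∈ cs lt UL := mem_cs lt (by decide)
  have CZ : cs lt CL ≤ cs lt UL ⊓ cs lt VL :=
    le_inf mod_mono (cs_le fun l hl => iV l (by revert l; decide))
  have QQ : cs lt QL ≤ cs lt UL ⊔ cs lt VL := cs_le fun l hl =>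
    (List.mem_append.1 (show l ∈ UL ++ VL from hl)).elim (fun h => mem_sup_left (mem_cs lt h))
      fun h => mem_sup_right (mem_cs lt h)
  have ZN : cs lt ZL ≤ cs lt NL := mod_mono
  have Zz : ∀ n ∈ cs lt ZL, n * lt 1 = lt 1 * n := fun n hn =>
    mem_centralizer_singleton_iff.1 (cs_le (fun l hl => mem_centralizer_singleton_iff.2 (by
      simp only [List.mem_cons, List.not_mem_nil, or_false] at hl
      rcases hl with rfl | rfl | rfl | rfl | rfl | rfl | rfl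
      exacts [rfl, Uc qU zU, Uc rU zU, Uc wU zU, eh ▸ ez ▸ F.hz, eρ ▸ ez ▸ F.ρz, es ▸ ez ▸ F.sz])) hn)
  have cp : ∀ g, g * lt 1 = lt 1 * g → g * lt 2 = lt 2 * g → g * lt 3 = lt 3 * g → g ∈ cs lt UL :=
    ez ▸ eq ▸ er ▸ eU ▸ F.cpqr
  replace aV : ∀ v ∈ cs lt VL, v ≠ lt 2 ∧ (v = 1 ∨ v = lt 1 ∨ v = lt 3 ∨ v = lt 1 * lt 3 ∨
      v * lt 2 ≠ lt 2 * v ∨ v * lt 4 ≠ lt 4 * v) ∧
      lw lt mod_E * v * (lw lt mod_E)⁻¹ * v⁻¹ ∈ cs lt UL := fun v hv => by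
    obtain ⟨u, hu, rfl⟩ := nV v hv
    have := aV u hu
    simp only [mod_aV, band_eq_true, bor_eq_true, bnot_eq_true, mod_ex_iff, m.ev.ew, m.ev.cm,
      m.ev.cj, lw_append, lw_cons, lw_nil, mul_one] at this
    obtain ⟨h1, h2, c, -, h3, h4⟩ := this
    exact ⟨h1, h2, by rw [h3, mul_inv_cancel_right]; exact mem_sub h4⟩
  have qV : lt 2 ∉ cs lt VL := fun h => (aV _ h).1 rfl
  replace aU : ∀ u ∈ cs lt UL, u * (lw lt mod_E * u * (lw lt mod_E)⁻¹) *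
      (lw lt mod_E * (lw lt mod_E * u * (lw lt mod_E)⁻¹) * (lw lt mod_E)⁻¹) = 1 ∧
      (u = 1 ∨ (∃ n ∈ cs lt NL, n * lt 1 * n⁻¹ = u) ∧ (u = lt 1 ∨ (∃ n ∈ cs lt ZL, n * lt 2 * n⁻¹ = u) ∧
        (u = lt 2 ∨ u = lt 1 * lt 2 ∨ ∃ n ∈ cs lt ZL, n * lt 3 * n⁻¹ = u ∧ n * lt 2 = lt 2 * n))) ∧
      (u ∈ cs lt CL ∨ (∃ n ∈ cs lt ZL, n * lt 2 * n⁻¹ = u ∧ n * lt 3 = lt 3 * n ∧ n ^ 3 ∈ cs lt QL) ∧
        ∀ v ∈ cs lt VL, v ∈ cs lt CL ∨ ∃ n ∈ cs lt NL, (n * lt 2 * n⁻¹)⁻¹ * u ∈ cs lt CL ∧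
          (n * lt 6 * n⁻¹)⁻¹ * v ∈ cs lt CL ∧ n ∈ 𝐍(cs lt VL)) := fun u hu => by
    obtain ⟨u, hu', rfl⟩ := nU u hu
    have := aU u hu'
    simp only [mod_aU, band_eq_true, bor_eq_true, mod_ex_iff, allL_iff, anyL_iff, m.ev.ew, m.ev.cm,
      m.ev.cj, lw_append, lw_cons, lw_nil, mul_one] at this
    obtain ⟨⟨a, -, h1, b, -, h2, h3⟩, h4, h5⟩ := this
    refine ⟨by rw [h1, h2, h3], h4.imp_right (And.imp (fun ⟨_, _, a, b⟩ => ⟨_, mem_sub b, a⟩)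
      (Or.imp_right (And.imp (fun ⟨_, _, a, b⟩ => ⟨_, mem_sub b, a⟩)
        (Or.imp_right (Or.imp_right fun ⟨_, _, a, b⟩ => ⟨_, mem_sub b, a⟩))))),
      h5.imp (mod_in_mem m) (And.imp (fun ⟨_, _, a, b⟩ => ⟨_, mem_sub b, a.1, a.2.1,
        mod_lw_rp (lt := lt) 3 _ ▸ mod_in_mem m a.2.2⟩) fun k v hv => ?_)⟩
    obtain ⟨v, hv', rfl⟩ := nV v hv
    refine (k v hv').imp (mod_in_mem m) ?_
    rintro ⟨n, -, ⟨⟨c, -, c1, c2⟩, ⟨d, -, d1, d2⟩, k⟩, hn⟩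
    refine ⟨_, mem_sub hn, ?_, ?_, mem_normalizer_of_cj_le (mod_nm_le m k)⟩
    · rw [c1, mul_inv_rev, inv_mul_cancel_right]; exact inv_mem (mem_sub c2)
    · rw [d1, mul_inv_rev, inv_mul_cancel_right]; exact inv_mem (mem_sub d2)
  have cN : ∀ {y u}, y ∈ 𝐍(cs lt UL) → u ∈ cs lt UL → y * u * y⁻¹ ∈ cs lt UL := fun hy hu =>
    (mem_normalizer_iff.1 hy _).1 hu
  have s3 : ∀ y ∈ 𝐍(cs lt UL), y * lt 1 = lt 1 * y → y * lt 2 = lt 2 * y → y ∈ cs lt ZL :=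
    fun y hy h1 h2 => by
    obtain ⟨n, hn, k1, k2⟩ := (((((aU _ (cN hy rU)).2.1.resolve_left (cjne (er ▸ F.r1) y)).2.resolve_left
      fun e => (er ▸ ez ▸ F.rz :) (mod_ne h1 e)).2.resolve_left
      fun e => (er ▸ eq ▸ F.rq :) (mod_ne h2 e)).resolve_left
      fun e => (er ▸ ez ▸ eq ▸ F.rzq :) (mod_ne (Commute.mul_right h1 h2) e))
    rw [← mul_inv_cancel_left n y]
    exact mul_mem hn (mod_mono (by decide) (cp _ (mod_cm (Zz n hn) h1) (mod_cm k2 h2) (mod_fix k1)))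
  have s2 : ∀ y ∈ 𝐍(cs lt UL), y * lt 1 = lt 1 * y → y ∈ cs lt ZL := fun y hy h1 => by
    obtain ⟨n, hn, k1⟩ := (((aU _ (cN hy qU)).2.1.resolve_left (cjne (eq ▸ F.q1) y)).2.resolve_left
      fun e => (eq ▸ ez ▸ F.qz :) (mod_ne h1 e)).1
    rw [← mul_inv_cancel_left n y]
    exact mul_mem hn (s3 _ (mul_mem (inv_mem (NU (ZN hn)).2) hy) (mod_cm (Zz n hn) h1) (mod_fix k1))
  have s1 : J ⊓ 𝐍(cs lt UL) = cs lt NL := le_antisymm (fun y hy => by
    obtain ⟨n, hn, k1⟩ := ((aU _ (cN hy.2 zU)).2.1.resolve_left (cjne (ez ▸ F.z1) y)).1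
    rw [← mul_inv_cancel_left n y]
    exact mul_mem hn (ZN (s2 _ (mul_mem (inv_mem (NU hn).2) hy.2) (mod_fix k1)))) NU
  have sZ : J ⊓ 𝐍(cs lt UL) ⊓ centralizer {lt 1} = cs lt ZL := le_antisymm
    (fun y hy => s2 y hy.1.2 (mem_centralizer_singleton_iff.1 hy.2))
    fun y hy => ⟨NU (ZN hy), mem_centralizer_singleton_iff.2 (Zz y hy)⟩
  have V2 : ∀ v ∈ cs lt VL, v * v = 1 := fun v hv => by
    simpa [conj_mul] using U2 _ (φV (cj_mem _ hv))
  have sq : ∀ {A : Subgroup G} (j : G), (∀ a ∈ A, a * a = 1) → ∀ a ∈ A ^ᶜ j, a * a = 1 :=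
    fun j h a ha => by
    obtain ⟨a, ha', rfl⟩ := mem_cj'.1 ha
    exact cjsq (h a ha') j
  refine ⟨{
    toFx := F, φ := lt 80, e := lw lt mod_E, iso := eJ ▸ ⟨φ⟩, φJ := eJ ▸ φJ, φ2 := φ2
    φz := ez ▸ φz, φr := er ▸ φr, φU := ?φU, φT := ?φT, VT := eV ▸ eT ▸ VT, TU := eU ▸ eT ▸ TU
    y2V := eV ▸ ey2 ▸ iV 6 (by decide), qV := eV ▸ eq ▸ qV, hZ := ?hZ, gT := ?gT, eQ := ?eQ
    pr := ?pr, eJ := eJ ▸ EN.1, eU := eU ▸ EN.2, eV := eV ▸ EV
    e3 := eU ▸ fun u hu => (aU u hu).1, eV' := eU ▸ eV ▸ fun v hv => (aV v hv).2.2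
    n1 := ?n1, n2 := ?n2, ncl := ?ncl, pNU := by rw [eJ, eU, s1]; exact pN
    pNZ := by rw [eJ, eU, ez, sZ]; exact pZ
    gNZ := by rw [eJ, eU, ez, eq, er, ew, eh, eρ, es, sZ]; exact (cs_eq (by ext; simp)).le
    czr := ?czr, o2 := ?o2, bs := by rw [eT, ez]; exact mod_bs m kS }⟩
  case φU =>
    rw [eU, eV]
    refine fun u => ⟨fun h => by simpa only [φi] using φV (cj_mem _ h), fun h => ?_⟩
    have := φU (cj_mem _ h)
    rwa [φi, ← mul_assoc, ← mul_assoc, φ2, one_mul, mul_assoc, φ2, mul_one] at this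
  case φT =>
    rw [eT]
    exact fun a h => by simpa only [φi] using φT (cj_mem _ h)
  case hZ =>
    rw [eU, eV, ez, er]
    intro c h1 h2
    rcases (aV c h2).2.1 with k | k | k | k | k | k
    exacts [.inl k, .inr (.inl k), .inr (.inr (.inl k)), .inr (.inr (.inr k)), absurd (Uc h1 qU) k,
      absurd (Uc h1 wU) k]
  case gT =>
    rw [eU, eV, eT, ey1]
    refine cs_le fun l hl => ?_
    simp only [List.mem_cons, List.not_mem_nil, or_false] at hl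
    rcases hl with rfl | rfl | rfl | rfl | rfl | rfl | rfl
    exacts [mem_sup_left (mem_sup_left zU), mem_sup_left (mem_sup_left qU),
      mem_sup_left (mem_sup_left rU), mem_sup_left (mem_sup_left wU), mem_sup_right (mem_zpowers _),
      mem_sup_left (mem_sup_right (iV _ (by decide))), mem_sup_left (mem_sup_right (iV _ (by decide)))]
  case eQ =>
    have cU := eU ▸ F.cU
    have cV := eV ▸ F.cV
    rw [eU, eV]
    intro P A hP h1 h2 h3 h4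
    obtain ⟨j, hj⟩ := hS P hP
    have a1 := hE _ ((cj_mono j h2).trans hj) (sq j h3) (by rwa [card_cj])
    have a2 := hE _ ((cj_mono j (le_sup_left.trans h1)).trans hj) (sq j U2) (by rw [card_cj, cU])
    have a3 := hE _ ((cj_mono j (le_sup_right.trans h1)).trans hj) (sq j V2) (by rw [card_cj, cV])
    have ne : cs lt UL ^ᶜ j ≠ cs lt VL ^ᶜ j := fun e => qV (cj_inj.1 e ▸ qU)
    rcases a2 with a2 | a2 <;> rcases a3 with a3 | a3
    · exact absurd (a2.trans a3.symm) ne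
    · exact a1.imp (fun e => cj_inj.1 (e.trans a2.symm)) fun e => cj_inj.1 (e.trans a3.symm)
    · exact a1.symm.imp (fun e => cj_inj.1 (e.trans a2.symm)) fun e => cj_inj.1 (e.trans a3.symm)
    · exact absurd (a2.trans a3.symm) ne
  case pr =>
    rw [eJ, eU, eV, eq, ey2]
    intro u hu h1 v hv h2
    obtain ⟨n, hn, k1, k2, k3⟩ := (((aU u hu).2.2.resolve_left fun e => h1 (CZ e).2).2 v hv).resolve_left
      fun e => h2 (CZ e).1
    exact ⟨n, (NU hn).1, (NU hn).2, k3, CZ k1, CZ k2⟩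
  case n1 =>
    rw [eJ, eU, ey1, ey2]
    obtain ⟨u, -, k1, k2⟩ := n1
    exact ⟨_, n1N.1, n1N.2, by rw [k1, mul_inv_cancel_right]; exact mem_sub k2⟩
  case n2 =>
    rw [eJ, eU, ey1, ey2]
    obtain ⟨u, -, k1, k2⟩ := n2
    exact ⟨_, n2N.1, n2N.2, by rw [k1, mul_inv_cancel_right]; exact mem_sub k2⟩
  case ncl =>
    rw [eJ, eU, eV, s1]
    refine mod_pd_le m ncl fun c hc => Subgroup.subset_closure ?_
    simp only [mod_ex_iff, m.ev.cj] at hc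
    obtain ⟨n, -, ⟨v, -, k1, k2⟩, k3⟩ := hc
    exact ⟨_, mem_sub k3, _, mem_sub k2, k1.symm⟩
  case czr =>
    rw [eU, eV, ez, er]
    intro y _ hy h1 h3
    obtain ⟨n, hn, k1, k2, k3⟩ := ((aU _ (cN hy qU)).2.2.resolve_left fun e => by
      have : cs lt CL ≤ centralizer {y} := cs_le fun l hl => mem_centralizer_singleton_iff.2 (by
        simp only [List.mem_cons, List.not_mem_nil, or_false] at hl
        rcases hl with rfl | rfl
        exacts [h1.symm, h3.symm])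
      exact qV (mod_ne (mem_centralizer_singleton_iff.1 (this e)).symm rfl ▸ (CZ e).2)).1
    have hu := cp _ (mod_cm (Zz n hn) h1) (mod_fix k1) (mod_cm k2 h3)
    have nN := (NU (ZN hn)).2
    rw [← mul_inv_cancel_left n y]
    generalize n⁻¹ * y = u at hu
    rw [show (n * u) ^ 3 = n * u * n⁻¹ * (n * (n * u * n⁻¹) * n⁻¹) *
      (n * (n * (n * u * n⁻¹) * n⁻¹) * n⁻¹) * n ^ 3 by simp only [pow_succ]; group]
    exact mul_mem (mem_sup_left (mul_mem (mul_mem (cN nN hu) (cN nN (cN nN hu)))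
      (cN nN (cN nN (cN nN hu))))) (QQ k3)
  case o2 =>
    rw [eJ, eU, eT, ez]
    intro x hx hU
    obtain ⟨cl, e, h⟩ := m.all gT aT hx
    simp only [mod_aT, band_eq_true, bor_eq_true, bnot_eq_true, mod_ex_iff, h.ew, mod_lw_rp,
      lw_append, lw_one, lw_nil, update_self] at e
    obtain ⟨n, -, ⟨k1, k2, k3⟩, hn⟩ := e.resolve_left fun ⟨u, _, a, b⟩ => hU (a ▸ mem_upd b)
    rw [mod_lw_upd hn] at k1 k2 k3
    refine ⟨_, (NU (ZN (mem_sub hn))).1, (NU (ZN (mem_sub hn))).2, Zz _ (mem_sub hn), fun p => k2 ?_⟩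
    rw [inv_eq_of_mul_eq_one_right k1] at p
    exact p.eq_one (Odd.of_dvd_nat (by decide : Odd 3) (orderOf_dvd_of_pow_eq_one k3))

end

theorem mod_ckB : mod_kB B.D = true := by decide +kernel
theorem mod_ckC : mod_kC B.D = true := by decide +kernel
theorem mod_ckS : mod_kS B.D = true := by decide +kernel

theorem exists_fy : ∃ (X : Type) (_ : Group X) (_ : Finite X), Nonempty (Fy X) := by
  have := H16.finite_Co0
  have := H16.simple_sMcL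
  have a := H16.good_Co3.rest (fun h => by cases h)
  have h := H16.good_McL'.2.ge.trans (grp_le a.K_le (a.all_in H16.X276 (by decide +kernel)))
  have K := Kfix_sub_eq_bot H16.K276 (H16.Stab H16.vV ⊓
    MulAction.stabilizer Cfsg.Co0 (H16.pt276 H16.chCo3.base))
  obtain ⟨lt, m⟩ := exists_md (D := B.D) H16.X276 K a.top (H16.good_McL.subgroupOf h) B.val
  let φ := (Subgroup.subgroupOfEquivOfLe h).trans H16.eMcL.symm
  obtain ⟨F, e1, e2, e3, e4, e5, e6, e7, e8, e9, e10, e11, e12, e13⟩ := mod_fx m φ (by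
    rw [H16.card_Out_McL, m.aJ.card m.x K, card_of_good_top m.x K m.aX]; decide +kernel)
    H16.chMcL_low (.inr B.ko) B.k2 B.k3 B.k4 B.kP B.ke B.k5 B.k6
  obtain ⟨a1, a2, a3, a4, a5, a6, a7⟩ := mod_aux m B.ko B.k2 B.k4 B.ke B.k5
  exact ⟨_, _, inferInstance, mod_fy m φ F e1 e2 e3 e4 e5 e6 e7 e8 e9 e10 e11 e12 e13 a1 a2 a3 a4 a5
    a6 a7 mod_ckB mod_ckC mod_ckS⟩

end H60.ML
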