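import Mathlib
import Cfsg.Agent.Lib.McLy.Base1
import Cfsg.Agent.Lib.Core.PCore

set_option autoImplicit false
set_option linter.unusedSectionVars false

namespace H60.ML

open Subgroup H69 H36.SW
open scoped commutatorElement

universe u
variable {X : Type} [Group X] [Finite X] {G : Type u} [Group G] [Finite G]
variable {F : Fy X} {t : G} {N K : Subgroup G} {α : G → X} {η E E' ε : X → G} {R : Subgroup G}

theorem Rc.r1_eq {P : Subgroup X} {ι : X → G} (r : Rc F P ι) {x y : X} (hx : x ∈ P) (hy : y ∈ P)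
    (e : ι x = ι y) : x = y :=
  inv_mul_eq_one.1 (r.inj _ (mul_mem (inv_mem hx) hy) (by
    rw [r.mul _ (inv_mem hx) _ hy, im_inv r.mul hx, e, inv_mul_cancel]))

theorem Rc.r1_U {P : Subgroup X} {ι : X → G} (r : Rc F P ι) {u : X} (hu : u ∈ F.U) : u ∈ P := r.TP (F.UT hu)

theorem r1_cj {f : X → G} {y g : G} {n m : X} (hn : n ∈ 𝐍(F.U))
    (h1 : ∀ u ∈ F.U, y * f u * y⁻¹ = f (n * u * n⁻¹)) (hm : m ∈ 𝐍(F.U))
    (h2 : ∀ u ∈ F.U, g * f u * g⁻¹ = f (m * u * m⁻¹)) :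
    ∀ u ∈ F.U, y * g * y⁻¹ * f u * (y * g * y⁻¹)⁻¹ = f (n * m * n⁻¹ * u * (n * m * n⁻¹)⁻¹) := fun u hu => by
  have a := conj_mem_of_mem_normalizer' hn hu
  have e1 := h1 _ a
  have e2 := h1 _ (conj_mem_of_mem_normalizer hm a)
  rw [show n * (n⁻¹ * u * n) * n⁻¹ = u by group] at e1
  rw [← h2 _ a] at e2
  rw [← e1, show n * m * n⁻¹ * u * (n * m * n⁻¹)⁻¹ = n * (m * (n⁻¹ * u * n) * m⁻¹) * n⁻¹ by group, ← e2]
  group

theorem r1_all {f : X → G} {M : Subgroup G} [hM : M.Normal]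
    (h1 : ∀ n ∈ F.NU, ∃ y, ∀ u ∈ F.U, y * f u * y⁻¹ = f (n * u * n⁻¹))
    (h2 : ∀ v ∈ F.V, ∃ y ∈ M, ∀ u ∈ F.U, y * f u * y⁻¹ = f (v * u * v⁻¹)) :
    ∀ n ∈ F.NU, ∃ y ∈ M, ∀ u ∈ F.U, y * f u * y⁻¹ = f (n * u * n⁻¹) := fun n hn => by
  refine (closure_induction (p := fun n _ => n ∈ 𝐍(F.U) ∧ ∃ y ∈ M, ∀ u ∈ F.U, y * f u * y⁻¹ = f (n * u * n⁻¹))
    ?_ ⟨one_mem _, 1, one_mem _, fun u _ => by simp⟩ ?_ ?_ (F.ncl hn)).2
  · rintro _ ⟨m, hm, v, hv, rfl⟩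
    obtain ⟨y, e⟩ := h1 m hm
    obtain ⟨g, hg, e'⟩ := h2 v hv
    have k := F.TU (F.VT hv)
    exact ⟨mul_mem (mul_mem hm.2 k) (inv_mem hm.2), _, hM.conj_mem g hg y, r1_cj hm.2 e k e'⟩
  · rintro a b - - ⟨ha, x, hx, e⟩ ⟨hb, y, hy, e'⟩
    refine ⟨mul_mem ha hb, x * y, mul_mem hx hy, fun u hu => ?_⟩
    rw [show a * b * u * (a * b)⁻¹ = a * (b * u * b⁻¹) * a⁻¹ by group,
      ← e _ (conj_mem_of_mem_normalizer hb hu), ← e' u hu]
    group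
  · rintro a - ⟨ha, x, hx, e⟩
    refine ⟨inv_mem ha, x⁻¹, inv_mem hx, fun u hu => ?_⟩
    have := e _ (conj_mem_of_mem_normalizer' ha hu)
    rw [show a * (a⁻¹ * u * a) * a⁻¹ = u by group] at this
    rw [← this, inv_inv a]
    group

theorem Rc.map {P : Subgroup X} {ι : X → G} (r : Rc F P ι) {H : Type*} [Group H] (π : G →* H)
    (hs : Function.Surjective π) (hk : ∀ g, π g = 1 → Odd (orderOf g)) : Rc F P fun x => π (ι x) := by
  have mu : ∀ x ∈ P, ∀ y ∈ P, π (ι (x * y)) = π (ι x) * π (ι y) := fun x hx y hy => by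
    rw [r.mul x hx y hy, map_mul]
  refine ⟨r.p2, r.TP, mu, fun x hx e => r.inj x hx
    ((P2.of_mem r.syl.isP (mem_im_self ι hx)).eq_one (hk _ e)), ?_, fun n hn => ?_, fun n hn => ?_⟩
  · have k := r.syl.map π
    rw [map_top_of_surjective _ hs] at k
    convert k using 1
    refine le_antisymm (im_le.2 fun x hx => mem_map_of_mem π (mem_im_self ι hx)) ?_
    rintro _ ⟨s, hs, rfl⟩
    obtain ⟨x, hx, rfl⟩ := (mem_im r.mul).1 hs
    exact mem_im_self (fun x => π (ι x)) hx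
  · obtain ⟨y, e⟩ := r.cU n hn
    exact ⟨π y, fun u hu => by rw [← e u hu, map_mul, map_mul, map_inv]⟩
  · obtain ⟨y, e⟩ := r.cV n hn
    exact ⟨π y, fun u hu => by rw [← e u hu, map_mul, map_mul, map_inv]⟩

theorem Rc.twoU {P : Subgroup X} {ι : X → G} (r : Rc F P ι) {g : G} (hg : g ∈ 𝐂(im ι F.U)) (g2 : P2 g) :
    g ∈ im ι F.U := by
  have mU : ∀ x ∈ F.U, ∀ y ∈ F.U, ι (x * y) = ι x * ι y := fun x hx y hy => r.mul x (r.r1_U hx) y (r.r1_U hy)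
  obtain ⟨c, -, hc⟩ := r.syl.exists_cj_le (IsPGroup.to_sup_of_normal_left' (isP_im mU (r.p2.to_le fun _ => r.r1_U))
    g2.zpowers (zpowers_le.2 (le_normalizer_of_le_centralizer le_rfl hg))) le_top
  have h1 : ∀ u ∈ F.U, ∃ x ∈ P, ι x = c * ι u * c⁻¹ := fun u hu =>
    (mem_im r.mul).1 (hc (cj_mem c (mem_sup_left (mem_im_self ι hu))))
  obtain ⟨y, hy, ey⟩ := (mem_im r.mul).1 (hc (cj_mem c (mem_sup_right (mem_zpowers g))))
  choose! f hf ef using h1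
  have mu : ∀ x ∈ F.U, ∀ y ∈ F.U, f (x * y) = f x * f y := fun x hx y hy =>
    r.r1_eq (hf _ (mul_mem hx hy)) (mul_mem (hf x hx) (hf y hy)) (by
      rw [r.mul _ (hf x hx) _ (hf y hy), ef _ (mul_mem hx hy), ef x hx, ef y hy, mU x hx y hy, conj_mul])
  have cy : ∀ a ∈ im f F.U, y * a = a * y := fun a ha => by
    obtain ⟨u, hu, rfl⟩ := (mem_im mu).1 ha
    refine r.r1_eq (mul_mem hy (hf u hu)) (mul_mem (hf u hu) hy) ?_
    rw [r.mul _ hy _ (hf u hu), r.mul _ (hf u hu) _ hy, ey, ef u hu, conj_mul, conj_mul, cen_im.1 hg u hu]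
  have : y ∈ im f F.U := by
    rcases F.eQ P (im f F.U) r.p2 (F.UVT.trans r.TP) (im_le.2 hf) (fun a ha => by
      obtain ⟨u, hu, rfl⟩ := (mem_im mu).1 ha
      rw [← mu u hu u hu, F.U2 u hu, im_one mu]) (by
      rw [card_im mu, F.cU]
      intro u hu e
      have := ef u hu
      rw [e, im_one r.mul] at this
      exact r.inj u (r.r1_U hu) (by simpa using this.symm)) with e | e <;> rw [e] at cy ⊢
    exacts [F.cenU cy, F.cenV cy]
  obtain ⟨u, hu, rfl⟩ := (mem_im mu).1 this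
  rw [ef u hu, mul_left_inj, mul_right_inj] at ey
  exact ey ▸ mem_im_self ι hu

theorem Rc.mem_of {P : Subgroup X} {ι : X → G} (r : Rc F P ι) {D M : Subgroup G} (hM : M ≤ D) (n : D ≤ 𝐍(M))
    (hU : im ι F.U ≤ M) {x : X} (hx : x ∈ F.T) (hD : ι x ∈ D) {g : G} (hg : g ∈ M)
    (h : ∀ u ∈ F.U, g * ι u * g⁻¹ = ι (x * u * x⁻¹)) : ι x ∈ M := by
  have _ := hM
  have c : g⁻¹ * ι x ∈ 𝐂(im ι F.U) := cen_im.2 fun u hu => by
    have := h u hu
    rw [im_cj r.mul (r.TP hx) (r.r1_U hu)] at this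
    calc _ = g⁻¹ * (ι x * ι u * (ι x)⁻¹) * ι x := by group
      _ = _ := by rw [← this]; group
  obtain ⟨m, om, p⟩ := exists_odd_P2 (g⁻¹ * ι x)
  have k : ∀ j : ℕ, (g⁻¹ * ι x) ^ j * (ι x ^ j)⁻¹ ∈ M := fun j => by
    induction j with
    | zero => simp
    | succ j ih =>
      convert mul_mem (inv_mem hg) (conj_mem_of_mem_normalizer (n hD) ih) using 1
      rw [pow_succ', pow_succ']
      group
  have a := inv_mem ((mul_mem_cancel_left (hU (r.twoU (pow_mem c m) p))).1 (k m))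
  rw [inv_inv] at a
  obtain ⟨j, hj⟩ := P2.of_mem r.syl.isP (mem_im_self ι (r.TP hx))
  have o : m.Coprime (orderOf (ι x)) := ((Nat.coprime_two_right.2 om).pow_right j).coprime_dvd_right
    (orderOf_dvd_of_pow_eq_one hj)
  obtain ⟨i, hi⟩ := exists_pow_eq_self_of_coprime o
  exact hi ▸ pow_mem a i

theorem Rc.r1_z {P : Subgroup X} {ι : X → G} (r : Rc F P ι) (hO : Cfsg.pPrimeCore 2 G = ⊥) {M L : Subgroup G}
    [hM : M.Normal] (hT : ∀ x ∈ F.T, ι x ∈ M) (h1 : L ≤ M) (h2 : M ≤ 𝐍(L)) (h3 : L ≠ ⊥) : ι F.z ∈ L := by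
  have ev : 2 ∣ Nat.card L := by
    by_contra k
    exact h3 (le_bot_iff.1 (hO ▸ (H1.le_map_subtype_pPrimeCore h1 h2
      ((Nat.prime_two.coprime_iff_not_dvd.2 k).symm)).trans (H1.map_subtype_pPrimeCore_le M)))
  have s1 := r.syl.inf_normal (le_top (a := M)) (normal_iff_top_le_normalizer.1 hM)
  have s2 := s1.inf_normal h1 h2
  obtain ⟨a, ⟨⟨⟨a1, -⟩, a2⟩, a3⟩, a4⟩ := (bot_or_exists_ne_one _).resolve_left (inf_centralizer_ne_bot s2.isP s1.isP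
    (le_normalizer_inf le_normalizer (inf_le_right.trans h2)) (s2.dvd_card_iff.1 ev))
  obtain ⟨c, hc, rfl⟩ := (mem_im r.mul).1 a1
  have k : ∀ x ∈ F.T, x * c = c * x := fun x hx => r.r1_eq (mul_mem (r.TP hx) hc) (mul_mem hc (r.TP hx)) (by
    rw [r.mul _ (r.TP hx) _ hc, r.mul _ hc _ (r.TP hx)]
    exact a3 _ ⟨mem_im_self ι (r.TP hx), hT x hx⟩)
  rcases F.cy1 (F.cenUV fun x hx => (k x (F.UVT hx)).symm) (k _ F.y1T) with e | e
  · exact absurd (by rw [e, im_one r.mul]) a4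
  · exact e ▸ a2

theorem Rc.r1_T {P : Subgroup X} {ι : X → G} (r : Rc F P ι) {M : Subgroup G} [hM : M.Normal] (hz : ι F.z ∈ M) :
    ∀ x ∈ F.T, ι x ∈ M := by
  have o : ι 1 ∈ M := im_one r.mul ▸ one_mem M
  have hU : ∀ u ∈ F.U, ι u ∈ M := fun u hu => by
    by_cases e : u = 1
    · exact e ▸ o
    obtain ⟨n, h1, h2, rfl⟩ := F.tr1 u hu e
    obtain ⟨y, e⟩ := r.cU n ⟨h1, h2⟩
    exact e _ F.zU ▸ hM.conj_mem _ hz y
  have hV : ∀ v ∈ F.V, ι v ∈ M := fun v hv => by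
    by_cases e : F.sw v = 1
    · rw [← F.sw_sw v, e, F.sw_one]
      exact o
    obtain ⟨n, h1, h2, e⟩ := F.tr1 _ (F.sw_V hv) e
    obtain ⟨y, e'⟩ := r.cV n ⟨h1, h2⟩
    have := e' _ F.zU
    rw [e, F.sw_sw, F.sw_Z0 F.zZ] at this
    exact this ▸ hM.conj_mem _ hz y
  have h1 : ι F.y1 ∈ M := by
    obtain ⟨n, n1, n2, e⟩ := F.n1
    obtain ⟨y, e'⟩ := r.cU n ⟨n1, n2⟩
    refine r.mem_of le_top (normal_iff_top_le_normalizer.1 hM) (im_le.2 hU) F.y1T (mem_top _)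
      (hM.conj_mem _ (hV _ F.y2V) y) fun u hu => ?_
    rw [r1_cj n2 e' (F.TU F.y2T) (fun u hu => (im_cj r.mul (r.TP F.y2T) (r.r1_U hu)).symm) u hu]
    have c := F.Uc e (conj_mem_of_mem_normalizer (F.TU F.y1T) hu)
    congr 1
    calc _ = n * F.y2 * n⁻¹ * F.y1⁻¹ * (F.y1 * u * F.y1⁻¹) * (n * F.y2 * n⁻¹ * F.y1⁻¹)⁻¹ := by group
      _ = _ := by rw [c, mul_inv_cancel_right]
  let B : Subgroup X :=
    { carrier := {x | x ∈ P ∧ ι x ∈ M}
      mul_mem' := fun {a b} ha hb => ⟨mul_mem ha.1 hb.1, r.mul a ha.1 b hb.1 ▸ mul_mem ha.2 hb.2⟩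
      one_mem' := ⟨one_mem _, o⟩
      inv_mem' := fun {a} ha => ⟨inv_mem ha.1, im_inv r.mul ha.1 ▸ inv_mem ha.2⟩ }
  exact fun x hx => (F.gT.trans (show _ ≤ B from sup_le (sup_le (fun u hu => ⟨r.r1_U hu, hU u hu⟩)
    fun v hv => ⟨r.TP (F.VT hv), hV v hv⟩) (zpowers_le.2 ⟨r.TP F.y1T, h1⟩)) hx).2

theorem Rc.exists_simple {P : Subgroup X} {ι : X → G} (r : Rc F P ι) (hO : Cfsg.pPrimeCore 2 G = ⊥) :
    ∃ M : Subgroup G, M.Normal ∧ IsSimpleGroup M ∧ ∃ (P' : Subgroup X) (ι' : X → M), Rc F P' ι' := by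
  classical
  have z1 : ι F.z ≠ 1 := fun e => F.z1 (r.inj _ (r.TP F.zT) e)
  obtain ⟨M, ⟨hM, ne⟩, mn⟩ := Set.exists_min_image {M : Subgroup G | M.Normal ∧ M ≠ ⊥} (fun M => Nat.card M)
    (Set.toFinite _) ⟨⊤, inferInstance, fun e => z1 (mem_bot.1 (e ▸ mem_top _))⟩
  have nM := normal_iff_top_le_normalizer.1 hM
  have hT := r.r1_T (r.r1_z hO (M := ⊤) (fun _ _ => mem_top _) le_top nM ne)
  haveI := (nontrivial_iff_ne_bot M).2 ne
  refine ⟨M, hM, ⟨fun H hH => or_iff_not_imp_left.2 fun h0 => ?_⟩, ?_⟩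
  · have l : H.map M.subtype ≤ M := map_subtype_le H
    have n : M ≤ 𝐍(H.map M.subtype) := le_normalizer_of_cj_le fun g hg => by
      rw [← map_subtype_cj H ⟨g, hg⟩, cj_eq_of_normal]
    have z : ι F.z ∈ (H.map M.subtype).normalCore := fun b => by
      have := r.r1_z hO hT (cj_le_of_mem_normalizer l (nM (mem_top b⁻¹))) (by
        rw [← cj_normalizer]
        exact (cj_eq_of_normal M b⁻¹).ge.trans (cj_mono _ n)) fun e =>
          h0 ((map_eq_bot_iff_of_injective H M.subtype_injective).1 (cj_eq_bot_iff.1 e))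
      rwa [mem_cj, inv_inv] at this
    have := eq_of_le_of_card_ge ((normalCore_le _).trans l)
      (mn _ ⟨inferInstance, fun e => z1 (mem_bot.1 (e ▸ z))⟩)
    refine top_unique fun x _ => ?_
    obtain ⟨y, hy, e⟩ := normalCore_le _ (this.ge x.2)
    exact (Subtype.ext e : y = x) ▸ hy
  let B : Subgroup X :=
    { carrier := {x | x ∈ P ∧ ι x ∈ M}
      mul_mem' := fun {a b} ha hb => ⟨mul_mem ha.1 hb.1, r.mul a ha.1 b hb.1 ▸ mul_mem ha.2 hb.2⟩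
      one_mem' := ⟨one_mem _, hT 1 (one_mem _)⟩
      inv_mem' := fun {a} ha => ⟨inv_mem ha.1, im_inv r.mul ha.1 ▸ inv_mem ha.2⟩ }
  obtain ⟨j, hj⟩ : ∃ j : X → M, ∀ x, ι x ∈ M → (j x : G) = ι x :=
    ⟨fun x => if h : ι x ∈ M then ⟨ι x, h⟩ else 1, fun x h => by simp only [dif_pos h]⟩
  have mu : ∀ x ∈ B, ∀ y ∈ B, j (x * y) = j x * j y := fun x hx y hy => Subtype.ext (by
    rw [coe_mul, hj _ (mul_mem hx hy).2, hj _ hx.2, hj _ hy.2, r.mul x hx.1 y hy.1])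
  refine ⟨B, j, r.p2.to_le fun _ h => h.1, fun x hx => ⟨r.TP hx, hT x hx⟩, mu,
    fun x hx e => r.inj x hx.1 (by rw [← hj _ hx.2, e, coe_one]), ?_, fun n hn => ?_, fun n hn => ?_⟩
  · convert (r.syl.inf_normal le_top nM).subgroupOf_top using 1
    refine le_antisymm (im_le.2 fun x hx => mem_subgroupOf.2 ?_) fun a ha => ?_
    · rw [hj _ hx.2]
      exact ⟨mem_im_self ι hx.1, hx.2⟩
    · obtain ⟨x, hx, e⟩ := (mem_im r.mul).1 (mem_subgroupOf.1 ha).1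
      have k : ι x ∈ M := e ▸ a.2
      exact (Subtype.ext ((hj x k).trans e) : j x = a) ▸ mem_im_self j (show x ∈ B from ⟨hx, k⟩)
  · obtain ⟨y, hy, e⟩ := r1_all (M := M) r.cU (fun v hv => ⟨_, hT v (F.VT hv), fun u hu =>
      (im_cj r.mul (r.TP (F.VT hv)) (r.r1_U hu)).symm⟩) n hn
    refine ⟨⟨y, hy⟩, fun u hu => Subtype.ext ?_⟩
    rw [coe_mul, coe_mul, coe_inv, hj _ (hT _ (F.UT hu)), hj _ (hT _ (F.UT (conj_mem_of_mem_normalizer hn.2 hu)))]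
    exact e u hu
  · obtain ⟨y, hy, e⟩ := r1_all (M := M) (f := fun x => ι (F.sw x)) r.cV (fun v hv =>
      ⟨_, hT _ (F.sw_T (F.VT hv)), fun u hu => by
        rw [F.sw_cj, im_cj r.mul (r.TP (F.sw_T (F.VT hv))) (r.TP (F.sw_T (F.UT hu)))]⟩) n hn
    refine ⟨⟨y, hy⟩, fun u hu => Subtype.ext ?_⟩
    rw [coe_mul, coe_mul, coe_inv, hj _ (hT _ (F.sw_T (F.UT hu))),
      hj _ (hT _ (F.sw_T (F.UT (conj_mem_of_mem_normalizer hn.2 hu))))]
    exact e u hu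

end H60.ML
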