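import Mathlib
import Cfsg.Agent.Lib.McLy.Base2

set_option autoImplicit false
set_option linter.unusedSectionVars false

namespace H60.ML

open Subgroup H69 H36.SW
open scoped commutatorElement

universe u
variable {X : Type} [Group X] [Finite X] {G : Type u} [Group G] [Finite G]
variable {F : Fy X} {t : G} {N K : Subgroup G} {α : G → X} {η E E' ε : X → G} {R : Subgroup G}

theorem y1_three {U1 U2 O : Subgroup G} (h1 : 𝐂(U1) ⊓ 𝐂(U2) ≤ (U1 ⊔ O) ⊔ U2)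
    (h2 : 𝐍(U1) ⊓ 𝐂(U2) ≤ 𝐍(O)) (h3 : 𝐍(U2) ⊓ 𝐂(U1) ≤ 𝐍(O)) (h4 : U2 ≤ 𝐂(U1)) :
    ⁅⁅𝐍(U1) ⊓ 𝐂(U2), 𝐍(U1) ⊓ 𝐂(U2)⁆, 𝐍(U2) ⊓ 𝐂(U1)⁆ ≤ U1 ⊔ O := by
  have n1 : 𝐍(U1) ⊓ 𝐂(U2) ≤ 𝐍((U1 ⊔ O : Subgroup G)) := le_normalizer_sup inf_le_left h2
  have n2 : 𝐍(U2) ⊓ 𝐂(U1) ≤ 𝐍((U1 ⊔ O : Subgroup G)) :=
    le_normalizer_sup (le_normalizer_of_le_centralizer inf_le_right) h3
  have n3 : U2 ≤ 𝐍((U1 ⊔ O : Subgroup G)) := (le_inf le_normalizer h4).trans n2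
  have c : ⁅𝐍(U1) ⊓ 𝐂(U2), 𝐍(U2) ⊓ 𝐂(U1)⁆ ≤ (U1 ⊔ O) ⊔ U2 := by
    refine le_trans (le_inf ?_ ?_) h1
    · exact (commutator_mono le_rfl inf_le_right).trans
        (commutator_le_right_of_le_normalizer (le_normalizer_centralizer inf_le_left))
    · exact (commutator_mono inf_le_right le_rfl).trans
        (commutator_le_left_of_le_normalizer (le_normalizer_centralizer inf_le_left))
  have k : ⁅(U1 ⊔ O) ⊔ U2, 𝐍(U1) ⊓ 𝐂(U2)⁆ ≤ U1 ⊔ O := by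
    refine commutator_sup_le_left le_normalizer n3 (commutator_le_left_of_le_normalizer n1) ?_
    rw [Subgroup.commutator_comm, commutator_eq_bot_of_le_centralizer inf_le_right]
    exact bot_le
  refine three_subgroups n1 n1 n2 ((commutator_mono c le_rfl).trans k) ?_
  rw [Subgroup.commutator_comm (𝐍(U2) ⊓ 𝐂(U1))]
  exact (commutator_mono c le_rfl).trans k

/-- the elements of `N_J(U)` induced on `ε U` -/
theorem y1_ind (f : X → G) (B : Subgroup G) : ∃ I : Subgroup X, ∀ n, n ∈ I ↔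
    n ∈ F.NU ∧ ∃ b ∈ B, ∀ u ∈ F.U, b * f u * b⁻¹ = f (n * u * n⁻¹) := by
  refine ⟨{ carrier := {n | n ∈ F.NU ∧ ∃ b ∈ B, ∀ u ∈ F.U, b * f u * b⁻¹ = f (n * u * n⁻¹)}
            mul_mem' := ?_, one_mem' := ?_, inv_mem' := ?_ }, fun n => Iff.rfl⟩
  · rintro n n' ⟨hn, b, hb, h⟩ ⟨hn', b', hb', h'⟩
    refine ⟨mul_mem hn hn', b * b', mul_mem hb hb', fun u hu => ?_⟩
    have := h _ (conj_mem_of_mem_normalizer hn'.2 hu)
    rw [← h' u hu] at this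
    calc b * b' * f u * (b * b')⁻¹ = b * (b' * f u * b'⁻¹) * b⁻¹ := by group
      _ = f (n * (n' * u * n'⁻¹) * n⁻¹) := this
      _ = _ := by congr 1; group
  · exact ⟨one_mem _, 1, one_mem _, fun u _ => by simp⟩
  · rintro n ⟨hn, b, hb, h⟩
    refine ⟨inv_mem hn, b⁻¹, inv_mem hb, fun u hu => ?_⟩
    have := h _ (conj_mem_of_mem_normalizer (inv_mem hn).2 hu)
    have e : n * (n⁻¹ * u * n⁻¹⁻¹) * n⁻¹ = u := by group
    rw [e] at this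
    rw [← this]
    group

theorem y1_comm {f : X → G} {B : Subgroup G}
    (h : ∀ n ∈ F.NU, ∃ b ∈ B, ∀ u ∈ F.U, b * f u * b⁻¹ = f (n * u * n⁻¹)) :
    ∀ n ∈ F.NU, ∃ b ∈ ⁅B, B⁆, ∀ u ∈ F.U, b * f u * b⁻¹ = f (n * u * n⁻¹) := by
  obtain ⟨I, hI⟩ := y1_ind (F := F) f ⁅B, B⁆
  have : ⁅F.NU, F.NU⁆ ≤ I := by
    rw [commutator_le]
    intro n hn n' hn'
    obtain ⟨b, hb, e⟩ := h n hn
    obtain ⟨b', hb', e'⟩ := h n' hn'
    have hN : ⁅n, n'⁆ ∈ F.NU := by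
      rw [commutatorElement_def]
      exact mul_mem (mul_mem (mul_mem hn hn') (inv_mem hn)) (inv_mem hn')
    refine (hI _).2 ⟨hN, ⁅b, b'⁆, commutator_mem_commutator hb hb', fun u hu => ?_⟩
    have u1 : n'⁻¹ * u * n' ∈ F.U := conj_mem_of_mem_normalizer' hn'.2 hu
    have u2 : n⁻¹ * (n'⁻¹ * u * n') * n ∈ F.U := conj_mem_of_mem_normalizer' hn.2 u1
    have u3 := conj_mem_of_mem_normalizer hn'.2 u2
    have a1 := e' _ u1
    have a2 := e _ u2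
    have a3 := e' _ u2
    have a4 := e _ u3
    have r1 : n' * (n'⁻¹ * u * n') * n'⁻¹ = u := by group
    have r2 : n * (n⁻¹ * (n'⁻¹ * u * n') * n) * n⁻¹ = n'⁻¹ * u * n' := by group
    rw [r1] at a1
    rw [r2] at a2
    have r3 : ⁅n, n'⁆ * u * ⁅n, n'⁆⁻¹ = n * (n' * (n⁻¹ * (n'⁻¹ * u * n') * n) * n'⁻¹) * n⁻¹ := by
      rw [commutatorElement_def]; group
    rw [r3, ← a4, ← a3, ← a1, ← a2, commutatorElement_def]
    group
  intro n hn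
  exact ((hI n).1 (this (F.pNU hn))).2

theorem Dq.p9 (d : Dq F t N K α η ε) {n : X} (hn : n ∈ F.NU) :
    ∃ y ∈ YY F t ε, ∀ u ∈ F.U, y * ε u * y⁻¹ = ε (n * u * n⁻¹) := by
  have c := d.c
  have fr := c.fr
  have ti : t⁻¹ = t := fr.ti
  have tt : t * t = 1 := fr.t2
  set U1 : Subgroup G := im ε F.U with hU1
  set U2 : Subgroup G := im ε F.U ^ᶜ t with hU2
  have hW : WW F t ε = U1 ⊔ U2 := rfl
  have WC : WW F t ε ≤ 𝐂(WW F t ε) := fun g hg =>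
    mem_centralizer_iff_commute.2 fun a ha => c.Wc ha hg
  obtain ⟨O, hO, nO, decO⟩ := cen_syl (H := 𝐂(WW F t ε)) (Z := WW F t ε) WC c.isP le_rfl
    (fun g hg h2 => c.two hg h2)
  have nWO : 𝐍(WW F t ε) ≤ 𝐍(O) := (normalizer_le_normalizer_centralizer _).trans nO
  have OC : O ≤ 𝐂(WW F t ε) := fun g hg => ((hO g).1 hg).1
  have CW : 𝐂(WW F t ε) = 𝐂(U1) ⊓ 𝐂(U2) := by rw [hW, centralizer_sup]
  have U1W : U1 ≤ WW F t ε := by rw [hW]; exact le_sup_left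
  have U2W : U2 ≤ WW F t ε := by rw [hW]; exact le_sup_right
  have cU : 𝐂(U1) ⊓ 𝐂(U2) ≤ WW F t ε ⊔ O := by
    rw [← CW]
    intro g hg
    obtain ⟨z, hz, o, ho, rfl⟩ := decO g hg
    exact mul_mem (mem_sup_left hz) (mem_sup_right ho)
  set N1 : Subgroup G := 𝐍(U1) ⊓ 𝐂(U2) with hN1
  set N2 : Subgroup G := 𝐍(U2) ⊓ 𝐂(U1) with hN2
  have N1W : N1 ≤ 𝐍(WW F t ε) := by
    rw [hW]
    exact le_normalizer_sup inf_le_left (le_normalizer_of_le_centralizer inf_le_right)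
  have N2W : N2 ≤ 𝐍(WW F t ε) := by
    rw [hW]
    exact le_normalizer_sup (le_normalizer_of_le_centralizer inf_le_right) inf_le_left
  have c21 : U2 ≤ 𝐂(U1) := U2W.trans (WC.trans (centralizer_anti U1W))
  have c12 : U1 ≤ 𝐂(U2) := U1W.trans (WC.trans (centralizer_anti U2W))
  have t1 : ⁅⁅N1, N1⁆, N2⁆ ≤ U1 ⊔ O := by
    refine y1_three (cU.trans ?_) (N1W.trans nWO) (N2W.trans nWO) c21
    rw [hW]
    exact sup_le (sup_le (le_sup_left.trans le_sup_left) le_sup_right) (le_sup_right.trans le_sup_left)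
  have t2 : ⁅⁅N2, N2⁆, N1⁆ ≤ U2 ⊔ O := by
    refine y1_three ((inf_comm _ _).le.trans (cU.trans ?_)) (N2W.trans nWO) (N1W.trans nWO) c12
    rw [hW]
    exact sup_le (sup_le le_sup_right (le_sup_left.trans le_sup_left)) (le_sup_right.trans le_sup_left)
  have B1N : ⁅N1, N1⁆ ≤ N1 := commutator_le_of_le le_rfl le_rfl
  have B2N : ⁅N2, N2⁆ ≤ N2 := commutator_le_of_le le_rfl le_rfl
  have t3 : ⁅⁅N1, N1⁆, ⁅N2, N2⁆⁆ ≤ O := by
    intro g hg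
    have g1 : g ∈ U1 ⊔ O := t1 (commutator_mono le_rfl B2N hg)
    have g2 : g ∈ U2 ⊔ O := by
      rw [Subgroup.commutator_comm] at hg
      exact t2 (commutator_mono le_rfl B1N hg)
    obtain ⟨a, ha, o, ho, rfl⟩ :=
      (mem_sup_of_le_normalizer_right (U1W.trans (le_normalizer.trans nWO))).1 g1
    obtain ⟨a', ha', o', ho', e⟩ :=
      (mem_sup_of_le_normalizer_right (U2W.trans (le_normalizer.trans nWO))).1 g2
    have m1 : a'⁻¹ * a ∈ O := by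
      have : a'⁻¹ * a = o' * o⁻¹ := by
        calc a'⁻¹ * a = a'⁻¹ * (a * o) * o⁻¹ := by group
          _ = o' * o⁻¹ := by rw [e]; group
      rw [this]
      exact mul_mem ho' (inv_mem ho)
    have m2 : a'⁻¹ * a = 1 :=
      (P2.of_mem c.isP (mul_mem (inv_mem (U2W ha')) (U1W ha))).eq_one ((hO _).1 m1).2
    have m3 : a = a' := by
      rw [inv_mul_eq_one] at m2
      exact m2.symm
    obtain ⟨u, hu, rfl⟩ := c.mem1.1 ha
    obtain ⟨u', hu', e'⟩ := c.mem2.1 ha'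
    have := (c.W_inj hu (one_mem _) (one_mem _) hu' (by
      rw [c.one, mul_one, tt, mul_one, one_mul, e', m3])).1
    rw [this, c.one, one_mul]
    exact ho
  -- elements of `K ⊓ N(W)` normalise everything
  have kn1 : ∀ γ ∈ K, γ ∈ 𝐍(WW F t ε) → γ ∈ 𝐍(U1) := fun γ hγ h =>
    nrm_im fun y hy => ⟨_, conj_mem_of_mem_normalizer (c.nU hγ h).2 hy, c.eqv γ hγ h y hy⟩
  have kn2 : ∀ γ ∈ K, γ ∈ 𝐍(WW F t ε) → γ ∈ 𝐍(U2) := fun γ hγ h => by
    rw [← cj_eq_self_iff, hU2, cj_cj, fr.Kt hγ, ← cj_cj, cj_eq_of_mem_normalizer (kn1 γ hγ h)]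
  have εN : ∀ x ∈ F.UV, ε x ∈ N1 := fun x hx => by
    refine ⟨nrm_im fun y hy => ⟨x * y * x⁻¹, conj_mem_of_mem_normalizer (F.TU (F.UVT hx)) hy,
      (im_cj d.mul hx (F.mU hy)).symm⟩, mem_centralizer_iff_commute.2 fun a ha => ?_⟩
    obtain ⟨u, hu, rfl⟩ := c.mem2.1 ha
    exact (d.cm x hx u (F.mU hu)).symm
  have nN1 : ∀ γ, γ ∈ 𝐍(U1) → γ ∈ 𝐍(U2) → γ ∈ 𝐍(N1) := fun γ h1 h2 =>
    le_normalizer_inf (L := zpowers γ) (le_normalizer_normalizer (zpowers_le.2 h1))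
      (le_normalizer_centralizer (zpowers_le.2 h2)) (mem_zpowers γ)
  have nN2 : ∀ γ, γ ∈ 𝐍(U1) → γ ∈ 𝐍(U2) → γ ∈ 𝐍(N2) := fun γ h1 h2 =>
    le_normalizer_inf (L := zpowers γ) (le_normalizer_normalizer (zpowers_le.2 h2))
      (le_normalizer_centralizer (zpowers_le.2 h1)) (mem_zpowers γ)
  have i1 : ∀ n ∈ F.NU, ∃ b ∈ N1, ∀ u ∈ F.U, b * ε u * b⁻¹ = ε (n * u * n⁻¹) := by
    obtain ⟨I, hI⟩ := y1_ind (F := F) ε N1
    have : closure {x | ∃ m ∈ F.J ⊓ 𝐍(F.U), ∃ v ∈ F.V, x = m * v * m⁻¹} ≤ I := by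
      rw [closure_le]
      rintro x ⟨m, hm, v, hv, rfl⟩
      obtain ⟨γ, hγ, hγW, rfl⟩ := c.cov m hm
      have vN : v ∈ F.NU := F.TNU (F.VT hv)
      refine (hI _).2 ⟨mul_mem (mul_mem hm vN) (inv_mem hm), γ * ε v * γ⁻¹,
        conj_mem_of_mem_normalizer (nN1 γ (kn1 γ hγ hγW) (kn2 γ hγ hγW)) (εN v (F.mV hv)),
        fun u hu => ?_⟩
      have u1 : (α γ)⁻¹ * u * α γ ∈ F.U := conj_mem_of_mem_normalizer' hm.2 hu
      have u2 := conj_mem_of_mem_normalizer vN.2 u1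
      have a1 := c.eqv γ hγ hγW _ u1
      have a2 := im_cj d.mul (F.mV hv) (F.mU u1)
      have a3 := c.eqv γ hγ hγW _ u2
      have r1 : α γ * ((α γ)⁻¹ * u * α γ) * (α γ)⁻¹ = u := by group
      rw [r1] at a1
      have r2 : α γ * v * (α γ)⁻¹ * u * (α γ * v * (α γ)⁻¹)⁻¹ =
          α γ * (v * ((α γ)⁻¹ * u * α γ) * v⁻¹) * (α γ)⁻¹ := by group
      rw [r2, ← a3, a2, ← a1]
      group
    intro n hn
    exact ((hI n).1 (this (F.ncl hn))).2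
  have i1' := y1_comm i1
  have U21 : U2 ^ᶜ t = U1 := by rw [hU2, cj_cj, tt, cj_one]
  have N12 : N1 ^ᶜ t = N2 := by rw [hN1, cj_inf, cj_normalizer, cj_centralizer, U21]
  have B12 : ⁅N1, N1⁆ ^ᶜ t = ⁅N2, N2⁆ := by rw [cj_commutator, N12]
  have tB : ∀ b ∈ ⁅N1, N1⁆, t * b * t ∈ ⁅N2, N2⁆ := fun b hb => by
    have := cj_mem t hb
    rwa [B12, ti] at this
  have tN : ∀ b ∈ N1, t * b * t ∈ N2 := fun b hb => by
    have := cj_mem t hb
    rwa [N12, ti] at this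
  have eU : ∀ u ∈ F.U, F.e * u * F.e⁻¹ ∈ F.U := fun u hu => conj_mem_of_mem_normalizer F.eU hu
  have e3 : ∀ u ∈ F.U, ε u * ε (F.e * u * F.e⁻¹) = ε (F.e * (F.e * u * F.e⁻¹) * F.e⁻¹) := by
    intro u hu
    have h := F.e3 u hu
    rw [← c.mul u hu _ (eU u hu), eq_inv_of_mul_eq_one_left h,
      inv_eq_of_mul_eq_one_right (F.U2 _ (eU _ (eU u hu)))]
  have UB : ∀ u ∈ F.U, ε u ∈ ⁅N1, N1⁆ := by
    intro u hu
    obtain ⟨δ, hδ, h⟩ := i1 F.e F.eNU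
    have := commutator_mem_commutator hδ (εN _ (F.mU (eU u hu)))
    rw [commutatorElement_def, h _ (eU u hu), ← e3 u hu, mul_inv_cancel_right] at this
    exact this
  set D : Subgroup G := ⁅N2, N2⁆ ⊔ O with hD
  have UD : ∀ u ∈ F.U, t * ε u * t ∈ D := fun u hu => mem_sup_left (tB _ (UB u hu))
  have VD : ∀ v ∈ F.V, t * ε v * t ∈ D := by
    intro v hv
    have vN : v ∈ F.NU := F.TNU (F.VT hv)
    obtain ⟨b, hb, hbv⟩ := i1' v vN
    have tk : ∀ g : G, t * (t * g) = g := fun g => by rw [← mul_assoc, tt, one_mul]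
    have m1 : t * (b⁻¹ * ε v) * t ∈ 𝐂(WW F t ε) := by
      rw [CW]
      refine ⟨(tN _ (mul_mem (inv_mem (B1N hb)) (εN v (F.mV hv)))).2,
        mem_centralizer_iff_commute.2 fun a ha => ?_⟩
      obtain ⟨u, hu, rfl⟩ := c.mem2.1 ha
      have a1 := hbv u hu
      rw [im_cj d.mul (F.mV hv) (F.mU hu)] at a1
      have a2 : ε u * (b⁻¹ * ε v) = b⁻¹ * ε v * ε u := by
        calc ε u * (b⁻¹ * ε v) = b⁻¹ * (b * ε u * b⁻¹) * ε v := by group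
          _ = b⁻¹ * ε v * ε u := by rw [a1]; group
      calc t * ε u * t * (t * (b⁻¹ * ε v) * t) = t * (ε u * (b⁻¹ * ε v)) * t := by
            simp only [mul_assoc, tk]
        _ = t * (b⁻¹ * ε v) * t * (t * ε u * t) := by rw [a2]; simp only [mul_assoc, tk]
    obtain ⟨w, hw, o, ho, e1⟩ := decO _ m1
    obtain ⟨u, hu, u', hu', rfl⟩ := c.memW.1 hw
    have s0 : (ε u)⁻¹ * (t * ε v * t) ∈ D := by
      have cb : ε u * (t * b * t) = t * b * t * ε u :=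
        mem_centralizer_iff_commute.1 (B2N (tB b hb)).2 _ (mem_im_self ε hu)
      have : (ε u)⁻¹ * (t * ε v * t) = t * b * t * (t * ε u' * t) * o := by
        calc (ε u)⁻¹ * (t * ε v * t) = (ε u)⁻¹ * (t * b * t * (t * (b⁻¹ * ε v) * t)) := by
              simp only [mul_assoc, tk, mul_inv_cancel_left]
          _ = (ε u)⁻¹ * (t * b * t * ε u) * (t * ε u' * t) * o := by rw [e1]; group
          _ = _ := by rw [← cb]; group
      rw [this]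
      exact mul_mem (mul_mem (mem_sup_left (tB b hb)) (UD u' hu')) (mem_sup_right ho)
    obtain ⟨γ, hγ, g1, g2, hα⟩ := d.nq F.e F.eNU F.eV
    have γD : γ ∈ 𝐍(D) := by
      have h2 : zpowers γ ≤ 𝐍(N2) := zpowers_le.2 (nN2 γ (kn1 γ hγ g1) (kn2 γ hγ g1))
      exact le_normalizer_sup (le_normalizer_commutator h2 h2) (zpowers_le.2 (nWO g1)) (mem_zpowers γ)
    have γv : γ * (t * ε v * t) * γ⁻¹ = t * ε (F.e * v * F.e⁻¹ * v⁻¹) * t * (t * ε v * t) := by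
      have a1 := (d.eqv hγ g1 g2 (F.mV hv)).2
      rw [hα] at a1
      have a2 : ε (F.e * v * F.e⁻¹) = ε (F.e * v * F.e⁻¹ * v⁻¹) * ε v := by
        rw [← d.mul _ (F.mU (F.eV' v hv)) _ (F.mV hv), inv_mul_cancel_right]
      have a3 : γ * t * γ⁻¹ = t := fr.cjt (fr.KN hγ)
      calc γ * (t * ε v * t) * γ⁻¹ = (γ * t * γ⁻¹) * (γ * ε v * γ⁻¹) * (γ * t * γ⁻¹) := by group
        _ = _ := by rw [a3, a1, a2]; simp only [mul_assoc, tk]
    have step : ∀ u ∈ F.U, (ε u)⁻¹ * (t * ε v * t) ∈ D →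
        (ε (F.e * u * F.e⁻¹))⁻¹ * (t * ε v * t) ∈ D := by
      intro u hu h
      have a1 := conj_mem_of_mem_normalizer γD h
      have a2 := c.eqv γ hγ g1 u hu
      rw [hα] at a2
      have a3 := c.cm _ (eU u hu) _ (F.eV' v hv)
      have : (ε (F.e * u * F.e⁻¹))⁻¹ * (t * ε v * t) =
          (t * ε (F.e * v * F.e⁻¹ * v⁻¹) * t)⁻¹ * (γ * ((ε u)⁻¹ * (t * ε v * t)) * γ⁻¹) := by
        calc (ε (F.e * u * F.e⁻¹))⁻¹ * (t * ε v * t)
            = (t * ε (F.e * v * F.e⁻¹ * v⁻¹) * t)⁻¹ * ((ε (F.e * u * F.e⁻¹))⁻¹ *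
                (ε (F.e * u * F.e⁻¹) * (t * ε (F.e * v * F.e⁻¹ * v⁻¹) * t)) *
                (ε (F.e * u * F.e⁻¹))⁻¹ * (t * ε v * t)) := by group
          _ = (t * ε (F.e * v * F.e⁻¹ * v⁻¹) * t)⁻¹ * ((γ * ε u * γ⁻¹)⁻¹ *
                (γ * (t * ε v * t) * γ⁻¹)) := by rw [a3, a2, γv]; group
          _ = _ := by group
      rw [this]
      exact mul_mem (inv_mem (UD _ (F.eV' v hv))) a1
    have s1 := step u hu s0
    have s2 := step _ (eU u hu) s1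
    have s3 : ε (F.e * (F.e * u * F.e⁻¹) * F.e⁻¹) ∈ D := by
      have := mul_mem s0 (inv_mem s1)
      have e : (ε u)⁻¹ * (t * ε v * t) * ((ε (F.e * u * F.e⁻¹))⁻¹ * (t * ε v * t))⁻¹ =
          (ε u)⁻¹ * ε (F.e * u * F.e⁻¹) := by group
      rwa [e, c.Ei hu, e3 u hu] at this
    have := mul_mem s3 s2
    rwa [mul_inv_cancel_left] at this
  have QD : im ε F.UV ^ᶜ t ≤ D := by
    intro g hg
    obtain ⟨x, hx, rfl⟩ := (d.mem2 le_rfl).1 hg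
    obtain ⟨u, hu, v, hv, rfl⟩ := F.mem_UV.1 hx
    have := mul_mem (UD u hu) (VD v hv)
    have e : t * ε u * t * (t * ε v * t) = t * (ε u * ε v) * t := by
      calc t * ε u * t * (t * ε v * t) = t * ε u * (t * t) * ε v * t := by group
        _ = _ := by rw [tt]; group
    rwa [e, ← d.mul u (F.mU hu) v (F.mV hv)] at this
  have B2O : ⁅N2, N2⁆ ≤ 𝐍(O) := B2N.trans (N2W.trans nWO)
  have B1O : ⁅N1, N1⁆ ≤ 𝐍(O) := B1N.trans (N1W.trans nWO)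
  have DO : D ≤ 𝐍(O) := sup_le B2O le_normalizer
  obtain ⟨b, hb, hbn⟩ := i1' n hn
  have Q2 : IsPGroup 2 (im ε F.UV ^ᶜ t : Subgroup G) := isPGroup_cj (isP_im d.mul F.UV2) t
  obtain ⟨o, ho, hoc⟩ := cen_cov Q2 (fun o ho => ((hO o).1 ho).2) (QD.trans DO) (B1O hb) (by
    intro p hp
    obtain ⟨b2, hb2, o, ho, rfl⟩ := (mem_sup_of_le_normalizer_right B2O).1 (QD hp)
    have a1 : ⁅b, b2⁆ ∈ O := t3 (commutator_mem_commutator hb hb2)
    have a2 : b2 * (b * o * b⁻¹ * o⁻¹) * b2⁻¹ ∈ O :=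
      conj_mem_of_mem_normalizer (B2O hb2)
        (mul_mem (conj_mem_of_mem_normalizer (B1O hb) ho) (inv_mem ho))
    have e : b * (b2 * o) * b⁻¹ * (b2 * o)⁻¹ = ⁅b, b2⁆ * (b2 * (b * o * b⁻¹ * o⁻¹) * b2⁻¹) := by
      rw [commutatorElement_def]; group
    rw [e]
    exact mul_mem a1 a2)
  refine ⟨o * b, hoc, fun u hu => ?_⟩
  have a := conj_eq_of_mem_centralizer (OC ho) (c.EW (conj_mem_of_mem_normalizer hn.2 hu))
  rw [← a, ← hbn u hu]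
  group

end H60.ML
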