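import Mathlib
import Cfsg.Agent.Lib.McLy.Base2
import Cfsg.Agent.Lib.McLy.Y1

set_option autoImplicit false
set_option linter.unusedSectionVars false

namespace H60.ML

open Subgroup H69 H36.SW
open scoped commutatorElement

universe u
variable {X : Type} [Group X] [Finite X] {G : Type u} [Group G] [Finite G]
variable {F : Fy X} {t : G} {N K : Subgroup G} {α : G → X} {η E E' ε : X → G} {R : Subgroup G}

theorem y2_mZ {c : X} (hc : c ∈ F.Z0) : c ∈ F.UV := F.mU hc.1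

theorem y2_lift (d : Dq F t N K α η ε) {n : X} (hn : n ∈ F.NU) :
    ∃ y ∈ YY F t ε, y ∈ 𝐍(im ε F.U ⊔ Z2 F t ε) ∧ y ∈ 𝐍(im ε F.U) ∧
      ∀ u ∈ F.U, y * ε u * y⁻¹ = ε (n * u * n⁻¹) := by
  obtain ⟨y, hy, h⟩ := d.p9 hn
  have h1 : y ∈ 𝐍(im ε F.U) :=
    nrm_im fun u hu => ⟨_, conj_mem_of_mem_normalizer hn.2 hu, h u hu⟩
  refine ⟨y, hy, ?_, h1, h⟩
  rw [← cj_eq_self_iff, cj_sup, cj_eq_of_mem_normalizer h1, cj_eq_of_mem_centralizer (d.YZ hy)]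

theorem y2_dec (d : Dq F t N K α η ε) {x : G} (h1 : x ∈ 𝐍(im ε F.U ⊔ Z2 F t ε)) {u : X} (hu : u ∈ F.U) :
    ∃ a ∈ F.U, ∃ c ∈ F.Z0, x * ε u * x⁻¹ = ε a * (t * ε c * t) :=
  (d.mem12 (Y := F.U) (Y' := F.Z0) le_sup_left (inf_le_left.trans le_sup_left)).1
    (conj_mem_of_mem_normalizer h1 (mem_sup_left (mem_im_self ε hu)))

theorem y2_sym (d : Dq F t N K α η ε) {x : G} (hx : x ∈ YY F t ε)
    (h1 : x ∈ 𝐍(im ε F.U ⊔ Z2 F t ε)) (h2 : ∀ c ∈ F.Z0, x * ε c = ε c * x) :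
    ∃ n ∈ F.NU, ∀ u ∈ F.U, ∀ a ∈ F.U, ∀ c ∈ F.Z0, x * ε u * x⁻¹ = ε a * (t * ε c * t) →
      n * u * n⁻¹ = a * c := by
  have t2 := d.c.fr.t2
  have ti := d.c.fr.ti
  have hY := d.memY.1 hx
  have tt : ∀ g : G, t * (t * g * t) * t = g := fun g => by
    calc t * (t * g * t) * t = (t * t) * g * (t * t) := by group
      _ = g := by rw [t2, one_mul, mul_one]
  -- the action of `k = x · t x t`
  have k1 : ∀ u ∈ F.U, x * (t * x * t) * ε u * (x * (t * x * t))⁻¹ = x * ε u * x⁻¹ := fun u hu => by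
    have e : t * x * t * ε u = ε u * (t * x * t) := by
      calc t * x * t * ε u = t * (x * (t * ε u * t)) * t⁻¹ := by group
        _ = (t * t) * ε u * (t * x * t⁻¹) := by rw [hY u (F.mU hu)]; group
        _ = ε u * (t * x * t) := by rw [t2, one_mul, ti]
    calc _ = x * (t * x * t * ε u) * (t * x * t)⁻¹ * x⁻¹ := by group
      _ = _ := by rw [e]; group
  have k2 : ∀ u ∈ F.U, x * (t * x * t) * (t * ε u * t) * (x * (t * x * t))⁻¹ =
      t * (x * ε u * x⁻¹) * t := fun u hu => by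
    obtain ⟨a, ha, c, hc, e⟩ := y2_dec d h1 hu
    calc _ = x * (t * (x * ((t * t) * ε u * (t * t⁻¹)) * x⁻¹) * t⁻¹) * x⁻¹ := by group
      _ = x * (t * (x * ε u * x⁻¹) * t) * x⁻¹ := by rw [t2, one_mul, mul_inv_cancel, mul_one, ti]
      _ = x * (t * ε a * t⁻¹ * (t * (t * ε c * t) * t)) * x⁻¹ := by rw [e]; group
      _ = (x * (t * ε a * t) * x⁻¹) * (x * ε c * x⁻¹) := by rw [tt, ti]; group
      _ = t * ε a * t⁻¹ * (t * (t * ε c * t) * t) := by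
        rw [hY a (F.mU ha), h2 c hc, mul_inv_cancel_right, mul_inv_cancel_right, tt, ti]
      _ = _ := by rw [e]; group
  have xW : ∀ u ∈ F.U, x * ε u * x⁻¹ ∈ WW F t ε := fun u hu => by
    obtain ⟨a, ha, c, hc, e⟩ := y2_dec d h1 hu
    exact d.c.memW.2 ⟨a, ha, c, hc.1, e⟩
  have tW : ∀ w ∈ WW F t ε, t * w * t ∈ WW F t ε := fun w hw => by
    have := conj_mem_of_mem_normalizer d.c.tW hw
    rwa [ti] at this
  generalize x * (t * x * t) = k at k1 k2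
  have kN : k ∈ 𝐍(WW F t ε) := by
    refine mem_normalizer_of_cj_le fun w hw => ?_
    obtain ⟨w', hw', rfl⟩ := mem_cj'.1 hw
    obtain ⟨u, hu, v, hv, rfl⟩ := d.c.memW.1 hw'
    rw [show k * (ε u * (t * ε v * t)) * k⁻¹ = (k * ε u * k⁻¹) * (k * (t * ε v * t) * k⁻¹) by group,
      k1 u hu, k2 v hv]
    exact mul_mem (xW u hu) (tW _ (xW v hv))
  obtain ⟨n, hn, hk⟩ := d.c.act kN fun w hw => by
    obtain ⟨u, hu, v, hv, rfl⟩ := d.c.memW.1 hw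
    calc k * (t * (ε u * (t * ε v * t)) * t) * k⁻¹
        = k * (t * ε u * t⁻¹ * (t * (t * ε v * t) * t)) * k⁻¹ := by group
      _ = (k * (t * ε u * t) * k⁻¹) * (k * ε v * k⁻¹) := by rw [tt, ti]; group
      _ = t * (x * ε u * x⁻¹) * t⁻¹ * (t * (t * (x * ε v * x⁻¹) * t) * t) := by
        rw [k1 v hv, k2 u hu, tt, ti]
      _ = t * ((k * ε u * k⁻¹) * (k * (t * ε v * t) * k⁻¹)) * t := by rw [k1 u hu, k2 v hv]; group
      _ = _ := by group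
  refine ⟨n, hn, fun u hu a ha c hc e => ?_⟩
  refine d.c.lf.inj (F.mU (conj_mem_of_mem_normalizer hn.2 hu)) (F.mU (mul_mem ha hc.1)) ?_
  rw [← hk u hu, ← d.c.hat u hu, ← d.c.hat _ (mul_mem ha hc.1), d.c.mul a ha c hc.1]
  calc k * (ε u * (t * ε u * t)) * k⁻¹ = (k * ε u * k⁻¹) * (k * (t * ε u * t) * k⁻¹) := by group
    _ = ε a * (t * ε c * t) * (t * ε a * t⁻¹ * (t * (t * ε c * t) * t)) := by
      rw [k1 u hu, k2 u hu, e]; group
    _ = ε a * ((t * ε c * t) * (t * ε a * t) * ε c) := by rw [tt, ti]; group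
    _ = ε a * ((t * (ε c * (t * t) * ε a) * t) * ε c) := by group
    _ = ε a * ((t * ε (a * c) * t) * ε c) := by
      rw [t2, mul_one, d.c.Ec hc.1 ha, d.c.mul a ha c hc.1]
    _ = _ := by rw [← d.c.cm c hc.1 _ (mul_mem ha hc.1), d.c.mul a ha c hc.1]; group

/-- the last step: `x ε u x⁻¹ = ε (u c) · t (ε c) t` -/
theorem y2_fix (d : Dq F t N K α η ε) {x : G} (hx : x ∈ YY F t ε)
    (h1 : x ∈ 𝐍(im ε F.U ⊔ Z2 F t ε)) (h2 : ∀ c ∈ F.Z0, x * ε c = ε c * x)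
    (h3 : ∀ u ∈ F.U, ∃ c ∈ F.Z0, x * ε u * x⁻¹ = ε (u * c) * (t * ε c * t))
    {m c0 : X} (hm : m ∈ F.NU) (hmZ : m ∈ 𝐍(F.Z0)) (hc0 : c0 ∈ F.U)
    (h : ∀ c ∈ F.Z0, m * c * m⁻¹ = c ∨ m * c * m⁻¹ = c * c0) {u c : X} (hu : u ∈ F.U) (hc : c ∈ F.Z0)
    (e : x * ε u * x⁻¹ = ε (u * c) * (t * ε c * t)) : m * c * m⁻¹ = c := by
  obtain ⟨y, hy, y1, -, y3⟩ := y2_lift d hm
  have y4 : ∀ u ∈ F.U, y⁻¹ * ε u * y = ε (m⁻¹ * u * m) := fun u hu => by
    have := y3 _ (conj_mem_of_mem_normalizer' hm.2 hu)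
    rw [show m * (m⁻¹ * u * m) * m⁻¹ = u by group] at this
    rw [← this]; group
  obtain ⟨n, hn, hk⟩ := y2_sym d (x := y * x * y⁻¹) (mul_mem (mul_mem hy hx) (inv_mem hy))
    (mul_mem (mul_mem y1 h1) (inv_mem y1)) fun c hc => by
      have := h2 _ (conj_mem_of_mem_normalizer' hmZ hc)
      rw [← y4 c hc.1] at this
      calc y * x * y⁻¹ * ε c = y * (x * (y⁻¹ * ε c * y)) * y⁻¹ := by group
        _ = _ := by rw [this]; group
  have key : ∀ u ∈ F.U, ∀ c ∈ F.Z0, x * ε u * x⁻¹ = ε (u * c) * (t * ε c * t) →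
      n * (m * u * m⁻¹) * n⁻¹ = m * u * m⁻¹ * (m * c * m⁻¹ * c) := fun u hu c hc e => by
    have := hk _ (conj_mem_of_mem_normalizer hm.2 hu) _
      (conj_mem_of_mem_normalizer hm.2 (mul_mem hu hc.1)) c hc (by
        rw [← y3 u hu, ← y3 _ (mul_mem hu hc.1)]
        calc y * x * y⁻¹ * (y * ε u * y⁻¹) * (y * x * y⁻¹)⁻¹ = y * (x * ε u * x⁻¹) * y⁻¹ := by group
          _ = y * ε (u * c) * y⁻¹ * (y * (t * ε c * t) * y⁻¹) := by rw [e]; group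
          _ = _ := by rw [d.memY.1 hy c (y2_mZ hc), mul_inv_cancel_right])
    rw [this]; group
  have nU : n ∈ F.U := F.notr hc0 fun v hv => by
    have hv' := conj_mem_of_mem_normalizer' hm.2 hv
    obtain ⟨c, hc, e⟩ := h3 _ hv'
    have := key _ hv' c hc e
    rw [show m * (m⁻¹ * v * m) * m⁻¹ = v by group] at this
    rcases h c hc with h | h
    · left
      rw [this, h, F.U2 c hc.1, mul_one]
    · right
      rw [this, h, F.Uc hc.1 hc0, mul_assoc c0, F.U2 c hc.1, mul_one]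
  have := key u hu c hc e
  rw [F.Uc nU (conj_mem_of_mem_normalizer hm.2 hu), mul_inv_cancel_right, left_eq_mul] at this
  rw [eq_inv_of_mul_eq_one_left this]
  exact inv_eq_of_mul_eq_one_left (F.U2 c hc.1)

theorem y2_three (d : Dq F t N K α η ε) {x : G} (hx : x ∈ YY F t ε)
    (h1 : x ∈ 𝐍(im ε F.U ⊔ Z2 F t ε)) (h2 : ∀ c ∈ F.Z0, x * ε c = ε c * x)
    (h3 : ∀ u ∈ F.U, ∃ c ∈ F.Z0, x * ε u * x⁻¹ = ε (u * c) * (t * ε c * t)) : x ∈ 𝐍(im ε F.U) := by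
  have yZ : F.y1 ∈ 𝐍(F.Z0) := F.nZ0 (F.TU F.y1T) (F.TV F.y1T)
  have eZ : F.e ∈ 𝐍(F.Z0) := F.nZ0 F.eU F.eV
  refine nrm_im fun u hu => ?_
  obtain ⟨c, hc, e⟩ := h3 u hu
  have a1 := y2_fix d hx h1 h2 h3 (F.TNU F.y1T) yZ F.zU (fun c hc => F.y1Z hc) hu hc e
  have a2 := y2_fix d hx h1 h2 h3 (m := F.e * F.y1 * F.e⁻¹) (c0 := F.e * F.z * F.e⁻¹)
    (mul_mem (mul_mem F.eNU (F.TNU F.y1T)) (inv_mem F.eNU)) (mul_mem (mul_mem eZ yZ) (inv_mem eZ))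
    (conj_mem_of_mem_normalizer F.eU F.zU) (fun c hc => by
      have e0 : F.e * F.y1 * F.e⁻¹ * c * (F.e * F.y1 * F.e⁻¹)⁻¹ =
          F.e * (F.y1 * (F.e⁻¹ * c * F.e) * F.y1⁻¹) * F.e⁻¹ := by group
      rcases F.y1Z (conj_mem_of_mem_normalizer' eZ hc) with h | h
      · left
        rw [e0, h]; group
      · right
        rw [e0, h]; group) hu hc e
  have c1 : c = 1 := by
    rcases F.cy1 hc (mul_inv_eq_iff_eq_mul.1 a1) with h | h
    · exact h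
    have b : F.y1 * (F.e⁻¹ * c * F.e) = (F.e⁻¹ * c * F.e) * F.y1 := by
      conv_rhs => rw [← a2]
      group
    rcases F.cy1 (conj_mem_of_mem_normalizer' eZ hc) b with h' | h'
    · by_contra hne
      exact cjne' hne F.e h'
    · rw [h] at h'
      refine absurd (F.efix F.zU ?_) F.z1
      conv_lhs => rw [← h']
      group
  exact ⟨u, hu, by rw [e, c1, mul_one, d.c.one, mul_one, d.c.fr.t2, mul_one]⟩

theorem y2_two (d : Dq F t N K α η ε) {x : G} (hx : x ∈ YY F t ε)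
    (h1 : x ∈ 𝐍(im ε F.U ⊔ Z2 F t ε)) (h2 : ∀ c ∈ F.Z0, x * ε c = ε c * x) : x ∈ 𝐍(im ε F.U) := by
  obtain ⟨n, hn, hk⟩ := y2_sym d hx h1 h2
  obtain ⟨y, hy, y1, y2, y3⟩ := y2_lift d (inv_mem hn)
  have nZ : ∀ c ∈ F.Z0, n⁻¹ * c * n⁻¹⁻¹ = c := fun c hc => by
    have := hk c hc.1 c hc.1 1 (one_mem _) (by
      rw [h2 c hc, d.c.one, mul_one, d.c.fr.t2, mul_one, mul_inv_cancel_right])
    rw [mul_one] at this
    conv_lhs => rw [← this]
    group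
  have := y2_three d (x := x * y) (mul_mem hx hy) (mul_mem h1 y1) (fun c hc => by
    have := y3 c hc.1
    rw [nZ c hc] at this
    rw [mul_assoc, mul_inv_eq_iff_eq_mul.1 this, ← mul_assoc, h2 c hc, mul_assoc]) fun u hu => by
      have hu' := conj_mem_of_mem_normalizer (inv_mem hn.2) hu
      obtain ⟨a, ha, c, hc, e⟩ := y2_dec d h1 hu'
      have e1 := hk _ hu' a ha c hc e
      rw [show n * (n⁻¹ * u * n⁻¹⁻¹) * n⁻¹ = u by group] at e1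
      refine ⟨c, hc, ?_⟩
      rw [show u * c = a by rw [e1, mul_assoc, F.U2 c hc.1, mul_one], ← e, ← y3 u hu]
      group
  simpa using mul_mem this (inv_mem y2)

theorem Dq.ny (d : Dq F t N K α η ε) {x : G} (hx : x ∈ YY F t ε) (h1 : x ∈ 𝐍(im ε F.U ⊔ Z2 F t ε))
    (h2 : x ∈ 𝐍(im ε F.Z0)) : x ∈ 𝐍(im ε F.U) := by
  have ZUV : F.Z0 ≤ F.UV := inf_le_left.trans le_sup_left
  obtain ⟨a, ha, ea⟩ := (d.mem1 ZUV).1 (conj_mem_of_mem_normalizer h2 (mem_im_self ε F.zZ))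
  obtain ⟨b, hb, eb⟩ := (d.mem1 ZUV).1 (conj_mem_of_mem_normalizer h2 (mem_im_self ε F.rZ))
  have ne1 : ∀ {u : X}, u ∈ F.U → u ≠ 1 → ε u ≠ 1 := fun hu h e =>
    h (d.c.inj hu (one_mem _) (e.trans d.c.one.symm))
  have a1 : a ≠ 1 := fun e => cjne (ne1 F.zU F.z1) x (by rw [← ea, e, d.c.one])
  have b1 : b ≠ 1 := fun e => cjne (ne1 F.rU F.r1) x (by rw [← eb, e, d.c.one])
  have ab : b ≠ a := fun e => F.rz (d.c.inj F.rU F.zU (by
    rw [e, ea] at eb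
    exact (mul_left_cancel (mul_right_cancel eb)).symm))
  obtain ⟨n, hn, nz, nr⟩ := F.trzr ha.1 hb.1 a1 b1 ab
  obtain ⟨y, hy, y1, y2, y3⟩ := y2_lift d hn
  have cz : y⁻¹ * x * ε F.z = ε F.z * (y⁻¹ * x) := by
    have := y3 _ F.zU
    rw [nz, ea] at this
    calc _ = y⁻¹ * (x * ε F.z * x⁻¹) * x := by group
      _ = _ := by rw [← this]; group
  have cr : y⁻¹ * x * ε F.r = ε F.r * (y⁻¹ * x) := by
    have := y3 _ F.rU
    rw [nr, eb] at this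
    calc _ = y⁻¹ * (x * ε F.r * x⁻¹) * x := by group
      _ = _ := by rw [← this]; group
  have := y2_two d (x := y⁻¹ * x) (mul_mem (inv_mem hy) hx) (mul_mem (inv_mem y1) h1) fun c hc => by
    rcases F.memZ.1 hc with rfl | rfl | rfl | rfl
    · rw [d.c.one, mul_one, one_mul]
    · exact cz
    · exact cr
    · rw [d.c.mul _ F.zU _ F.rU]
      exact (Commute.mul_right cz cr :)
  simpa using mul_mem y2 this

end H60.ML
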