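import Mathlib
import Cfsg.Agent.Lib.McLy.Base2
import Cfsg.Agent.Lib.McLy.Y2

set_option autoImplicit false
set_option linter.unusedSectionVars false

namespace H60.ML

open Subgroup H69 H36.SW
open scoped commutatorElement

universe u
variable {X : Type} [Group X] [Finite X] {G : Type u} [Group G] [Finite G]
variable {F : Fy X} {t : G} {N K : Subgroup G} {α : G → X} {η E E' ε : X → G} {R : Subgroup G}

theorem y3_UUV (F : Fy X) : F.U ≤ F.UV := le_sup_left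
theorem y3_VUV (F : Fy X) : F.V ≤ F.UV := le_sup_right
theorem y3_ZUV (F : Fy X) : F.Z0 ≤ F.UV := inf_le_left.trans le_sup_left

theorem Dq.y3_tt (d : Dq F t N K α η ε) : t * t = 1 := d.c.fr.t2

theorem Dq.y3_one (d : Dq F t N K α η ε) : ε 1 = 1 := im_one d.mul

theorem Dq.y3_inj (d : Dq F t N K α η ε) {x y : X} (hx : x ∈ F.UV) (hy : y ∈ F.UV) (e : ε x = ε y) : x = y :=
  (d.inj hx (one_mem _) hy (one_mem _) (by rw [e])).1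

theorem Dq.y3_cj (d : Dq F t N K α η ε) {x y : X} (hx : x ∈ F.UV) (hy : y ∈ F.UV) :
    ε x * ε y * (ε x)⁻¹ = ε (x * y * x⁻¹) := (im_cj d.mul hx hy).symm

theorem Dq.y3_memZ2 (d : Dq F t N K α η ε) {g : G} : g ∈ Z2 F t ε ↔ ∃ c ∈ F.Z0, t * ε c * t = g :=
  d.mem2 (y3_ZUV F)

theorem Dq.y3_tZ2 (d : Dq F t N K α η ε) {c : X} (hc : c ∈ F.Z0) : t * ε c * t ∈ Z2 F t ε :=
  d.y3_memZ2.2 ⟨c, hc, rfl⟩

theorem Dq.y3_memYZ (d : Dq F t N K α η ε) {Y : Subgroup X} (hY : Y ≤ F.UV) {g : G} :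
    g ∈ im ε Y ⊔ Z2 F t ε ↔ ∃ y ∈ Y, ∃ c ∈ F.Z0, g = ε y * (t * ε c * t) := d.mem12 hY (y3_ZUV F)

theorem Dq.y3_Z2Q (d : Dq F t N K α η ε) : Z2 F t ε ≤ 𝐂(im ε F.UV) := by
  intro g hg
  obtain ⟨c, hc, rfl⟩ := d.y3_memZ2.1 hg
  exact cen_im.2 fun y hy => (d.cm y hy c (y3_ZUV F hc)).symm

theorem Dq.y3_cZ2 (d : Dq F t N K α η ε) {x : G} (hx : x ∈ YY F t ε) {c : X} (hc : c ∈ F.Z0) :
    x * (t * ε c * t) = t * ε c * t * x := d.memY.1 hx c (y3_ZUV F hc)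

theorem Dq.y3_Q (d : Dq F t N K α η ε) : im ε F.UV = im ε F.U ⊔ im ε F.V := im_sup d.mul

theorem y3_VNU (F : Fy X) {v : X} (hv : v ∈ F.V) : v ∈ 𝐍(F.U) := F.TU (F.VT hv)

theorem Dq.frat (d : Dq F t N K α η ε) {n : X} (hn : n ∈ F.NU) (hV : n ∈ 𝐍(F.V)) :
    ∃ x ∈ LL1 F t ε, ∀ u ∈ F.U, x * ε u * x⁻¹ = ε (n * u * n⁻¹) := by
  obtain ⟨y, hy, hyu⟩ := d.p9 hn
  set D0 : Subgroup G := YY F t ε ⊓ 𝐂(im ε F.U) with hD0
  have nU : ∀ g : G, g ∈ YY F t ε → g ∈ 𝐍(im ε F.U) → g ∈ 𝐍(D0) := fun g h1 h2 => by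
    have : zpowers g ≤ 𝐍(D0) := le_normalizer_inf (le_normalizer_of_le (zpowers_le.2 h1))
      (le_normalizer_centralizer (zpowers_le.2 h2))
    exact this (mem_zpowers g)
  have vN : ∀ v ∈ F.V, ε v ∈ 𝐍(im ε F.U) := fun v hv =>
    nrm_im fun u hu => ⟨v * u * v⁻¹, conj_mem_of_mem_normalizer (y3_VNU F hv) hu,
      d.y3_cj (F.mV hv) (F.mU hu)⟩
  have VD : im ε F.V ≤ 𝐍(D0) := im_le.2 fun v hv => nU _ (d.εY (F.mV hv)) (vN v hv)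
  have memD : ∀ g, g ∈ im ε F.V ⊔ D0 ↔ ∃ v ∈ F.V, ∃ c ∈ D0, g = ε v * c := fun g => by
    rw [mem_sup_of_le_normalizer_right VD]
    constructor
    · rintro ⟨a, ha, b, hb, rfl⟩
      obtain ⟨v, hv, rfl⟩ := (d.mem1 (y3_VUV F)).1 ha
      exact ⟨v, hv, b, hb, rfl⟩
    · rintro ⟨v, hv, c, hc, rfl⟩
      exact ⟨_, mem_im_self ε hv, c, hc, rfl⟩
  have yU : y ∈ 𝐍(im ε F.U) :=
    nrm_im fun u hu => ⟨_, conj_mem_of_mem_normalizer hn.2 hu, hyu u hu⟩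
  have yD0 := nU y hy yU
  have yD : y ∈ 𝐍(im ε F.V ⊔ D0) := by
    apply mem_normalizer_of_cj_le
    rw [cj_sup, cj_eq_of_mem_normalizer yD0]
    refine sup_le ?_ le_sup_right
    intro g hg
    obtain ⟨a, ha, rfl⟩ := mem_cj'.1 hg
    obtain ⟨v, hv, rfl⟩ := (d.mem1 (y3_VUV F)).1 ha
    have hv' : n * v * n⁻¹ ∈ F.V := conj_mem_of_mem_normalizer hV hv
    refine (memD _).2 ⟨_, hv', (ε (n * v * n⁻¹))⁻¹ * (y * ε v * y⁻¹), mem_inf.2 ⟨?_, ?_⟩, by group⟩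
    · exact mul_mem (inv_mem (d.εY (F.mV hv'))) (mul_mem (mul_mem hy (d.εY (F.mV hv))) (inv_mem hy))
    · refine cen_im.2 fun u hu => ?_
      have hu' : n⁻¹ * u * n ∈ F.U := conj_mem_of_mem_normalizer' hn.2 hu
      have e1 : y * ε (n⁻¹ * u * n) * y⁻¹ = ε u := by rw [hyu _ hu']; congr 1; group
      have hw : v * (n⁻¹ * u * n) * v⁻¹ ∈ F.U := conj_mem_of_mem_normalizer (y3_VNU F hv) hu'
      have e2 := hyu _ hw
      have e3 := d.y3_cj (F.mV hv) (F.mU hu')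
      have e4 := d.y3_cj (F.mV hv') (F.mU hu)
      have e5 : n * (v * (n⁻¹ * u * n) * v⁻¹) * n⁻¹ = n * v * n⁻¹ * u * (n * v * n⁻¹)⁻¹ := by group
      rw [e5, ← e4, ← e3] at e2
      have e6 : y * ε v * y⁻¹ * ε u * (y * ε v * y⁻¹)⁻¹ =
          ε (n * v * n⁻¹) * ε u * (ε (n * v * n⁻¹))⁻¹ := by
        rw [← e2, ← e1]; group
      calc (ε (n * v * n⁻¹))⁻¹ * (y * ε v * y⁻¹) * ε u
          = (ε (n * v * n⁻¹))⁻¹ * (y * ε v * y⁻¹ * ε u * (y * ε v * y⁻¹)⁻¹) * (y * ε v * y⁻¹) := by group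
        _ = _ := by rw [e6]; group
  have UD : im ε F.U ≤ D0 := im_le.2 fun u hu => ⟨d.εY (F.mU hu), cen_im.2 fun u' hu' => d.c.Ec hu hu'⟩
  have ZD : Z2 F t ε ≤ D0 :=
    le_inf d.Z2Y (d.y3_Z2Q.trans (centralizer_anti (im_mono ε (y3_UUV F))))
  have syl : IsSylowIn 2 (im ε F.UV ⊔ Z2 F t ε) (im ε F.V ⊔ D0) := by
    refine ⟨sup_le ?_ (ZD.trans le_sup_right), d.isP le_rfl (y3_ZUV F), fun R h1 h2 h3 => le_antisymm ?_ h1⟩
    · rw [d.y3_Q]; exact sup_le (UD.trans le_sup_right) le_sup_left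
    · intro r hr
      obtain ⟨v, hv, c, hc, rfl⟩ := (memD _).1 (h2 hr)
      have hvP : ε v ∈ im ε F.UV ⊔ Z2 F t ε := mem_sup_left (mem_im_self ε (F.mV hv))
      have hcR : c ∈ R := by
        have := mul_mem (inv_mem (h1 hvP)) hr
        rwa [inv_mul_cancel_left] at this
      exact mul_mem hvP (sup_le_sup_right (im_mono ε (y3_UUV F)) _ (d.twoU hc.1 hc.2 (P2.of_mem h3 hcR)))
  obtain ⟨a, ha, m, hm, e⟩ := syl.frattini' yD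
  obtain ⟨v, hv, c, hc, rfl⟩ := (memD _).1 hm
  have ex : y * c⁻¹ = a * ε v := by rw [e]; group
  refine ⟨y * c⁻¹, mem_inf.2 ⟨mul_mem hy (inv_mem (mem_inf.1 hc).1), ?_⟩, fun u hu => ?_⟩
  · rw [ex]
    exact mul_mem ha (le_normalizer (mem_sup_left (mem_im_self ε (F.mV hv))))
  · have := cen_im.1 hc.2 u hu
    rw [← hyu u hu]
    calc y * c⁻¹ * ε u * (y * c⁻¹)⁻¹ = y * c⁻¹ * (ε u * c) * y⁻¹ := by group
      _ = _ := by rw [← this]; group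

theorem y3_comm (F : Fy X) {a b : X} (ha : a ∈ F.UV) (hb : b ∈ F.UV) : a * b * a⁻¹ * b⁻¹ ∈ F.Z0 := by
  have cz : ∀ c ∈ F.Z0, ∀ x ∈ F.UV, x * c * x⁻¹ = c := fun c hc x hx => by
    rw [← F.Zc hc hx]; group
  obtain ⟨u', hu', v', hv', rfl⟩ := F.mem_UV.1 hb
  obtain ⟨u, hu, v, hv, rfl⟩ := F.mem_UV.1 ha
  have h1 : u * (u' * v') * u⁻¹ * (u' * v')⁻¹ ∈ F.Z0 := by
    have h := F.commZ hu hv'
    have e : u * (u' * v') * u⁻¹ * (u' * v')⁻¹ = u' * (u * v' * u⁻¹ * v'⁻¹) * u'⁻¹ := by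
      rw [← mul_assoc u u', F.Uc hu hu']; group
    rw [e, cz _ h _ (F.mU hu')]; exact h
  have h2 : v * (u' * v') * v⁻¹ * (u' * v')⁻¹ ∈ F.Z0 := by
    have h := inv_mem (F.commZ hu' hv)
    have e : v * (u' * v') * v⁻¹ * (u' * v')⁻¹ = (u' * v * u'⁻¹ * v⁻¹)⁻¹ := by
      have := F.Vc hv hv'
      calc v * (u' * v') * v⁻¹ * (u' * v')⁻¹ = v * u' * v⁻¹ * (v * v') * v⁻¹ * v'⁻¹ * u'⁻¹ := by group
        _ = _ := by rw [this]; group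
    rw [e]; exact h
  have e : u * v * (u' * v') * (u * v)⁻¹ * (u' * v')⁻¹ =
      u * (v * (u' * v') * v⁻¹ * (u' * v')⁻¹) * u⁻¹ * (u * (u' * v') * u⁻¹ * (u' * v')⁻¹) := by group
  rw [e, cz _ h2 _ (F.mU hu)]
  exact mul_mem h2 h1

theorem Dq.y3_pre (d : Dq F t N K α η ε) (B : Subgroup G) :
    ∃ S : Subgroup X, ∀ a, a ∈ S ↔ a ∈ F.UV ∧ ε a ∈ B :=
  ⟨{ carrier := {a | a ∈ F.UV ∧ ε a ∈ B}
     mul_mem' := fun {a b} ha hb => ⟨mul_mem ha.1 hb.1, by rw [d.mul a ha.1 b hb.1]; exact mul_mem ha.2 hb.2⟩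
     one_mem' := ⟨one_mem _, by rw [d.y3_one]; exact one_mem _⟩
     inv_mem' := fun {a} ha => ⟨inv_mem ha.1, by rw [im_inv d.mul ha.1]; exact inv_mem ha.2⟩ },
   fun _ => Iff.rfl⟩

theorem Dq.y3_PP (d : Dq F t N K α η ε) :
    ⁅im ε F.UV ⊔ Z2 F t ε, im ε F.UV ⊔ Z2 F t ε⁆ = im ε F.Z0 := by
  apply le_antisymm
  · rw [Subgroup.commutator_le]
    intro g hg k hk
    obtain ⟨a, ha, c, hc, rfl⟩ := (d.y3_memYZ le_rfl).1 hg
    obtain ⟨b, hb, c', hc', rfl⟩ := (d.y3_memYZ le_rfl).1 hk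
    have h1 := d.cm b hb c (y3_ZUV F hc)
    have h2 := d.cm a ha c' (y3_ZUV F hc')
    have h3 := d.y3_cZ2 (d.Z2Y (d.y3_tZ2 hc)) hc'
    have h4 := d.cm a ha c (y3_ZUV F hc)
    have h5 := d.cm b hb c' (y3_ZUV F hc')
    have e : ⁅ε a * (t * ε c * t), ε b * (t * ε c' * t)⁆ = ε (a * b * a⁻¹ * b⁻¹) := by
      rw [d.mul _ (mul_mem (mul_mem ha hb) (inv_mem ha)) _ (inv_mem hb), im_cj d.mul ha hb,
        im_inv d.mul hb, commutatorElement_def]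
      generalize t * ε c * t = p at *
      generalize t * ε c' * t = p' at *
      have c1 : Commute (ε b) p := h1
      have c2 : Commute (ε a) p' := h2
      have c3 : Commute p p' := h3
      calc ε a * p * (ε b * p') * (ε a * p)⁻¹ * (ε b * p')⁻¹
          = ε a * (p * (ε b * p') * p⁻¹) * (ε a)⁻¹ * p'⁻¹ * (ε b)⁻¹ := by group
        _ = ε a * (ε b * p') * (ε a)⁻¹ * p'⁻¹ * (ε b)⁻¹ := by
          rw [(c1.symm.mul_right c3).eq]; group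
        _ = ε a * ε b * (p' * (ε a)⁻¹ * p'⁻¹) * (ε b)⁻¹ := by group
        _ = _ := by rw [(c2.symm.inv_right).eq]; group
    rw [e]; exact mem_im_self ε (y3_comm F ha hb)
  · obtain ⟨S, hS⟩ := d.y3_pre ⁅im ε F.UV ⊔ Z2 F t ε, im ε F.UV ⊔ Z2 F t ε⁆
    have : ⁅F.U, F.V⁆ ≤ S := by
      rw [Subgroup.commutator_le]
      intro u hu v hv
      have hu' := F.mU hu
      have hv' := F.mV hv
      rw [commutatorElement_def]
      refine (hS _).2 ⟨y3_ZUV F (F.commZ hu hv), ?_⟩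
      rw [d.mul _ (mul_mem (mul_mem hu' hv') (inv_mem hu')) _ (inv_mem hv'), im_cj d.mul hu' hv',
        im_inv d.mul hv', ← commutatorElement_def]
      exact commutator_mem_commutator (mem_sup_left (mem_im_self ε hu')) (mem_sup_left (mem_im_self ε hv'))
    exact im_le.2 fun c hc => ((hS c).1 (this (F.Z0_le hc))).2

theorem Dq.y3_nZ (d : Dq F t N K α η ε) : LL1 F t ε ≤ 𝐍(im ε F.Z0) := by
  rw [← d.y3_PP]
  exact le_normalizer_commutator inf_le_right inf_le_right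

theorem Dq.y3_cjZ2 (d : Dq F t N K α η ε) {x : G} (hx : x ∈ LL1 F t ε) : Z2 F t ε ^ᶜ x = Z2 F t ε :=
  cj_eq_of_mem_centralizer (d.YZ hx.1)

theorem Dq.y3_mv (d : Dq F t N K α η ε) {x : G} (hx : x ∈ LL1 F t ε) {A : Subgroup X} (hA : A ≤ F.UV)
    (h2 : ∀ a ∈ A, a * a = 1) (h16 : 16 ≤ Nat.card A) :
    (im ε A ⊔ Z2 F t ε) ^ᶜ x ≤ im ε F.U ⊔ Z2 F t ε ∨ (im ε A ⊔ Z2 F t ε) ^ᶜ x ≤ im ε F.V ⊔ Z2 F t ε := by
  obtain ⟨S, hS⟩ := d.y3_pre ((im ε A ⊔ Z2 F t ε) ^ᶜ x)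
  have hZ : Z2 F t ε ≤ (im ε A ⊔ Z2 F t ε) ^ᶜ x := by
    rw [cj_sup, d.y3_cjZ2 hx]; exact le_sup_right
  have dec : ∀ a ∈ A, ∃ b ∈ S, ∃ c ∈ F.Z0, x * ε a * x⁻¹ = ε b * (t * ε c * t) := fun a ha => by
    have h1 : x * ε a * x⁻¹ ∈ im ε F.UV ⊔ Z2 F t ε :=
      conj_mem_of_mem_normalizer hx.2 (mem_sup_left (mem_im_self ε (hA ha)))
    obtain ⟨b, hb, c, hc, e⟩ := (d.y3_memYZ le_rfl).1 h1
    refine ⟨b, (hS b).2 ⟨hb, ?_⟩, c, hc, e⟩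
    have : ε b = x * ε a * x⁻¹ * (t * ε c * t)⁻¹ := by rw [e]; group
    rw [this]
    exact mul_mem (cj_mem x (mem_sup_left (mem_im_self ε ha))) (inv_mem (hZ (d.y3_tZ2 hc)))
  have SU : S ≤ F.UV := fun a ha => ((hS a).1 ha).1
  have S2 : ∀ b ∈ S, b * b = 1 := fun b hb => by
    obtain ⟨hb1, hb2⟩ := (hS b).1 hb
    obtain ⟨g, hg, e⟩ := mem_cj'.1 hb2
    obtain ⟨a, ha, c, hc, rfl⟩ := (d.y3_memYZ hA).1 hg
    apply d.y3_inj (mul_mem hb1 hb1) (one_mem _)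
    rw [d.mul b hb1 b hb1, d.y3_one, e]
    apply cjsq
    have h1 := d.cm a (hA ha) c (y3_ZUV F hc)
    have h3 : ε a * ε a = 1 := by rw [← d.mul a (hA ha) a (hA ha), h2 a ha, d.y3_one]
    have h4 : t * ε c * t * (t * ε c * t) = 1 := by
      have := d.c.sq hc.1
      calc t * ε c * t * (t * ε c * t) = t * ε c * (t * t) * ε c * t := by group
        _ = t * (ε c * ε c) * t := by rw [d.y3_tt]; group
        _ = 1 := by rw [this, mul_one, d.y3_tt]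
    calc ε a * (t * ε c * t) * (ε a * (t * ε c * t)) = ε a * (t * ε c * t * ε a) * (t * ε c * t) := by group
      _ = ε a * ε a * (t * ε c * t * (t * ε c * t)) := by rw [← h1]; group
      _ = 1 := by rw [h3, h4, mul_one]
  have S16 : 16 ≤ Nat.card S := by
    refine h16.trans ?_
    choose! f hf g hg e using dec
    refine Nat.card_le_card_of_injective (fun a : A => (⟨f a, hf a a.2⟩ : S)) fun a a' h => ?_
    have h' : f a = f a' := congrArg Subtype.val h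
    have c1 := d.y3_cZ2 hx.1 (hg a a.2)
    have c2 := d.y3_cZ2 hx.1 (hg a' a'.2)
    have e1 := e a a.2
    have e2 := e a' a'.2
    have e3 : ε a * (t * ε (g a') * t) = ε a' * (t * ε (g a) * t) := by
      have k := d.y3_cZ2 (d.Z2Y (d.y3_tZ2 (hg a a.2))) (hg a' a'.2)
      generalize t * ε (g a) * t = p at *
      generalize t * ε (g a') * t = p' at *
      calc ε a * p' = x⁻¹ * (x * ε a * x⁻¹) * (x * p') := by group
        _ = x⁻¹ * ε (f a') * (p * p') * x := by rw [e1, c2, h']; group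
        _ = x⁻¹ * (ε (f a') * p') * (p * x) := by rw [k]; group
        _ = _ := by rw [← e2, ← c1]; group
    exact Subtype.ext (d.inj (hA a.2) (y3_ZUV F (hg _ a'.2)) (hA a'.2) (y3_ZUV F (hg _ a.2)) e3).1
  have fin : (im ε A ⊔ Z2 F t ε) ^ᶜ x ≤ im ε S ⊔ Z2 F t ε := by
    rw [cj_sup, d.y3_cjZ2 hx]
    refine sup_le (fun g hg => ?_) le_sup_right
    obtain ⟨a, ha, rfl⟩ := mem_cj'.1 hg
    obtain ⟨a, ha', rfl⟩ := (d.mem1 hA).1 ha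
    obtain ⟨b, hb, c, hc, e⟩ := dec a ha'
    rw [e]
    exact mul_mem (mem_sup_left (mem_im_self ε hb)) (mem_sup_right (d.y3_tZ2 hc))
  rcases F.eQ F.UV S F.UV2 le_rfl SU S2 S16 with h | h
  · left; rwa [h] at fin
  · right; rwa [h] at fin

theorem Dq.y3_ab (d : Dq F t N K α η ε) {x : G} (h1 : (im ε F.U ⊔ Z2 F t ε) ^ᶜ x ≤ im ε F.U ⊔ Z2 F t ε)
    (h2 : (im ε F.V ⊔ Z2 F t ε) ^ᶜ x ≤ im ε F.U ⊔ Z2 F t ε) : False := by
  have W : im ε F.U ⊔ Z2 F t ε ≤ WW F t ε :=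
    sup_le le_sup_left ((cj_mono t (im_mono ε inf_le_left)).trans le_sup_right)
  have key : ∀ u ∈ F.U, ∀ v ∈ F.V, u * v = v * u := fun u hu v hv => by
    have a1 := W (h1 (cj_mem x (mem_sup_left (mem_im_self ε hu))))
    have a2 := W (h2 (cj_mem x (mem_sup_left (mem_im_self ε hv))))
    have := d.c.Wc a1 a2
    apply d.y3_inj (mul_mem (F.mU hu) (F.mV hv)) (mul_mem (F.mV hv) (F.mU hu))
    rw [d.mul _ (F.mU hu) _ (F.mV hv), d.mul _ (F.mV hv) _ (F.mU hu)]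
    calc ε u * ε v = x⁻¹ * (x * ε u * x⁻¹ * (x * ε v * x⁻¹)) * x := by group
      _ = _ := by rw [this]; group
  exact F.qV (F.cenV fun v hv => key _ F.qU v hv)

theorem y3_two {A B : Subgroup G} {x : G} (h1 : A ^ᶜ x ≤ B) (h2 : B ^ᶜ x ≤ A) : A ^ᶜ x = B ∧ B ^ᶜ x = A := by
  have e1 : (A ^ᶜ x) ^ᶜ x = A := by
    rw [cj_cj]; apply cj_eq_of_cj_le; rw [← cj_cj]; exact (cj_mono x h1).trans h2
  have e2 : B ^ᶜ x = A := le_antisymm h2 (by rw [← e1]; exact cj_mono x h1)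
  exact ⟨cj_inj.1 (e1.trans e2.symm), e2⟩

theorem y3_e (F : Fy X) {u : X} (hu : u ∈ F.U) :
    F.e * (F.e * u * F.e⁻¹) * F.e⁻¹ * (F.e * u * F.e⁻¹)⁻¹ = u := by
  have h := F.e3 u hu
  have hu' : F.e * u * F.e⁻¹ ∈ F.U := conj_mem_of_mem_normalizer F.eU hu
  have a1 := F.U2 u hu
  have a2 := F.U2 _ hu'
  have a3 := F.Uc hu hu'
  generalize F.e * u * F.e⁻¹ = u' at *
  have e1 : F.e * u' * F.e⁻¹ = (u * u')⁻¹ := eq_inv_of_mul_eq_one_right h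
  rw [e1, a3]
  calc (u' * u)⁻¹ * u'⁻¹ = u * (u * u)⁻¹ * (u' * u')⁻¹ := by group
    _ = u := by rw [a1, a2]; group

theorem Dq.y3_ny' (d : Dq F t N K α η ε) {x : G} (hx : x ∈ LL1 F t ε) (h : x ∈ 𝐍(im ε F.V ⊔ Z2 F t ε)) :
    x ∈ 𝐍(im ε F.V) := by
  have := d.swap.ny (x := x) (by rw [YY_sw]; exact hx.1) (by rw [im_sw_U, Z2_sw]; exact h)
    (by rw [im_sw_Z]; exact d.y3_nZ hx)
  rwa [im_sw_U] at this

theorem Dq.y3_sw (d : Dq F t N K α η ε) {x : G} (hx : x ∈ LL1 F t ε)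
    (h : (im ε F.U ⊔ Z2 F t ε) ^ᶜ x = im ε F.V ⊔ Z2 F t ε) : im ε F.U ^ᶜ x ≤ im ε F.V := by
  obtain ⟨δ, hδ, e⟩ := d.frat F.eNU F.eV
  have δU : δ ∈ 𝐍(im ε F.U) := nrm_im fun u hu => ⟨_, conj_mem_of_mem_normalizer F.eU hu, e u hu⟩
  have hδ' : x * δ * x⁻¹ ∈ LL1 F t ε := mul_mem (mul_mem hx hδ) (inv_mem hx)
  have δN : δ ∈ 𝐍(im ε F.U ⊔ Z2 F t ε) := by
    rw [← cj_eq_self_iff, cj_sup, cj_eq_of_mem_normalizer δU, d.y3_cjZ2 hδ]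
  have δV : x * δ * x⁻¹ ∈ 𝐍(im ε F.V) := by
    apply d.y3_ny' hδ'
    rw [← h, ← cj_normalizer]
    exact cj_mem x δN
  intro g hg
  obtain ⟨a, ha, rfl⟩ := mem_cj'.1 hg
  obtain ⟨u, hu, rfl⟩ := (d.mem1 (y3_UUV F)).1 ha
  have hu' : F.e * u * F.e⁻¹ ∈ F.U := conj_mem_of_mem_normalizer F.eU hu
  have e1 : ε u = δ * ε (F.e * u * F.e⁻¹) * δ⁻¹ * (ε (F.e * u * F.e⁻¹))⁻¹ := by
    rw [e _ hu', ← im_inv d.mul (F.mU hu'),
      ← d.mul _ (F.mU (conj_mem_of_mem_normalizer F.eU hu')) _ (inv_mem (F.mU hu')), y3_e F hu]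
  have h1 : x * ε (F.e * u * F.e⁻¹) * x⁻¹ ∈ im ε F.V ⊔ Z2 F t ε := by
    rw [← h]; exact cj_mem x (mem_sup_left (mem_im_self ε hu'))
  obtain ⟨v, hv, c, hc, e2⟩ := (d.y3_memYZ (y3_VUV F)).1 h1
  have c1 := d.y3_cZ2 hδ'.1 hc
  have e3 : x * ε u * x⁻¹ = x * δ * x⁻¹ * ε v * (x * δ * x⁻¹)⁻¹ * (ε v)⁻¹ := by
    generalize t * ε c * t = p at *
    calc x * ε u * x⁻¹ = x * δ * x⁻¹ * (x * ε (F.e * u * F.e⁻¹) * x⁻¹) * (x * δ * x⁻¹)⁻¹ *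
          (x * ε (F.e * u * F.e⁻¹) * x⁻¹)⁻¹ := by rw [e1]; group
      _ = x * δ * x⁻¹ * ε v * (x * δ * x⁻¹)⁻¹ * (x * δ * x⁻¹ * p) * (x * δ * x⁻¹)⁻¹ * p⁻¹ * (ε v)⁻¹ := by
          rw [e2]; group
      _ = _ := by rw [c1]; group
  rw [e3]
  exact mul_mem (conj_mem_of_mem_normalizer δV (mem_im_self ε hv)) (inv_mem (mem_im_self ε hv))

theorem Dq.lam (d : Dq F t N K α η ε) {x : G} (hx : x ∈ LL1 F t ε) :
    (x ∈ 𝐍(im ε F.U) ∧ x ∈ 𝐍(im ε F.V)) ∨ (im ε F.U ^ᶜ x = im ε F.V ∧ im ε F.V ^ᶜ x = im ε F.U) := by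
  have hU := d.y3_mv hx (y3_UUV F) F.U2 F.cU.ge
  have hV := d.y3_mv hx (y3_VUV F) (fun v hv => F.V2 hv) F.cV.ge
  rcases hU with hU | hU <;> rcases hV with hV | hV
  · exact (d.y3_ab hU hV).elim
  · exact Or.inl ⟨d.ny hx.1 (mem_normalizer_of_cj_le hU) (d.y3_nZ hx), d.y3_ny' hx (mem_normalizer_of_cj_le hV)⟩
  · obtain ⟨e1, e2⟩ := y3_two hU hV
    refine Or.inr (y3_two (d.y3_sw hx e1) ?_)
    have := d.swap.y3_sw (x := x) (by rw [LL1_sw]; exact hx) (by rw [im_sw_U, im_sw_V, Z2_sw]; exact e2)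
    rwa [im_sw_U, im_sw_V] at this
  · exact (d.swap.y3_ab (x := x) (by rw [im_sw_U, Z2_sw]; exact hV)
      (by rw [im_sw_U, im_sw_V, Z2_sw]; exact hU)).elim

theorem Dq.lamQ (d : Dq F t N K α η ε) : LL1 F t ε ≤ 𝐍(im ε F.UV) := by
  intro x hx
  rw [← cj_eq_self_iff, d.y3_Q, cj_sup]
  rcases d.lam hx with ⟨h1, h2⟩ | ⟨h1, h2⟩
  · rw [cj_eq_of_mem_normalizer h1, cj_eq_of_mem_normalizer h2]
  · rw [h1, h2, sup_comm]

end H60.ML
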