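import Mathlib
import Cfsg.Agent.Lib.McLy.Base2
import Cfsg.Agent.Lib.McLy.Y3

set_option autoImplicit false
set_option linter.unusedSectionVars false

namespace H60.ML

open Subgroup H69 H36.SW
open scoped commutatorElement

universe u
variable {X : Type} [Group X] [Finite X] {G : Type u} [Group G] [Finite G]
variable {F : Fy X} {t : G} {N K : Subgroup G} {α : G → X} {η E E' ε : X → G} {R : Subgroup G}

/-- the odd part of `C(Q₁ Q₂)` -/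
structure Oq (F : Fy X) (t : G) (ε : X → G) (O : Subgroup G) : Prop where
  mem : ∀ g, g ∈ O ↔ (g ∈ YY F t ε ∧ g ∈ 𝐂(im ε F.UV)) ∧ Odd (orderOf g)
  nL : LL1 F t ε ≤ 𝐍(O)
  nt : t ∈ 𝐍(O)
  dec : ∀ g ∈ YY F t ε, g ∈ 𝐂(im ε F.UV) → ∃ a ∈ F.Z0, ∃ b ∈ F.Z0, ∃ o ∈ O, g = ε a * (t * ε b * t) * o

theorem Dq.y4_ti (d : Dq F t N K α η ε) : t⁻¹ = t := d.c.fr.ti

theorem Dq.y4_cj (d : Dq F t N K α η ε) (g : G) : t * g * t = t * g * t⁻¹ := by rw [d.y4_ti]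

theorem Dq.y4_ttt (d : Dq F t N K α η ε) (g : G) : t * (t * g * t) * t = g := by
  calc t * (t * g * t) * t = t * t * g * (t * t) := by group
    _ = g := by rw [d.y3_tt]; group

theorem Dq.y4_tmul (d : Dq F t N K α η ε) (g k : G) : t * (g * k) * t = t * g * t * (t * k * t) := by
  calc t * (g * k) * t = t * g * 1 * k * t := by group
    _ = _ := by rw [← d.y3_tt]; group

theorem Dq.y4_tinv (d : Dq F t N K α η ε) (g : G) : t * g⁻¹ * t = (t * g * t)⁻¹ := by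
  rw [mul_inv_rev, mul_inv_rev, d.y4_ti, mul_assoc]

theorem Dq.y4_tC (d : Dq F t N K α η ε) {g : G} (hg : g ∈ YY F t ε) : t * g * t ∈ 𝐂(im ε F.UV) := by
  refine cen_im.2 fun x hx => ?_
  have : t * (g * (t * ε x * t)) * t = t * (t * ε x * t * g) * t := by rw [d.memY.1 hg x hx]
  rwa [d.y4_tmul g, d.y4_tmul (t * ε x * t) g, d.y4_ttt] at this

theorem Dq.y4_tY (d : Dq F t N K α η ε) {g : G} (hg : g ∈ 𝐂(im ε F.UV)) : t * g * t ∈ YY F t ε := by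
  refine d.memY.2 fun x hx => ?_
  rw [← d.y4_tmul, ← d.y4_tmul, cen_im.1 hg x hx]

theorem Dq.y4_nY (d : Dq F t N K α η ε) {b : G} (hb : b ∈ LL1 F t ε) : t * b * t ∈ 𝐍(YY F t ε) := by
  apply normalizer_le_normalizer_centralizer
  rw [← cj_normalizer, d.y4_cj]
  exact cj_mem t (d.lamQ hb)

theorem Dq.y4_comm (d : Dq F t N K α η ε) {a b : G} (ha : a ∈ LL1 F t ε) (hb : b ∈ LL1 F t ε) :
    ⁅a, t * b * t⁆ ∈ YY F t ε ∧ ⁅a, t * b * t⁆ ∈ 𝐂(im ε F.UV) := by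
  constructor
  · have e : ⁅a, t * b * t⁆ = a * (t * b * t * a⁻¹ * (t * b * t)⁻¹) := by
      rw [commutatorElement_def]; group
    rw [e]
    exact mul_mem ha.1 (conj_mem_of_mem_normalizer (d.y4_nY hb) (inv_mem (mem_inf.1 ha).1))
  · rw [commutatorElement_def]
    exact mul_mem (conj_mem_of_mem_normalizer (normalizer_le_normalizer_centralizer _ (d.lamQ ha))
      (d.y4_tC hb.1)) (inv_mem (d.y4_tC hb.1))

theorem Dq.exists_oq (d : Dq F t N K α η ε) : ∃ O, Oq F t ε O := by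
  have h1 : im ε F.Z0 ⊔ Z2 F t ε ≤ YY F t ε ⊓ 𝐂(im ε F.UV) :=
    sup_le (im_le.2 fun c hc => ⟨d.εY (y3_ZUV F hc), cen_im.2 fun y hy => by
      rw [← d.mul _ (y3_ZUV F hc) _ hy, ← d.mul _ hy _ (y3_ZUV F hc), F.Zc hc hy]⟩)
      (le_inf d.Z2Y d.y3_Z2Q)
  have h2 : YY F t ε ⊓ 𝐂(im ε F.UV) ≤ 𝐂(im ε F.Z0 ⊔ Z2 F t ε) := by
    rw [centralizer_sup]
    exact le_inf (inf_le_right.trans (centralizer_anti (im_mono ε (y3_ZUV F)))) (inf_le_left.trans d.YZ)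
  obtain ⟨O, o1, o2, o3⟩ := cen_syl h1 (d.isP (y3_ZUV F) (y3_ZUV F)) h2
    fun g hg g2 => d.twoQ hg.1 hg.2 g2
  refine ⟨O, o1, le_trans ?_ o2, o2 ?_, fun g h h' => ?_⟩
  · exact le_normalizer_inf (le_normalizer_of_le inf_le_left) (le_normalizer_centralizer d.lamQ)
  · apply mem_normalizer_of_cj_le
    intro g hg
    obtain ⟨a, ha, rfl⟩ := mem_cj'.1 hg
    rw [← d.y4_cj]
    exact ⟨d.y4_tY ha.2, d.y4_tC ha.1⟩
  · obtain ⟨z, hz, o, ho, rfl⟩ := o3 g ⟨h, h'⟩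
    obtain ⟨a, ha, b, hb, rfl⟩ := (d.y3_memYZ (y3_ZUV F)).1 hz
    exact ⟨a, ha, b, hb, o, ho, rfl⟩

theorem y4_half {o t : G} (ho : Odd (orderOf o)) (h : o * t * (o * t) = 1) (t2 : t * t = 1) :
    ∃ m ∈ zpowers o, o * t = m * t * m⁻¹ := by
  obtain ⟨k, hk⟩ := ho
  have ti : t⁻¹ = t := inv_eq_of_mul_eq_one_right t2
  have e1 : t * o * t⁻¹ = o⁻¹ := by
    rw [ti]; apply eq_inv_of_mul_eq_one_right; rw [← h]; group
  have e2 : t * o ^ (k + 1) * t⁻¹ = (o ^ (k + 1))⁻¹ := by rw [← conj_pow, e1, inv_pow]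
  have e3 : o ^ (k + 1) * o ^ (k + 1) = o := by
    rw [← pow_add, show k + 1 + (k + 1) = 2 * k + 1 + 1 by ring, pow_succ, ← hk, pow_orderOf_eq_one, one_mul]
  refine ⟨o ^ (k + 1), pow_mem (mem_zpowers o) _, ?_⟩
  generalize o ^ (k + 1) = m at *
  have e4 : t * m⁻¹ * t⁻¹ = m := by
    calc t * m⁻¹ * t⁻¹ = (t * m * t⁻¹)⁻¹ := by group
      _ = m := by rw [e2, inv_inv]
  calc o * t = m * m * t := by rw [e3]
    _ = m * (t * m⁻¹ * t⁻¹) * t := by rw [e4]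
    _ = _ := by group

theorem Dq.y4_key (d : Dq F t N K α η ε) {a k : G} (ha : a ∈ LL1 F t ε) (hk : k ∈ 𝐂(im ε F.UV))
    (hc : k * (a * (t * a * t)) * t = t * (k * (a * (t * a * t)))) :
    k * (a * (t * a * t)) ∈ N ∧ α (k * (a * (t * a * t))) ∈ 𝐍(F.UV) ∧ ∀ x ∈ F.UV,
      a * ε x * a⁻¹ = ε (α (k * (a * (t * a * t))) * x * (α (k * (a * (t * a * t))))⁻¹) := by
  have hb := d.y4_tC ha.1
  generalize t * a * t = b at *
  have act : ∀ x ∈ F.UV, ∃ x' ∈ F.UV, a * ε x * a⁻¹ = ε x' ∧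
      k * (a * b) * η x * (k * (a * b))⁻¹ = η x' := fun x hx => by
    obtain ⟨x', hx', e⟩ := (d.mem1 le_rfl).1 (conj_mem_of_mem_normalizer (d.lamQ ha) (mem_im_self ε hx))
    refine ⟨x', hx', e.symm, ?_⟩
    have e1 : k * (a * b) * ε x * (k * (a * b))⁻¹ = ε x' := by
      calc k * (a * b) * ε x * (k * (a * b))⁻¹ = k * (a * (b * ε x * b⁻¹) * a⁻¹) * k⁻¹ := by group
        _ = ε x' := by
          rw [conj_eq_of_mem_centralizer hb (mem_im_self ε hx), ← e,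
            conj_eq_of_mem_centralizer hk (mem_im_self ε hx')]
    rw [← d.hat hx, ← d.hat hx', ← e1]
    generalize k * (a * b) = γ at *
    have e2 : t * γ⁻¹ = γ⁻¹ * t := (show Commute γ t from hc).inv_left.eq.symm
    calc γ * (ε x * (t * ε x * t)) * γ⁻¹ = γ * ε x * γ⁻¹ * (γ * t * ε x * (t * γ⁻¹)) := by group
      _ = _ := by rw [hc, e2]; group
  have hn : k * (a * b) ∈ 𝐍(im η F.UV) := nrm_im fun x hx => by
    obtain ⟨x', hx', -, e⟩ := act x hx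
    exact ⟨x', hx', e⟩
  have hN := d.c.lf.ctl (y3_UUV F) le_rfl hn hc
  refine ⟨hN, ?_, fun x hx => ?_⟩
  · apply mem_normalizer_of_cj_le
    intro y hy
    obtain ⟨x, hx, rfl⟩ := mem_cj'.1 hy
    exact (d.c.lf.cj le_rfl hN hn hx).1
  · obtain ⟨x', hx', e1, e2⟩ := act x hx
    obtain ⟨h1, h2⟩ := d.c.lf.cj le_rfl hN hn hx
    rw [e1, d.c.lf.inj hx' h1 (e2.symm.trans h2)]

theorem Oq.y4_eq_one (d : Dq F t N K α η ε) {O : Subgroup G} (o : Oq F t ε O) {a b : X} (ha : a ∈ F.Z0)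
    (hb : b ∈ F.Z0) (h : ε a * (t * ε b * t) ∈ O) : a = 1 ∧ b = 1 := by
  have h1 : ε a * (t * ε b * t) ∈ WW F t ε := d.c.memW.2 ⟨a, ha.1, b, hb.1, rfl⟩
  have h2 := (P2.of_sq (d.c.W2 h1)).eq_one ((o.mem _).1 h).2
  exact d.c.W_inj ha.1 hb.1 (one_mem _) (one_mem _) (by rw [h2, d.y3_one, mul_one, d.y3_tt, mul_one])

theorem Dq.y4_tconj (d : Dq F t N K α η ε) (a : G) :
    a * (t * a * t) * t * (a * (t * a * t))⁻¹ = ⁅a, t * a * t⁆ * t := by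
  have e : (t * a * t)⁻¹ * t = t * a⁻¹ := by
    rw [← d.y4_tinv, mul_assoc, d.y3_tt, mul_one]
  have e' : a⁻¹ * t = t * (t * a * t)⁻¹ := by
    rw [← d.y4_tinv, ← mul_assoc, ← mul_assoc, d.y3_tt, one_mul]
  have e'' : t * (t * a * t)⁻¹ * a⁻¹ = a⁻¹ * ((t * a * t)⁻¹ * t) := by rw [e, ← e']; group
  rw [commutatorElement_def]
  generalize t * a * t = b at *
  calc a * b * t * (a * b)⁻¹ = a * b * (t * b⁻¹ * a⁻¹) := by group
    _ = _ := by rw [e'']; group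

/-- the action on `Q₁` is induced by `X` -/
theorem Dq.rho (d : Dq F t N K α η ε) {a : G} (ha : a ∈ LL1 F t ε) :
    ∃ n ∈ 𝐍(F.UV), ∀ x ∈ F.UV, a * ε x * a⁻¹ = ε (n * x * n⁻¹) := by
  obtain ⟨O, o⟩ := d.exists_oq
  obtain ⟨h1, h2⟩ := d.y4_comm ha ha
  obtain ⟨c, hc, c', hc', p, hp, e⟩ := o.dec _ h1 h2
  have e1 := d.y4_tconj a
  have s2 := cjsq d.y3_tt (a * (t * a * t))
  rw [e1, e] at s2
  rw [e] at e1
  have hp' : t * p * t ∈ O := by rw [d.y4_cj]; exact conj_mem_of_mem_normalizer o.nt hp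
  have pC := ((o.mem p).1 hp).1
  have k1 : Commute p (ε c') := cen_im.1 pC.2 c' (y3_ZUV F hc')
  have k1' : Commute p (ε c) := cen_im.1 pC.2 c (y3_ZUV F hc)
  have k2 : Commute p (t * ε c * t) := d.y3_cZ2 pC.1 hc
  have k3 : Commute (ε c') (t * ε c * t) := d.cm _ (y3_ZUV F hc') _ (y3_ZUV F hc)
  have k4 : Commute (ε c') (t * ε c' * t) := d.cm _ (y3_ZUV F hc') _ (y3_ZUV F hc')
  have s3 : ε (c * c') * (t * ε (c' * c) * t) * (p * (t * p * t)) = 1 := by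
    rw [d.mul _ (y3_ZUV F hc) _ (y3_ZUV F hc'), d.mul _ (y3_ZUV F hc') _ (y3_ZUV F hc), d.y4_tmul, ← s2]
    have : t * (ε c * (t * ε c' * t) * p * t) = t * ε c * t * ε c' * (t * p * t) := by
      rw [← mul_assoc, d.y4_tmul, d.y4_tmul, d.y4_ttt]
    calc ε c * ε c' * (t * ε c' * t * (t * ε c * t)) * (p * (t * p * t))
        = ε c * (ε c' * (t * ε c' * t)) * (t * ε c * t * p) * (t * p * t) := by group
      _ = ε c * (t * ε c' * t) * (ε c' * p) * (t * ε c * t) * (t * p * t) := by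
          rw [k4.eq, ← k2.eq]; group
      _ = ε c * (t * ε c' * t) * p * (ε c' * (t * ε c * t)) * (t * p * t) := by rw [← k1.eq]; group
      _ = ε c * (t * ε c' * t) * p * (t * ε c * t * ε c' * (t * p * t)) := by rw [k3.eq]; group
      _ = _ := by rw [← this]; group
  have s4 : ε (c * c') * (t * ε (c' * c) * t) ∈ O := by
    rw [eq_inv_of_mul_eq_one_left s3]; exact inv_mem (mul_mem hp hp')
  obtain ⟨s5, s6⟩ := o.y4_eq_one d (mul_mem hc hc') (mul_mem hc' hc) s4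
  have cc : c' = c := by
    have := F.U2 c hc.1
    exact mul_left_cancel (s5.trans this.symm)
  subst cc
  rw [s5, d.y3_one, mul_one, d.y3_tt, mul_one, one_mul] at s3
  obtain ⟨m, hm, em⟩ := y4_half ((o.mem p).1 hp).2 (by rw [← s3]; group) d.y3_tt
  have hmO : m ∈ O := zpowers_le.2 hp hm
  have hk : (ε c' * m)⁻¹ ∈ 𝐂(im ε F.UV) := by
    refine inv_mem (mul_mem (cen_im.2 fun y hy => ?_) ((o.mem m).1 hmO).1.2)
    rw [← d.mul _ (y3_ZUV F hc) _ hy, ← d.mul _ hy _ (y3_ZUV F hc), F.Zc hc hy]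
  have e2 : ε c' * (t * ε c' * t) * p * t = ε c' * m * t * (ε c' * m)⁻¹ := by
    calc ε c' * (t * ε c' * t) * p * t = ε c' * (t * ε c' * t * p) * t := by group
      _ = ε c' * (p * t) * ε c' * (t * t) := by rw [← k2.eq]; group
      _ = _ := by rw [em, d.y3_tt, mul_inv_rev, d.c.Ei hc.1]; group
  rw [e2] at e1
  obtain ⟨-, r2, r3⟩ := d.y4_key ha hk (by
    generalize a * (t * a * t) = g at *
    generalize ε c' * m = w at *
    calc w⁻¹ * g * t = w⁻¹ * (g * t * g⁻¹) * g := by group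
      _ = _ := by rw [e1]; group)
  exact ⟨_, r2, r3⟩

theorem y4_four (F : Fy X) {f : X} (hn : ∀ c ∈ F.Z0, f * c * f⁻¹ ∈ F.Z0)
    (fpf : ∀ c ∈ F.Z0, f * c * f⁻¹ = c → c = 1) :
    (∀ c ∈ F.Z0, f * F.e⁻¹ * c * (f * F.e⁻¹)⁻¹ = c) ∨ ∀ c ∈ F.Z0, f * F.e * c * (f * F.e)⁻¹ = c := by
  have eZ : F.e ∈ 𝐍(F.Z0) := F.nZ0 F.eU F.eV
  have hz := F.zZ
  have hz1 : F.e * F.z * F.e⁻¹ ∈ F.Z0 := conj_mem_of_mem_normalizer eZ hz
  have hz2 := conj_mem_of_mem_normalizer eZ hz1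
  have n1 : F.e * F.z * F.e⁻¹ ≠ 1 := cjne F.z1 _
  have n2 := cjne n1 F.e
  have e3 := F.e3 _ F.zU
  have Ztr : ∀ c ∈ F.Z0, c ≠ 1 → _ := fun c hc h => F.Ztr hc h
  obtain ⟨z1, d1⟩ : ∃ z1, z1 = F.e * F.z * F.e⁻¹ := ⟨_, rfl⟩
  rw [← d1] at hz1 hz2 n1 n2 e3 Ztr
  obtain ⟨z2, d2⟩ : ∃ z2, z2 = F.e * z1 * F.e⁻¹ := ⟨_, rfl⟩
  rw [← d2] at hz2 n2 e3 Ztr
  have n0 := F.z1
  generalize F.z = z at *
  have q0 := F.U2 _ hz.1
  have q1 := F.U2 _ hz1.1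
  have q2 := F.U2 _ hz2.1
  have m01 : z * z1 = z2 := mul_right_cancel (e3.trans q2.symm)
  have m10 : z1 * z = z2 := by rw [F.Uc hz1.1 hz.1, m01]
  have m02 : z * z2 = z1 := by rw [← m01, ← mul_assoc, q0, one_mul]
  have m20 : z2 * z = z1 := by rw [F.Uc hz2.1 hz.1, m02]
  have m12 : z1 * z2 = z := by rw [← m10, ← mul_assoc, q1, one_mul]
  have m21 : z2 * z1 = z := by rw [F.Uc hz2.1 hz1.1, m12]
  have d3 : F.e * z2 * F.e⁻¹ = z := by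
    calc F.e * z2 * F.e⁻¹ = F.e * z * F.e⁻¹ * (F.e * z1 * F.e⁻¹) := by rw [← m01]; group
      _ = z := by rw [← d1, ← d2, m12]
  have cm : ∀ a b : X, f * (a * b) * f⁻¹ = f * a * f⁻¹ * (f * b * f⁻¹) := fun a b => by group
  have inj : ∀ a b : X, f * a * f⁻¹ = f * b * f⁻¹ → a = b := fun a b h =>
    mul_left_cancel (mul_right_cancel h)
  have n01 : z ≠ z1 := fun h => n2 (by rw [← m01, ← h, q0])
  have n02 : z ≠ z2 := fun h => n1 (by rw [← m02, ← h, q0])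
  rcases Ztr _ (hn z hz) (cjne n0 f) with h0 | h0 | h0
  · exact (n0 (fpf z hz h0)).elim
  · left
    have h1 : f * z1 * f⁻¹ = z2 := by
      rcases Ztr _ (hn z1 hz1) (cjne n1 f) with h1 | h1 | h1
      · exact (n2 (fpf z2 hz2 (by rw [← m01, cm, h0, h1, m10, m01]))).elim
      · exact (n1 (fpf z1 hz1 h1)).elim
      · exact h1
    have h2 : f * z2 * f⁻¹ = z := by rw [← m01, cm, h0, h1, m12]
    intro c hc
    by_cases c1 : c = 1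
    · rw [c1]; group
    rcases Ztr c hc c1 with h | h | h
    · rw [h]; nth_rewrite 1 [← d3]; rw [← h2]; group
    · rw [h]; nth_rewrite 1 [d1]; rw [← h0]; group
    · rw [h]; nth_rewrite 1 [d2]; rw [← h1]; group
  · right
    have h2 : f * z2 * f⁻¹ = z1 := by
      rcases Ztr _ (hn z2 hz2) (cjne n2 f) with h1 | h1 | h1
      · exact (n1 (fpf z1 hz1 (by rw [← m02, cm, h0, h1, m20, m02]))).elim
      · exact h1
      · exact (n2 (fpf z2 hz2 h1)).elim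
    have h1 : f * z1 * f⁻¹ = z := by rw [← m02, cm, h0, h2, m21]
    intro c hc
    by_cases c1 : c = 1
    · rw [c1]; group
    have : f * F.e * c * (f * F.e)⁻¹ = f * (F.e * c * F.e⁻¹) * f⁻¹ := by group
    rw [this]
    rcases Ztr c hc c1 with h | h | h
    · rw [h, ← d1, h1]
    · rw [h, ← d2, h2]
    · rw [h, d3, h0]

theorem Oq.y4_nM (d : Dq F t N K α η ε) {O : Subgroup G} (o : Oq F t ε O) {a : G} (ha : a ∈ LL1 F t ε) :
    a ∈ 𝐍(im ε F.Z0 ⊔ O) := le_normalizer_sup d.y3_nZ o.nL ha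

theorem Oq.y4_tO (d : Dq F t N K α η ε) {O : Subgroup G} (o : Oq F t ε O) {b : G} (hb : b ∈ LL1 F t ε) :
    t * b * t ∈ 𝐍(O) := mul_mem (mul_mem o.nt (o.nL hb)) o.nt

theorem Oq.y4_tM (d : Dq F t N K α η ε) {O : Subgroup G} (o : Oq F t ε O) {b : G} (hb : b ∈ LL1 F t ε) :
    t * b * t ∈ 𝐍(im ε F.Z0 ⊔ O) := by
  rw [← cj_eq_self_iff, cj_sup, cj_eq_of_mem_normalizer (o.y4_tO d hb),
    cj_eq_of_mem_centralizer (centralizer_anti (im_mono ε (y3_ZUV F)) (d.y4_tC hb.1))]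

theorem Oq.y4_memM (d : Dq F t N K α η ε) {O : Subgroup G} (o : Oq F t ε O) {g : G} :
    g ∈ im ε F.Z0 ⊔ O ↔ ∃ c ∈ F.Z0, ∃ p ∈ O, g = ε c * p := by
  rw [mem_sup_of_le_normalizer_right
    (((im_mono ε (y3_ZUV F)).trans (le_sup_left.trans d.PL)).trans o.nL)]
  constructor
  · rintro ⟨a, ha, p, hp, rfl⟩
    obtain ⟨c, hc, rfl⟩ := (d.mem1 (y3_ZUV F)).1 ha
    exact ⟨c, hc, p, hp, rfl⟩
  · rintro ⟨c, hc, p, hp, rfl⟩
    exact ⟨_, mem_im_self ε hc, p, hp, rfl⟩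

theorem Oq.y4_MY (d : Dq F t N K α η ε) {O : Subgroup G} (o : Oq F t ε O) : im ε F.Z0 ⊔ O ≤ YY F t ε :=
  sup_le (im_le.2 fun _ hc => d.εY (y3_ZUV F hc)) fun p hp => ((o.mem p).1 hp).1.1

theorem Oq.y4_MZ (d : Dq F t N K α η ε) {O : Subgroup G} (o : Oq F t ε O) {c : X} (hc : c ∈ F.Z0)
    (h : t * ε c * t ∈ im ε F.Z0 ⊔ O) : c = 1 := by
  obtain ⟨a, ha, p, hp, e⟩ := (o.y4_memM d).1 h
  refine (o.y4_eq_one d ha hc ?_).2
  rw [e, ← mul_assoc, d.c.sq ha.1, one_mul]; exact hp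

theorem Oq.y4_dec (d : Dq F t N K α η ε) {O : Subgroup G} (o : Oq F t ε O) {g : G} (h1 : g ∈ YY F t ε)
    (h2 : g ∈ 𝐂(im ε F.UV)) : ∃ c ∈ F.Z0, ∃ m ∈ im ε F.Z0 ⊔ O, g = t * ε c * t * m := by
  obtain ⟨a, ha, c, hc, p, hp, e⟩ := o.dec g h1 h2
  refine ⟨c, hc, ε a * p, (o.y4_memM d).2 ⟨a, ha, p, hp, rfl⟩, ?_⟩
  rw [e, d.cm a (y3_ZUV F ha) c (y3_ZUV F hc), mul_assoc]

theorem Oq.y4_S (d : Dq F t N K α η ε) {O : Subgroup G} (o : Oq F t ε O) (a : G) :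
    ∃ S : Subgroup G, ∀ b, b ∈ S ↔ b ∈ LL1 F t ε ∧ ⁅a, t * b * t⁆ ∈ im ε F.Z0 ⊔ O :=
  ⟨{ carrier := {b | b ∈ LL1 F t ε ∧ ⁅a, t * b * t⁆ ∈ im ε F.Z0 ⊔ O}
     mul_mem' := fun {b b'} hb hb' => ⟨mul_mem hb.1 hb'.1, by
       have e : ⁅a, t * (b * b') * t⁆ = ⁅a, t * b * t⁆ * (t * b * t * ⁅a, t * b' * t⁆ * (t * b * t)⁻¹) := by
         rw [d.y4_tmul]; simp only [commutatorElement_def]; group
       rw [e]; exact mul_mem hb.2 (conj_mem_of_mem_normalizer (o.y4_tM d hb.1) hb'.2)⟩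
     one_mem' := ⟨one_mem _, by rw [mul_one, d.y3_tt, commutatorElement_one_right]; exact one_mem _⟩
     inv_mem' := fun {b} hb => ⟨inv_mem hb.1, by
       have e : ⁅a, t * b⁻¹ * t⁆ = (t * b * t)⁻¹ * ⁅a, t * b * t⁆⁻¹ * (t * b * t) := by
         rw [d.y4_tinv]; simp only [commutatorElement_def]; group
       rw [e]; exact conj_mem_of_mem_normalizer' (o.y4_tM d hb.1) (inv_mem hb.2)⟩ },
   fun _ => Iff.rfl⟩

theorem Oq.y4_Q (d : Dq F t N K α η ε) {O : Subgroup G} {a : G} (ha : a ∈ LL1 F t ε) {x : X}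
    (hx : x ∈ F.UV) : ⁅a, t * ε x * t⁆ ∈ im ε F.Z0 ⊔ O := by
  rw [commutatorElement_eq_one_iff_mul_comm.2 (d.memY.1 ha.1 x hx)]; exact one_mem _

theorem Oq.y4_H (d : Dq F t N K α η ε) {O : Subgroup G} (o : Oq F t ε O) {a : G} (ha : a ∈ LL1 F t ε) {b : G}
    (h1 : b ∈ YY F t ε) (h2 : b ∈ 𝐂(im ε F.UV)) : ⁅a, t * b * t⁆ ∈ im ε F.Z0 ⊔ O := by
  obtain ⟨c, hc, m, hm, e⟩ := o.y4_dec d (d.y4_tY h2) (d.y4_tC h1)
  have k1 := d.y3_cZ2 ha.1 hc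
  have k2 := d.y3_cZ2 (o.y4_MY d (mul_mem (conj_mem_of_mem_normalizer (o.y4_nM d ha) hm) (inv_mem hm))) hc
  have e2 : ⁅a, t * b * t⁆ = a * m * a⁻¹ * m⁻¹ := by
    rw [e, commutatorElement_def]
    generalize t * ε c * t = p at *
    calc a * (p * m) * a⁻¹ * (p * m)⁻¹ = a * p * m * a⁻¹ * m⁻¹ * p⁻¹ := by group
      _ = p * (a * m * a⁻¹ * m⁻¹) * p⁻¹ := by rw [k1]; group
      _ = _ := by rw [← k2]; group
  rw [e2]
  exact mul_mem (conj_mem_of_mem_normalizer (o.y4_nM d ha) hm) (inv_mem hm)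

theorem Oq.y4_fix (d : Dq F t N K α η ε) {O : Subgroup G} (o : Oq F t ε O) {a b : G} (ha : a ∈ LL1 F t ε)
    (hb : b ∈ LL1 F t ε) (hU : b ∈ 𝐍(im ε F.U)) (hZ : ∀ c ∈ F.Z0, b * ε c * b⁻¹ = ε c) :
    ⁅a, t * b * t⁆ ∈ im ε F.Z0 ⊔ O := by
  obtain ⟨S, hS⟩ := o.y4_S d a
  obtain ⟨n, hn, e⟩ := d.rho hb
  have nU : n ∈ 𝐍(F.U) := by
    apply mem_normalizer_of_cj_le
    intro y hy
    obtain ⟨u, hu, rfl⟩ := mem_cj'.1 hy
    obtain ⟨u', hu', e'⟩ := d.c.mem1.1 (conj_mem_of_mem_normalizer hU (mem_im_self ε hu))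
    rw [e u (F.mU hu)] at e'
    rw [← d.y3_inj (F.mU hu') (conj_mem_of_mem_normalizer hn (F.mU hu)) e']
    exact hu'
  have nZ : ∀ c ∈ F.Z0, n * c = c * n := fun c hc => by
    have h := hZ c hc
    rw [e c (y3_ZUV F hc)] at h
    have := d.y3_inj (conj_mem_of_mem_normalizer hn (y3_ZUV F hc)) (y3_ZUV F hc) h
    rw [← mul_inv_eq_iff_eq_mul, this]
  have n3 : n ^ 3 ∈ F.UV := F.czr n (F.NUJ nU) nU (nZ _ F.zZ) (nZ _ F.rZ)
  have b3 : b ^ 3 ∈ S := by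
    have h1 : (ε (n ^ 3))⁻¹ * b ^ 3 ∈ YY F t ε := mul_mem (inv_mem (d.εY n3)) (pow_mem (mem_inf.1 hb).1 3)
    have h2 : (ε (n ^ 3))⁻¹ * b ^ 3 ∈ 𝐂(im ε F.UV) := by
      refine cen_im.2 fun x hx => ?_
      have x1 := conj_mem_of_mem_normalizer hn hx
      have x2 := conj_mem_of_mem_normalizer hn x1
      have e3 : b ^ 3 * ε x * (b ^ 3)⁻¹ = ε (n ^ 3) * ε x * (ε (n ^ 3))⁻¹ := by
        rw [d.y3_cj n3 hx]
        calc b ^ 3 * ε x * (b ^ 3)⁻¹ = b * (b * (b * ε x * b⁻¹) * b⁻¹) * b⁻¹ := by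
              simp only [pow_three, mul_inv_rev, mul_assoc]
          _ = _ := by
            rw [e x hx, e _ x1, e _ x2]; congr 1; simp only [pow_three, mul_inv_rev, mul_assoc]
      calc (ε (n ^ 3))⁻¹ * b ^ 3 * ε x = (ε (n ^ 3))⁻¹ * (b ^ 3 * ε x * (b ^ 3)⁻¹) * b ^ 3 := by group
        _ = _ := by rw [e3]; group
    have hQ : ε (n ^ 3) ∈ LL1 F t ε := d.PL (mem_sup_left (mem_im_self ε n3))
    have := mul_mem ((hS _).2 ⟨hQ, Oq.y4_Q d ha n3⟩)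
      ((hS _).2 ⟨mul_mem (inv_mem hQ) (pow_mem hb 3), o.y4_H d ha h1 h2⟩)
    rwa [mul_inv_cancel_left] at this
  obtain ⟨h1, h2⟩ := d.y4_comm ha hb
  obtain ⟨c, hc, m, hm, e1⟩ := o.y4_dec d h1 h2
  have h3 := ((hS _).1 b3).2
  have yM := o.y4_tM d hb
  have k1 : t * b * t * (t * ε c * t) = t * ε c * t * (t * b * t) := by
    rw [← d.y4_tmul, ← d.y4_tmul, mul_inv_eq_iff_eq_mul.1 (hZ c hc)]
  have m1 := conj_mem_of_mem_normalizer yM hm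
  have k2 := d.y3_cZ2 (o.y4_MY d hm) hc
  have k3 := d.y3_cZ2 (o.y4_MY d m1) hc
  have p2 : t * ε c * t * (t * ε c * t) = 1 := by rw [← d.y4_tmul, d.c.sq hc.1, mul_one, d.y3_tt]
  have e3 : t * b ^ 3 * t = t * b * t * (t * b * t * (t * b * t)) := by
    rw [← d.y4_tmul, ← d.y4_tmul, pow_three]
  rw [e3] at h3
  have m2 := conj_mem_of_mem_normalizer yM m1
  generalize t * b * t = y at *
  generalize t * ε c * t = p at *
  have k4 : y * p * y⁻¹ = p := by rw [k1]; group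
  have e4 : ⁅a, y * (y * y)⁆ = p * (m * (y * m * y⁻¹) * (y * (y * m * y⁻¹) * y⁻¹)) := by
    calc ⁅a, y * (y * y)⁆ = ⁅a, y⁆ * (y * ⁅a, y⁆ * y⁻¹) * (y * (y * ⁅a, y⁆ * y⁻¹) * y⁻¹) := by
          simp only [commutatorElement_def]; group
      _ = p * m * (y * p * y⁻¹ * (y * m * y⁻¹)) * (y * (y * p * y⁻¹) * y⁻¹ * (y * (y * m * y⁻¹) * y⁻¹)) := by
          rw [e1]; group
      _ = p * (m * p) * (y * m * y⁻¹ * p) * (y * (y * m * y⁻¹) * y⁻¹) := by rw [k4, k4]; group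
      _ = p * (p * m) * (p * (y * m * y⁻¹)) * (y * (y * m * y⁻¹) * y⁻¹) := by rw [k3, k2]
      _ = p * (p * (m * p)) * (y * m * y⁻¹) * (y * (y * m * y⁻¹) * y⁻¹) := by simp only [mul_assoc]
      _ = p * (p * p) * (m * (y * m * y⁻¹) * (y * (y * m * y⁻¹) * y⁻¹)) := by
          rw [k2]; simp only [mul_assoc]
      _ = _ := by rw [p2, mul_one]
  rw [e4, mul_mem_cancel_right (mul_mem (mul_mem hm m1) m2)] at h3
  rw [e1]; exact mul_mem h3 hm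

theorem Dq.y4_delta (d : Dq F t N K α η ε) : ∃ δ ∈ LL1 F t ε, δ ∈ 𝐍(im ε F.U) ∧ δ ∈ 𝐍(im ε F.V) ∧
    ∀ u ∈ F.U, δ * ε u * δ⁻¹ = ε (F.e * u * F.e⁻¹) := by
  obtain ⟨δ, hδ, e⟩ := d.frat F.eNU F.eV
  have δU : δ ∈ 𝐍(im ε F.U) := nrm_im fun u hu => ⟨_, conj_mem_of_mem_normalizer F.eU hu, e u hu⟩
  refine ⟨δ, hδ, δU, ?_, e⟩
  rcases d.lam hδ with h | h
  · exact h.2
  · have h1 := h.1
    rw [cj_eq_of_mem_normalizer δU] at h1
    rw [← h1]; exact δU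

theorem Dq.split (d : Dq F t N K α η ε) {O : Subgroup G} (o : Oq F t ε O) {a : G} (ha : a ∈ LL1 F t ε) :
    ∃ c ∈ Z2 F t ε, ∀ b ∈ LL1 F t ε, ⁅a * c, t * b * t⁆ ∈ im ε F.Z0 ⊔ O := by
  obtain ⟨δ, hδ, δU, δV, e⟩ := d.y4_delta
  have eZ : F.e ∈ 𝐍(F.Z0) := F.nZ0 F.eU F.eV
  obtain ⟨h1, h2⟩ := d.y4_comm ha hδ
  obtain ⟨c, hc, m, hm, e1⟩ := o.y4_dec d h1 h2
  have hc0 : F.e * c * F.e⁻¹ ∈ F.Z0 := conj_mem_of_mem_normalizer eZ hc
  have hZ := d.y3_tZ2 hc0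
  refine ⟨_, hZ, ?_⟩
  have ha' : a * (t * ε (F.e * c * F.e⁻¹) * t) ∈ LL1 F t ε := mul_mem ha (d.PL (mem_sup_right hZ))
  have aδ : ⁅a * (t * ε (F.e * c * F.e⁻¹) * t), t * δ * t⁆ ∈ im ε F.Z0 ⊔ O := by
    have e2 : ε c = δ * ε (F.e * c * F.e⁻¹) * δ⁻¹ * (ε (F.e * c * F.e⁻¹))⁻¹ := by
      rw [e _ hc0.1, ← im_inv d.mul (F.mU hc0.1),
        ← d.mul _ (F.mU (conj_mem_of_mem_normalizer F.eU hc0.1)) _ (inv_mem (F.mU hc0.1)), y3_e F hc.1]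
    have e3 : t * ε c * t = ⁅t * δ * t, t * ε (F.e * c * F.e⁻¹) * t⁆ := by
      rw [e2, d.y4_tmul, d.y4_tmul, d.y4_tmul, d.y4_tinv, d.y4_tinv, commutatorElement_def]
    have k1 := d.y3_cZ2 ha.1 hc
    have e4 : ⁅a * (t * ε (F.e * c * F.e⁻¹) * t), t * δ * t⁆ = m := by
      generalize t * ε (F.e * c * F.e⁻¹) * t = w at *
      generalize t * δ * t = y at *
      calc ⁅a * w, y⁆ = a * ⁅y, w⁆⁻¹ * a⁻¹ * ⁅a, y⁆ := by simp only [commutatorElement_def]; group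
        _ = (a * (t * ε c * t) * a⁻¹)⁻¹ * (t * ε c * t * m) := by rw [← e3, e1]; group
        _ = m := by rw [k1]; group
    rw [e4]; exact hm
  generalize a * (t * ε (F.e * c * F.e⁻¹) * t) = a' at *
  obtain ⟨S, hS⟩ := o.y4_S d a'
  have δS := (hS δ).2 ⟨hδ, aδ⟩
  intro b hb
  obtain ⟨n, hn, en⟩ := d.rho hb
  have nZ : n ∈ 𝐍(F.Z0) := by
    apply mem_normalizer_of_cj_le
    intro y hy
    obtain ⟨z, hz, rfl⟩ := mem_cj'.1 hy
    refine F.cenUV fun x hx => ?_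
    have := F.Zc hz (conj_mem_of_mem_normalizer' hn hx)
    calc n * z * n⁻¹ * x = n * (z * (n⁻¹ * x * n)) * n⁻¹ := by group
      _ = _ := by rw [this]; group
  have hb' : b * δ * b⁻¹ ∈ LL1 F t ε := mul_mem (mul_mem hb hδ) (inv_mem hb)
  have bU : b * δ * b⁻¹ ∈ 𝐍(im ε F.U) := by
    rcases d.lam hb with h | h
    · exact mul_mem (mul_mem h.1 δU) (inv_mem h.1)
    · rw [← h.2, ← cj_normalizer]; exact cj_mem b δV
  have fZ : ∀ z ∈ F.Z0, n * F.e * n⁻¹ * z * (n * F.e * n⁻¹)⁻¹ ∈ F.Z0 := fun z hz =>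
    conj_mem_of_mem_normalizer (mul_mem (mul_mem nZ eZ) (inv_mem nZ)) hz
  have fpf : ∀ z ∈ F.Z0, n * F.e * n⁻¹ * z * (n * F.e * n⁻¹)⁻¹ = z → z = 1 := fun z hz h => by
    have := F.efix (conj_mem_of_mem_normalizer' nZ hz).1 (by
      calc F.e * (n⁻¹ * z * n) * F.e⁻¹ = n⁻¹ * (n * F.e * n⁻¹ * z * (n * F.e * n⁻¹)⁻¹) * n := by group
        _ = _ := by rw [h])
    calc z = n * (n⁻¹ * z * n) * n⁻¹ := by group
      _ = 1 := by rw [this]; group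
  have act : ∀ z ∈ F.Z0, b * δ * b⁻¹ * ε z * (b * δ * b⁻¹)⁻¹ =
      ε (n * F.e * n⁻¹ * z * (n * F.e * n⁻¹)⁻¹) := fun z hz => by
    have z1 := conj_mem_of_mem_normalizer' nZ hz
    have e2 : b * ε (n⁻¹ * z * n) * b⁻¹ = ε z := by rw [en _ (y3_ZUV F z1)]; congr 1; group
    calc b * δ * b⁻¹ * ε z * (b * δ * b⁻¹)⁻¹ = b * (δ * ε (n⁻¹ * z * n) * δ⁻¹) * b⁻¹ := by rw [← e2]; group
      _ = _ := by
        rw [e _ z1.1, en _ (y3_ZUV F (conj_mem_of_mem_normalizer eZ z1))]; congr 1; group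
  have bS : b * δ * b⁻¹ ∈ S := by
    generalize b * δ * b⁻¹ = b' at *
    generalize n * F.e * n⁻¹ = f at *
    rcases y4_four F fZ fpf with h | h
    · have h3 : b' * δ⁻¹ ∈ S := by
        refine (hS _).2 ⟨mul_mem hb' (inv_mem hδ),
          o.y4_fix d ha' (mul_mem hb' (inv_mem hδ)) (mul_mem bU (inv_mem δU)) fun z hz => ?_⟩
        have z1 := conj_mem_of_mem_normalizer' eZ hz
        have e2 : δ * ε (F.e⁻¹ * z * F.e) * δ⁻¹ = ε z := by rw [e _ z1.1]; congr 1; group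
        calc b' * δ⁻¹ * ε z * (b' * δ⁻¹)⁻¹ = b' * ε (F.e⁻¹ * z * F.e) * b'⁻¹ := by rw [← e2]; group
          _ = _ := by rw [act _ z1]; congr 1; refine Eq.trans ?_ (h z hz); group
      have := mul_mem h3 δS
      rwa [inv_mul_cancel_right] at this
    · have h3 : b' * δ ∈ S := by
        refine (hS _).2 ⟨mul_mem hb' hδ,
          o.y4_fix d ha' (mul_mem hb' hδ) (mul_mem bU δU) fun z hz => ?_⟩
        calc b' * δ * ε z * (b' * δ)⁻¹ = b' * (δ * ε z * δ⁻¹) * b'⁻¹ := by group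
          _ = _ := by
            rw [e z hz.1, act _ (conj_mem_of_mem_normalizer eZ hz)]; congr 1
            refine Eq.trans ?_ (h z hz); group
      have := mul_mem h3 (inv_mem δS)
      rwa [mul_inv_cancel_right] at this
  obtain ⟨h3, h4⟩ := d.y4_comm ha' hb
  obtain ⟨z, hz, w, hw, e5⟩ := o.y4_dec d h3 h4
  have z1 := fZ z hz
  have e6 : t * (b * δ * b⁻¹) * t * (t * ε z * t) * (t * (b * δ * b⁻¹) * t)⁻¹ =
      t * ε (n * F.e * n⁻¹ * z * (n * F.e * n⁻¹)⁻¹) * t := by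
    rw [← d.y4_tinv, ← d.y4_tmul, ← d.y4_tmul, act z hz]
  have e7 : t * b * t * (t * δ * t) = t * (b * δ * b⁻¹) * t * (t * b * t) := by
    rw [← d.y4_tmul, ← d.y4_tmul, inv_mul_cancel_right]
  have i1 := conj_mem_of_mem_normalizer (o.y4_tM d hb) aδ
  have i2 := ((hS _).1 bS).2
  have i3 := conj_mem_of_mem_normalizer (o.y4_tM d hb') hw
  have k5 := d.y3_cZ2 (o.y4_MY d i2) z1
  have e8 : t * ε (z * (n * F.e * n⁻¹ * z * (n * F.e * n⁻¹)⁻¹)) * t ∈ im ε F.Z0 ⊔ O := by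
    rw [d.mul _ (y3_ZUV F hz) _ (y3_ZUV F z1), d.y4_tmul]
    have p2 : t * ε z * t * (t * ε z * t) = 1 := by rw [← d.y4_tmul, d.c.sq hz.1, mul_one, d.y3_tt]
    generalize t * ε (n * F.e * n⁻¹ * z * (n * F.e * n⁻¹)⁻¹) * t = p' at *
    generalize t * ε z * t = p at *
    generalize t * (b * δ * b⁻¹) * t = y' at *
    generalize t * b * t = y at *
    generalize t * δ * t = yd at *
    have e9 : p * w * (y * ⁅a', yd⁆ * y⁻¹) = p' * (⁅a', y'⁆ * (y' * w * y'⁻¹)) := by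
      calc p * w * (y * ⁅a', yd⁆ * y⁻¹) = ⁅a', y * yd⁆ := by
            rw [← e5]; simp only [commutatorElement_def]; group
        _ = ⁅a', y'⁆ * (y' * ⁅a', y⁆ * y'⁻¹) := by rw [e7]; simp only [commutatorElement_def]; group
        _ = ⁅a', y'⁆ * (y' * p * y'⁻¹) * (y' * w * y'⁻¹) := by rw [e5]; group
        _ = _ := by rw [e6, k5]; group
    have e10 : p * p' = w * (y * ⁅a', yd⁆ * y⁻¹) * (⁅a', y'⁆ * (y' * w * y'⁻¹))⁻¹ := by
      calc p * p' = p * (p' * (⁅a', y'⁆ * (y' * w * y'⁻¹))) * (⁅a', y'⁆ * (y' * w * y'⁻¹))⁻¹ := by group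
        _ = p * p * (w * (y * ⁅a', yd⁆ * y⁻¹) * (⁅a', y'⁆ * (y' * w * y'⁻¹))⁻¹) := by rw [← e9]; group
        _ = _ := by rw [p2, one_mul]
    rw [e10]
    exact mul_mem (mul_mem hw i1) (inv_mem (mul_mem i2 i3))
  have e11 := o.y4_MZ d (mul_mem hz z1) e8
  have e12 := fpf z hz (mul_left_cancel (e11.trans (F.U2 z hz.1).symm))
  rw [e5, e12, d.y3_one, mul_one, d.y3_tt, one_mul]
  exact hw

end H60.ML
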