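import Mathlib
import Cfsg.Agent.Lib.McLy.Base2
import Cfsg.Agent.Lib.McLy.Y4

set_option autoImplicit false
set_option linter.unusedSectionVars false

namespace H60.ML

open Subgroup H69 H36.SW
open scoped commutatorElement

universe u
variable {X : Type} [Group X] [Finite X] {G : Type u} [Group G] [Finite G]
variable {F : Fy X} {t : G} {N K : Subgroup G} {α : G → X} {η E E' ε : X → G} {R : Subgroup G}

theorem y5_ZU (F : Fy X) : F.Z0 ≤ F.UV := inf_le_left.trans le_sup_left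

/-- the elements of `LL1` commuting with `t LL1 t` modulo `Z₁ O` -/
def y5F (F : Fy X) (t : G) (ε : X → G) (O : Subgroup G) (f : G) : Prop :=
  f ∈ LL1 F t ε ∧ ∀ b ∈ LL1 F t ε, ⁅f, t * b * t⁆ ∈ im ε F.Z0 ⊔ O

/-- `n` is the image of an element of `C(t)` in the coset of `f · t f t` -/
def y5R (F : Fy X) (t : G) (α : G → X) (ε : X → G) (O : Subgroup G) (a : G) (n : X) : Prop :=
  ∃ c ∈ Z2 F t ε, y5F F t ε O (a * c) ∧ ∃ k, (a * c * (t * (a * c) * t))⁻¹ * k ∈ O ∧ k * t = t * k ∧ α k = n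

theorem eqns_Y5 : True := by
  have := @y5F.eq_1.{0}
  have := @y5R.eq_1.{0}
  trivial

namespace Dq

variable (d : Dq F t N K α η ε) {O : Subgroup G} (o : Oq F t ε O)
include d

theorem y5_ti : t⁻¹ = t := d.c.fr.ti

theorem y5_one : ε 1 = 1 := d.c.one

theorem y5_nZ {a : G} (ha : a ∈ LL1 F t ε) : a ∈ 𝐍(im ε F.Z0) := by
  obtain ⟨n, hn, e⟩ := d.rho ha
  refine nrm_im fun c hc => ⟨n * c * n⁻¹, F.cenUV fun x hx => ?_, e c (y5_ZU F hc)⟩
  have := F.Zc hc (conj_mem_of_mem_normalizer' hn hx)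
  calc _ = n * (c * (n⁻¹ * x * n)) * n⁻¹ := by group
    _ = _ := by rw [this]; group

theorem y5_Z2L : Z2 F t ε ≤ LL1 F t ε := le_sup_right.trans d.PL

theorem y5_c1 {a x} (ha : a ∈ LL1 F t ε) (hx : x ∈ F.UV) : t * a * t * ε x = ε x * (t * a * t) := by
  have := d.memY.1 ha.1 x hx
  have t2 := d.c.fr.t2
  calc _ = t * (a * (t * ε x * t)) * t * (t * t)⁻¹ := by group
    _ = (t * t) * ε x * (t * a * t) * (t * t)⁻¹ := by rw [this]; group
    _ = _ := by rw [t2]; group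

theorem y5_c2 {c x} (hc : c ∈ Z2 F t ε) (hx : x ∈ F.UV) : c * ε x = ε x * c := by
  obtain ⟨y, hy, rfl⟩ := (d.mem2 (y5_ZU F)).1 hc
  exact (d.cm x hx y (y5_ZU F hy)).symm

include o

theorem y5_o1 {g x} (hg : g ∈ O) (hx : x ∈ F.UV) : g * ε x = ε x * g :=
  cen_im.1 ((o.mem g).1 hg).1.2 x hx

theorem y5_o2 {g x} (hg : g ∈ O) (hx : x ∈ F.UV) : g * (t * ε x * t) = t * ε x * t * g :=
  d.memY.1 ((o.mem g).1 hg).1.1 x hx

theorem y5_tO {g} (hg : g ∈ O) : t * g * t ∈ O := by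
  have := conj_mem_of_mem_normalizer o.nt hg
  rwa [d.y5_ti] at this

theorem y5_nt {a} (ha : a ∈ LL1 F t ε) : t * a * t ∈ 𝐍(O) := mul_mem (mul_mem o.nt (o.nL ha)) o.nt

theorem y5_mem {g} (hg : g ∈ im ε F.Z0 ⊔ O) : ∃ c ∈ F.Z0, ∃ k ∈ O, g = ε c * k := by
  obtain ⟨a, ha, k, hk, rfl⟩ := (mem_sup_of_le_normalizer_right (le_normalizer_of_le_centralizer
    (im_le.2 fun y hy => mem_centralizer_iff_commute.2 fun a ha => d.y5_o1 o ha (y5_ZU F hy)))).1 hg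
  obtain ⟨c, hc, rfl⟩ := (d.mem1 (y5_ZU F)).1 ha
  exact ⟨c, hc, k, hk, rfl⟩

/-- `Z₁ Z₂ ∩ O = 1` -/
theorem y5_eq {a b : X} (ha : a ∈ F.Z0) (hb : b ∈ F.Z0) (h : ε a * (t * ε b * t) ∈ O) : a = 1 ∧ b = 1 := by
  have p : P2 (ε a * (t * ε b * t)) := P2.of_mem (d.isP (y5_ZU F) (y5_ZU F))
    ((d.mem12 (y5_ZU F) (y5_ZU F)).2 ⟨a, ha, b, hb, rfl⟩)
  refine d.inj (y5_ZU F ha) (y5_ZU F hb) (one_mem _) (one_mem _) ?_
  rw [p.eq_one ((o.mem _).1 h).2, d.y5_one, mul_one, d.c.fr.t2, mul_one]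

theorem y5_mul {f g} (hf : y5F F t ε O f) (hg : y5F F t ε O g) : y5F F t ε O (f * g) := by
  refine ⟨mul_mem hf.1 hg.1, fun b hb => ?_⟩
  have n : f ∈ 𝐍((im ε F.Z0 ⊔ O : Subgroup G)) :=
    normalizer_inf_normalizer_le_normalizer_sup _ _ ⟨d.y5_nZ hf.1, o.nL hf.1⟩
  have := mul_mem (conj_mem_of_mem_normalizer n (hg.2 b hb)) (hf.2 b hb)
  convert this using 1
  simp only [commutatorElement_def]; group

theorem y5_inv {f} (hf : y5F F t ε O f) : y5F F t ε O f⁻¹ := by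
  refine ⟨inv_mem hf.1, fun b hb => ?_⟩
  have n : f ∈ 𝐍((im ε F.Z0 ⊔ O : Subgroup G)) :=
    normalizer_inf_normalizer_le_normalizer_sup _ _ ⟨d.y5_nZ hf.1, o.nL hf.1⟩
  have := conj_mem_of_mem_normalizer' n (inv_mem (hf.2 b hb))
  convert this using 1
  simp only [commutatorElement_def]; group

theorem y5_triv {c} (hc : c ∈ Z2 F t ε) (hf : y5F F t ε O c) : c = 1 := by
  obtain ⟨y, hy, rfl⟩ := (d.mem2 (y5_ZU F)).1 hc
  obtain ⟨δ, hδ, e⟩ := d.frat F.eNU F.eV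
  have t2 := d.c.fr.t2
  have m : F.e * y * F.e⁻¹ ∈ F.Z0 := conj_mem_of_mem_normalizer (F.nZ0 F.eU F.eV) hy
  obtain ⟨a, ha, k, hk, e'⟩ := d.y5_mem o (hf.2 δ hδ)
  have e2 : ⁅t * ε y * t, t * δ * t⁆ = t * ε (y * (F.e * y * F.e⁻¹)) * t := by
    rw [d.mul _ (y5_ZU F hy) _ (y5_ZU F m), ← e y hy.1, commutatorElement_def]
    simp only [mul_inv_rev, d.y5_ti, d.c.Ei hy.1]
    calc _ = t * ε y * (t * t) * δ * (t * t) * ε y * (t * t) * δ⁻¹ * t := by group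
      _ = _ := by rw [t2]; group
  have := (d.y5_eq o ha (mul_mem hy m) (by
    rw [← e2, e', ← mul_assoc, d.c.sq ha.1, one_mul]; exact hk)).2
  have : F.e * y * F.e⁻¹ = y := by
    rw [eq_inv_of_mul_eq_one_right this, inv_eq_of_mul_eq_one_left (F.U2 y hy.1)]
  rw [F.efix hy.1 this, d.y5_one, mul_one, t2]

theorem y5_comm {f g} (hf : y5F F t ε O f) (hg : y5F F t ε O g) : ⁅f, t * g * t⁆ ∈ O := by
  have t2 := d.c.fr.t2
  obtain ⟨a, ha, k, hk, e⟩ := d.y5_mem o (hf.2 g hg.1)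
  obtain ⟨b, hb, l, hl, e'⟩ := d.y5_mem o (hg.2 f hf.1)
  have e2 : ⁅f, t * g * t⁆ * (t * ⁅g, t * f * t⁆ * t) = 1 := by
    simp only [commutatorElement_def, mul_inv_rev, d.y5_ti]
    have k2 : ∀ y, t * (t * y) = y := fun y => by rw [← mul_assoc, t2, one_mul]
    simp only [mul_assoc, k2, t2, mul_one, inv_mul_cancel_left, mul_inv_cancel_left, mul_inv_cancel]
  have e3 : ε a * (t * ε b * t) * (k * (t * l * t)) = 1 := by
    rw [← e2, e, e']
    calc _ = ε a * (t * ε b * t * k) * (t * l * t) := by group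
      _ = ε a * k * (t * ε b * (t * t) * l * t) := by rw [← d.y5_o2 o hk (y5_ZU F hb)]; group
      _ = _ := by rw [t2]; group
  have := (d.y5_eq o ha hb (by
    rw [eq_inv_of_mul_eq_one_left e3]; exact inv_mem (mul_mem hk (d.y5_tO o hl)))).1
  rw [e, this, d.y5_one, one_mul]; exact hk

theorem y5_sw {f g} (hf : y5F F t ε O f) (hg : y5F F t ε O g) :
    (t * g * t)⁻¹ * f⁻¹ * (t * g * t) * f ∈ O := by
  have := inv_mem (d.y5_comm o (d.y5_inv o hf) (d.y5_inv o hg))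
  convert this using 1
  simp only [commutatorElement_def, mul_inv_rev, d.y5_ti, inv_inv, mul_assoc]

theorem y5_odd : ¬ 2 ∣ Nat.card O := fun h => by
  obtain ⟨g, hg⟩ := exists_prime_orderOf_dvd_card' (G := O) 2 h
  have := ((o.mem g).1 g.2).2
  rw [Subgroup.orderOf_coe, hg] at this
  exact absurd this (by decide)

theorem y5_ex {f} (hf : y5F F t ε O f) : ∃ k, (f * (t * f * t))⁻¹ * k ∈ O ∧ k * t = t * k := by
  have t2 := d.c.fr.t2
  obtain ⟨k, hk, e⟩ := exists_fix (S := {k | (f * (t * f * t))⁻¹ * k ∈ O}) (p := 2) (K := 1) (h := t) (by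
      rw [Nat.card_congr (α := {k | (f * (t * f * t))⁻¹ * k ∈ O}) (β := O)
        ⟨fun k => ⟨_, k.2⟩, fun e => ⟨f * (t * f * t) * e.1, by
          show _ ∈ O; rw [inv_mul_cancel_left]; exact e.2⟩, fun k => Subtype.ext (mul_inv_cancel_left _ _),
          fun k => Subtype.ext (inv_mul_cancel_left _ _)⟩]
      exact d.y5_odd o) (by rw [pow_one, pow_two, t2]) fun k hk => by
    have := mul_mem (d.y5_sw o hf hf) (d.y5_tO o hk)
    show _ ∈ O
    convert this using 1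
    simp only [mul_inv_rev, d.y5_ti]
    calc _ = t * f⁻¹ * t * f⁻¹ * t * (f * ((f * (f⁻¹ * f⁻¹)))) * k * t := by group
      _ = t * f⁻¹ * t * f⁻¹ * t * (f * (t * (f * (t * t) * f⁻¹) * t * f⁻¹)) * k * t := by
        rw [t2, mul_one, mul_inv_cancel, mul_one, t2]; group
      _ = _ := by group
  exact ⟨k, hk, (mul_inv_eq_iff_eq_mul.1 e).symm⟩

theorem y5_N {f k} (hf : f ∈ LL1 F t ε) (hk : (f * (t * f * t))⁻¹ * k ∈ O) (c : k * t = t * k) :
    k ∈ N ∧ α k ∈ 𝐍(F.UV) ∧ ∀ x ∈ F.UV, f * ε x * f⁻¹ = ε (α k * x * (α k)⁻¹) := by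
  have t2 := d.c.fr.t2
  obtain ⟨n, hn, e⟩ := d.rho hf
  have key : ∀ x ∈ F.UV, k * η x * k⁻¹ = η (n * x * n⁻¹) := fun x hx => by
    have m := conj_mem_of_mem_normalizer hn hx
    rw [← d.hat hx, ← d.hat m, ← e x hx]
    generalize hg : (f * (t * f * t))⁻¹ * k = g at hk
    obtain rfl : k = f * (t * f * t) * g := by rw [← hg]; group
    calc _ = f * (t * f * t) * (g * ε x * g⁻¹) * (g * (t * ε x * t) * g⁻¹) * (f * (t * f * t))⁻¹ := by group
      _ = f * (t * f * t * ε x) * (t * ε x * t) * (t * f * t)⁻¹ * f⁻¹ := by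
        rw [d.y5_o1 o hk hx, d.y5_o2 o hk hx]; group
      _ = f * ε x * f⁻¹ * (f * (t * (f * (t * t) * ε x * (t * (t * f * t)⁻¹ * t⁻¹)) * t) * f⁻¹) := by
        rw [d.y5_c1 hf hx]; group
      _ = f * ε x * f⁻¹ * (f * (t * ε (n * x * n⁻¹) * t) * f⁻¹) := by
        rw [← e x hx, t2]; simp only [mul_inv_rev, d.y5_ti]
        rw [show t * (t * (f⁻¹ * t)) * t = (t * t) * f⁻¹ * (t * t) by group, t2]; group
      _ = _ := by rw [d.memY.1 hf.1 _ m, ← e x hx]; group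
  have kn : k ∈ 𝐍(im η F.UV) := nrm_im fun x hx => ⟨_, conj_mem_of_mem_normalizer hn hx, key x hx⟩
  have kN : k ∈ N := d.c.lf.ctl le_sup_left le_rfl kn c
  refine ⟨kN, mem_normalizer_of_cj_le ?_, fun x hx => ?_⟩
  · rintro _ ⟨x, hx, rfl⟩
    exact (d.c.lf.cj le_rfl kN kn hx).1
  · obtain ⟨h1, h2⟩ := d.c.lf.cj le_rfl kN kn hx
    rw [e x hx, d.c.lf.inj (conj_mem_of_mem_normalizer hn hx) h1 ((key x hx).symm.trans h2)]

theorem y5_uq {a : G} {n n' : X} (h : y5R F t α ε O a n) (h' : y5R F t α ε O a n') : n = n' := by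
  obtain ⟨c, hc, hf, k, hk, kt, rfl⟩ := h
  obtain ⟨c', hc', hf', k', hk', kt', rfl⟩ := h'
  have f := d.c.fr
  obtain rfl : c = c' := by
    have := d.y5_mul o (d.y5_inv o hf) hf'
    rw [show (a * c)⁻¹ * (a * c') = c⁻¹ * c' by group] at this
    exact inv_mul_eq_one.1 (d.y5_triv o (mul_mem (inv_mem hc) hc') this)
  have kN := (d.y5_N o hf.1 hk kt).1
  have kN' := (d.y5_N o hf.1 hk' kt').1
  have m : k⁻¹ * k' ∈ O := by
    have := mul_mem (inv_mem hk) hk'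
    convert this using 1; group
  have mN := mul_mem (inv_mem kN) kN'
  have z : α (k⁻¹ * k') ∈ F.Z0 := F.cenUV fun x hx => by
    have := f.comm mN (d.c.lf.memN hx) (by
      rw [← d.hat hx]; exact (Commute.mul_right (d.y5_o1 o m hx) (d.y5_o2 o m hx) :))
    rwa [d.c.lf.inv x hx] at this
  have e : α (k⁻¹ * k') = 1 := by
    rw [← pow_odd_of_sq (F.U2 _ z.1) ((o.mem _).1 m).2, ← f.pow mN, pow_orderOf_eq_one, f.one]
  rw [f.mul _ (inv_mem kN) _ kN', f.inv kN] at e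
  exact inv_mul_eq_one.1 e

theorem y5_Rex {a : G} (ha : a ∈ LL1 F t ε) : ∃ n, y5R F t α ε O a n := by
  obtain ⟨c, hc, h⟩ := d.split o ha
  have hf : y5F F t ε O (a * c) := ⟨mul_mem ha (d.y5_Z2L hc), h⟩
  obtain ⟨k, hk, kt⟩ := d.y5_ex o hf
  exact ⟨_, c, hc, hf, k, hk, kt, rfl⟩

theorem y5_Rmul {a b : G} (hb : b ∈ LL1 F t ε) {n m : X} (h : y5R F t α ε O a n) (h' : y5R F t α ε O b m) :
    y5R F t α ε O (a * b) (n * m) := by
  obtain ⟨c, hc, hf, k, hk, kt, rfl⟩ := h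
  obtain ⟨c', hc', hf', k', hk', kt', rfl⟩ := h'
  have e : a * b * (c * c') = a * c * (b * c') := by
    calc _ = a * (b * c) * c' := by group
      _ = _ := by rw [← d.YZ hb.1 c hc]; group
  refine ⟨c * c', mul_mem hc hc', e ▸ d.y5_mul o hf hf', k * k', ?_,
    (Commute.mul_left kt kt' :), d.c.fr.mul _ (d.y5_N o hf.1 hk kt).1 _ (d.y5_N o hf'.1 hk' kt').1⟩
  rw [e]
  generalize a * c = f at hf hk
  generalize b * c' = g at hf' hk'
  have := mul_mem (conj_mem_of_mem_normalizer' (d.y5_nt o hf'.1) (mul_mem (d.y5_sw o hf' hf)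
    (conj_mem_of_mem_normalizer' (o.nL hf'.1) hk))) hk'
  convert this using 1
  rw [show t * (f * g) * t = t * f * t * (t * g * t) by
    rw [show t * f * t * (t * g * t) = t * f * (t * t) * g * t by group, d.c.fr.t2]; group]
  generalize t * f * t = f'
  generalize t * g * t = g'
  group

end Dq

theorem Dq.exists_ps (d : Dq F t N K α η ε) : ∃ ψ, Ps F t ε ψ := by
  classical
  obtain ⟨O, o⟩ := d.exists_oq
  have h : ∀ a, ∃ n, a ∈ LL1 F t ε → y5R F t α ε O a n := fun a => by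
    by_cases ha : a ∈ LL1 F t ε
    · exact (d.y5_Rex o ha).imp fun _ h _ => h
    · exact ⟨1, fun h => absurd h ha⟩
  choose ψ hψ using h
  have t2 := d.c.fr.t2
  refine ⟨ψ, fun a ha b hb => d.y5_uq o (hψ _ (mul_mem ha hb)) (d.y5_Rmul o hb (hψ a ha) (hψ b hb)),
    fun x hx => ?_, fun a ha => ?_, fun a ha => ?_, fun a ha x hx => ?_⟩
  · have m : ε x ∈ LL1 F t ε := d.PL (mem_sup_left (mem_im_self ε hx))
    refine d.y5_uq o (hψ _ m) ⟨1, one_mem _, ⟨by rwa [mul_one], fun b hb => ?_⟩, η x, ?_, d.c.lf.ct hx,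
      d.c.lf.inv x hx⟩
    · rw [mul_one, commutatorElement_eq_one_iff_mul_comm.2 (d.y5_c1 hb hx).symm]; exact one_mem _
    · rw [mul_one, d.hat hx, inv_mul_cancel]; exact one_mem _
  · refine d.y5_uq o (hψ _ (d.y5_Z2L ha)) ⟨a⁻¹, inv_mem ha, ?_, 1, ?_, by simp, d.c.fr.one⟩
    · rw [mul_inv_cancel]
      exact ⟨one_mem _, fun b _ => by rw [commutatorElement_one_left]; exact one_mem _⟩
    · rw [mul_inv_cancel, mul_one, mul_one, t2, one_mul, inv_one]; exact one_mem _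
  · obtain ⟨c, -, hf, k, hk, kt, e⟩ := hψ a ha
    exact e ▸ (d.y5_N o hf.1 hk kt).2.1
  · obtain ⟨c, hc, hf, k, hk, kt, e⟩ := hψ a ha
    rw [← e, ← (d.y5_N o hf.1 hk kt).2.2 x hx, mul_assoc a c, d.y5_c2 hc hx]; group

end H60.ML
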