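import Mathlib
import Cfsg.Agent.Lib.McLy.Base2
import Cfsg.Agent.Lib.McLy.Y3

set_option autoImplicit false
set_option linter.unusedSectionVars false

namespace H60.ML

open Subgroup H69 H36.SW
open scoped commutatorElement

universe u
variable {X : Type} [Group X] [Finite X] {G : Type u} [Group G] [Finite G]
variable {F : Fy X} {t : G} {N K : Subgroup G} {α : G → X} {η E E' ε : X → G} {R : Subgroup G}

theorem Fy.y6_Z (F : Fy X) : F.Z0 ≤ F.UV := inf_le_left.trans le_sup_left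

theorem Dq.y6_Q (d : Dq F t N K α η ε) {x : X} (hx : x ∈ F.UV) : ε x ∈ im ε F.UV ⊔ Z2 F t ε :=
  mem_sup_left (mem_im_self ε hx)

theorem Ps.y6_one {ψ : G → X} (p : Ps F t ε ψ) : ψ 1 = 1 := p.z2 1 (one_mem _)

theorem Ps.y6_div {ψ : G → X} (p : Ps F t ε ψ) {a b : G} (ha : a ∈ LL1 F t ε) (hb : b ∈ LL1 F t ε)
    (e : ψ a = ψ b) : ψ (a⁻¹ * b) = 1 := by
  rw [← mul_right_inj (ψ a), ← p.mul _ ha _ (mul_mem (inv_mem ha) hb), mul_inv_cancel_left, e, mul_one]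

theorem Dq.y6_ker (d : Dq F t N K α η ε) {ψ : G → X} (p : Ps F t ε ψ) {a : G} (ha : a ∈ LL1 F t ε) (h2 : P2 a)
    (e : ψ a = 1) : a ∈ Z2 F t ε := by
  have hZ := F.y6_Z
  have c : a ∈ 𝐂(im ε F.UV) := cen_im.2 fun x hx => by
    have := p.act a ha x hx
    rwa [e, inv_one, one_mul, mul_one, mul_inv_eq_iff_eq_mul] at this
  obtain ⟨y, hy, y', hy', rfl⟩ := (d.mem12 hZ hZ).1 (d.twoQ ha.1 c h2)
  have m : t * ε y' * t ∈ Z2 F t ε := (d.mem2 hZ).2 ⟨y', hy', rfl⟩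
  rw [p.mul _ (d.PL (d.y6_Q (hZ hy))) _ (d.PL (mem_sup_right m)), p.inv _ (hZ hy), p.z2 _ m, mul_one] at e
  rwa [e, d.c.one, one_mul]

theorem Dq.y6_syl (d : Dq F t N K α η ε) {ψ : G → X} (p : Ps F t ε ψ) :
    ∃ (S : Subgroup G) (P : Subgroup X), IsSylowIn 2 S (LL1 F t ε) ∧ IsPGroup 2 P ∧ F.T ≤ P ∧
      ∀ x, x ∈ P ↔ ∃ s ∈ S, ψ s = x := by
  let f : LL1 F t ε →* X := MonoidHom.mk' (fun a => ψ a) fun a b => p.mul _ a.2 _ b.2
  have hUV : F.UV ≤ f.range := fun x hx => ⟨⟨_, d.PL (d.y6_Q hx)⟩, p.inv x hx⟩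
  have hT : F.T ≤ f.range := by
    refine F.gT.trans (sup_le hUV (zpowers_le.2 ?_))
    obtain ⟨x, hx, e⟩ := d.frat (F.TNU F.y1T) (F.TV F.y1T)
    have : F.y1⁻¹ * ψ x ∈ F.U := F.cenU fun u hu => by
      have k := congrArg ψ ((p.act x hx u (F.mU hu)).symm.trans (e u hu))
      rw [p.inv _ (conj_mem_of_mem_normalizer (p.nrm x hx) (F.mU hu)),
        p.inv _ (F.mU (conj_mem_of_mem_normalizer (F.TU F.y1T) hu))] at k
      rw [mul_assoc, mul_inv_eq_iff_eq_mul.1 k]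
      group
    have k := mul_mem (show ψ x ∈ f.range from ⟨⟨x, hx⟩, rfl⟩) (inv_mem (hUV (F.mU this)))
    simpa using k
  obtain ⟨S0, h0⟩ := exists_isSylowIn 2 (F.T.comap f)
  have h1 := h0.map f
  rw [map_comap_eq_self hT] at h1
  obtain ⟨S, hS, l⟩ := exists_isSylowIn_le h0.isP (le_top (a := S0))
  have k := hS.map_subtype
  rw [← MonoidHom.range_eq_map, range_subtype] at k
  refine ⟨_, S.map f, k, hS.isP.map f,
    (h1.le_of_le_normalizer F.syl.isP le_rfl (le_normalizer_of_le h1.le)).trans (map_mono l), fun x => ⟨?_, ?_⟩⟩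
  · rintro ⟨s, hs, rfl⟩
    exact ⟨s, ⟨s, hs, rfl⟩, rfl⟩
  · rintro ⟨_, ⟨s, hs, rfl⟩, rfl⟩
    exact ⟨s, hs, rfl⟩

theorem Dq.y6_nrm (d : Dq F t N K α η ε) {ψ : G → X} (p : Ps F t ε ψ) {S : Subgroup G} {P : Subgroup X}
    (hS : IsSylowIn 2 S (LL1 F t ε)) (hP : IsPGroup 2 P) (hT : F.T ≤ P) (h : ∀ x, x ∈ P ↔ ∃ s ∈ S, ψ s = x) :
    IsSylowIn 2 S (YY F t ε) := by
  have hQ : im ε F.UV ⊔ Z2 F t ε ≤ S := hS.le_of_le_normalizer (d.isP le_rfl F.y6_Z) d.PL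
    (hS.le.trans inf_le_right)
  refine isSylowIn_of_normalizer (hS.le.trans inf_le_left) (hS.mono (le_inf (hS.le.trans inf_le_left)
    le_normalizer) fun g hg => ⟨hg.1, mem_normalizer_of_cj_le ?_⟩)
  have c := d.YZ hg.1
  have key : ∀ W : Subgroup X, W ≤ F.UV → (∀ w ∈ W, w * w = 1) → Nat.card W = 16 → ∀ w ∈ W,
      g * ε w * g⁻¹ ∈ im ε F.UV ⊔ Z2 F t ε := fun W l sq cd w hw => by
    have m : ∀ w ∈ W, g * ε w * g⁻¹ ∈ S := fun w hw => conj_mem_of_mem_normalizer hg.2 (hQ (d.y6_Q (l hw)))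
    have mu : ∀ x ∈ W, ∀ y ∈ W, ψ (g * ε (x * y) * g⁻¹) = ψ (g * ε x * g⁻¹) * ψ (g * ε y * g⁻¹) :=
      fun x hx y hy => by rw [← p.mul _ (hS.le (m x hx)) _ (hS.le (m y hy)), d.mul x (l hx) y (l hy), conj_mul]
    have e : im (fun w => ψ (g * ε w * g⁻¹)) W ≤ F.UV := by
      rcases F.eQ P (im (fun w => ψ (g * ε w * g⁻¹)) W) hP (F.UVT.trans hT)
        (im_le.2 fun w hw => (h _).2 ⟨_, m w hw, rfl⟩) (fun a ha => by
          obtain ⟨w, hw, rfl⟩ := (mem_im mu).1 ha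
          rw [← mu w hw w hw, sq w hw]
          exact im_one (f := fun w => ψ (g * ε w * g⁻¹)) mu) (by
          rw [card_im mu, cd]
          intro w hw e
          have z := d.y6_ker p (hS.le (m w hw)) (P2.of_mem hS.isP (m w hw)) e
          have z' := conj_eq_of_mem_centralizer (inv_mem c) z
          rw [← z', show g⁻¹ * (g * ε w * g⁻¹) * g⁻¹⁻¹ = ε w by group] at z
          obtain ⟨y, hy, e⟩ := (d.mem2 F.y6_Z).1 z
          exact (d.inj (l hw) (one_mem _) (one_mem _) (F.mU hy.1) (by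
            rw [d.c.one, mul_one t, d.c.fr.t2, mul_one, one_mul, e])).1) with e | e <;> rw [e]
      exacts [le_sup_left, le_sup_right]
    have x := e (mem_im_self _ hw)
    have s := hQ (d.y6_Q x)
    have z := d.y6_ker p (hS.le (mul_mem (inv_mem s) (m w hw))) (P2.of_mem hS.isP (mul_mem (inv_mem s) (m w hw)))
      (p.y6_div (hS.le s) (hS.le (m w hw)) (p.inv _ x))
    exact (mul_mem_cancel_left (inv_mem (d.y6_Q x))).1 (mem_sup_right z)
  rw [cj_sup, cj_eq_of_mem_centralizer c]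
  refine sup_le (cj_le_iff.2 (im_le.2 fun x hx => ?_)) le_sup_right
  obtain ⟨u, hu, v, hv, rfl⟩ := F.mem_UV.1 hx
  rw [mem_cj, inv_inv, d.mul _ (F.mU hu) _ (F.mV hv), ← conj_mul]
  exact mul_mem (key _ le_sup_left F.U2 F.cU u hu) (key _ le_sup_right (fun _ => F.V2) F.cV v hv)

theorem Dq.exists_rc (d : Dq F t N K α η ε) {ψ : G → X} (p : Ps F t ε ψ) :
    ∃ (H : Type u) (_ : Group H) (_ : Finite H) (π : YY F t ε →* H), Function.Surjective π ∧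
      π.ker ≤ center _ ∧ ∃ (P : Subgroup X) (ι : X → H), Rc F P ι := by
  classical
  obtain ⟨S, P, hS, hP, hT, h⟩ := d.y6_syl p
  have hY := d.y6_nrm p hS hP hT h
  have hc : (Z2 F t ε).subgroupOf (YY F t ε) ≤ center _ := fun z hz => mem_center_iff.2 fun y =>
    Subtype.ext (d.YZ y.2 z hz).symm
  haveI : ((Z2 F t ε).subgroupOf (YY F t ε)).Normal := ⟨fun z hz g => by
    rwa [mem_center_iff.1 (hc hz) g, mul_inv_cancel_right]⟩
  let π := QuotientGroup.mk' ((Z2 F t ε).subgroupOf (YY F t ε))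
  obtain ⟨ι, hι⟩ : ∃ ι : X → _, ∀ s (hs : s ∈ S), ι (ψ s) = π ⟨s, hY.le hs⟩ := by
    refine ⟨fun x => if k : ∃ s ∈ S, ψ s = x then π ⟨k.choose, hY.le k.choose_spec.1⟩ else 1, fun s hs => ?_⟩
    have k : ∃ s' ∈ S, ψ s' = ψ s := ⟨s, hs, rfl⟩
    have m := mul_mem (inv_mem k.choose_spec.1) hs
    simp only [dif_pos k]
    exact QuotientGroup.eq.2 (d.y6_ker p (hS.le m) (P2.of_mem hS.isP m)
      (p.y6_div (hS.le k.choose_spec.1) (hS.le hs) k.choose_spec.2))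
  have hQ : ∀ x ∈ F.UV, ε x ∈ S := fun x hx => hS.le_of_le_normalizer (d.isP le_rfl F.y6_Z) d.PL
    (hS.le.trans inf_le_right) (d.y6_Q hx)
  have hε : ∀ x (hx : x ∈ F.UV), ι x = π ⟨ε x, d.εY hx⟩ := fun x hx => by
    rw [← hι _ (hQ x hx), p.inv x hx]
  have mu : ∀ x ∈ P, ∀ y ∈ P, ι (x * y) = ι x * ι y := fun x hx y hy => by
    obtain ⟨a, ha, rfl⟩ := (h x).1 hx
    obtain ⟨b, hb, rfl⟩ := (h y).1 hy
    rw [← p.mul _ (hS.le ha) _ (hS.le hb), hι _ (mul_mem ha hb), hι _ ha, hι _ hb, ← map_mul]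
    rfl
  refine ⟨_, inferInstance, inferInstance, π, QuotientGroup.mk'_surjective _, (QuotientGroup.ker_mk' _).le.trans hc,
    P, ι, hP, hT, mu, fun x hx e => ?_, ?_, fun n hn => ?_, fun n hn => ?_⟩
  · obtain ⟨a, ha, rfl⟩ := (h x).1 hx
    rw [hι _ ha] at e
    exact p.z2 _ (mem_subgroupOf.1 ((QuotientGroup.eq_one_iff _).1 e))
  · have k := hY.subgroupOf_top.map π
    rw [map_top_of_surjective _ (QuotientGroup.mk'_surjective _)] at k
    convert k using 1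
    refine le_antisymm (im_le.2 fun x hx => ?_) ?_
    · obtain ⟨a, ha, rfl⟩ := (h x).1 hx
      exact ⟨⟨a, hY.le ha⟩, ha, (hι a ha).symm⟩
    · rintro _ ⟨s, hs, rfl⟩
      exact hι s hs ▸ mem_im_self ι ((h _).2 ⟨s, hs, rfl⟩)
  · obtain ⟨y, hy, e⟩ := d.p9 hn
    refine ⟨π ⟨y, hy⟩, fun u hu => ?_⟩
    rw [hε _ (F.mU hu), hε _ (F.mU (conj_mem_of_mem_normalizer hn.2 hu)), ← map_inv, ← map_mul, ← map_mul]
    exact congrArg π (Subtype.ext (e u hu))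
  · obtain ⟨y, hy, e⟩ := d.swap.p9 hn
    rw [YY_sw] at hy
    refine ⟨π ⟨y, hy⟩, fun u hu => ?_⟩
    rw [hε _ (F.mV (F.sw_U hu)), hε _ (F.mV (F.sw_U (conj_mem_of_mem_normalizer hn.2 hu))), ← map_inv, ← map_mul,
      ← map_mul]
    exact congrArg π (Subtype.ext (e u hu))

end H60.ML
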